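import Mathlib
import Cfsg.Prelude.Def_Sporadic_a
import Cfsg.Agent.H14.Steiner
import Cfsg.Agent.Eqns.E_Cfsg_pointBlockRel

/-!
Counting in an S(3,6,22) and the graphs on its blocks.
* `H14.two_val_count`; `S22_ncard` (77), `S22_pt` (21), `S22_pair` (5), `S22_disj` (16), `S22_pt_disj` (6),
  `S22_no_triangle`, `S22_mu` (4).
* `blockGraph_adj`, `pbAdj_*` adjacency in `pointBlockGraph`, `ncard_optSum` counting vertices by kind,
  `blockGraph_srg`, `pointBlockGraph_srg`.
-/

set_option linter.unusedSectionVars false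

namespace H14

open Finset Cfsg

variable {α : Type*} [Fintype α] [DecidableEq α] {B : Set (Finset α)}

theorem two_val_count (F : Set (Finset α)) (w : Finset α) (n : ℕ)
    (h : ∀ y ∈ w, {d | d ∈ F ∧ y ∈ d}.ncard = n)
    (h2 : ∀ d ∈ F, (w ∩ d).card = 0 ∨ (w ∩ d).card = 2) :
    2 * F.ncard = 2 * {d | d ∈ F ∧ Disjoint w d}.ncard + w.card * n := by
  classical
  have h3 := sum_card_inter (s := w) (B := (Set.toFinite F).toFinset) (n := n) (by
    intro y hy
    rw [← h y hy, ncard_eq_filter]; congr 1; ext d; simp)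
  have h4 : {d | d ∈ F ∧ Disjoint w d}.ncard =
      ∑ d ∈ (Set.toFinite F).toFinset, if Disjoint w d then 1 else 0 := by
    rw [← card_filter, ncard_eq_filter]; congr 1; ext d; simp
  rw [← h3, h4, Set.ncard_eq_toFinset_card F, card_eq_sum_ones, mul_sum, mul_sum, ← sum_add_distrib]
  apply sum_congr rfl
  intro d hd
  simp only [disjoint_iff_inter_eq_empty, ← card_eq_zero]
  rcases h2 d (by simpa using hd) with h | h <;> simp [h]

variable (hα : Fintype.card α = 22) (hB : IsSteinerSystem 3 6 B)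
include hα hB

theorem S22_ncard : B.ncard = 77 := by
  have := nb_eq_lam hB hα lam22 lam22_ok.1 ∅ (by simp)
  rw [nb_empty_empty, card_empty, show lam22 0 = 77 from rfl] at this
  exact_mod_cast this

theorem S22_pt (x : α) : {d | d ∈ B ∧ x ∈ d}.ncard = 21 := by
  have := nb_eq_lam hB hα lam22 lam22_ok.1 {x} (by simp)
  simp only [nb, singleton_subset_iff, disjoint_empty_left, and_true, card_singleton,
    show lam22 1 = 21 from rfl] at this
  exact_mod_cast this

theorem S22_pair {x y : α} (h : x ≠ y) : {d | d ∈ B ∧ x ∈ d ∧ y ∈ d}.ncard = 5 := by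
  have := nb_eq_lam hB hα lam22 lam22_ok.1 {x, y} (by rw [card_pair h]; norm_num)
  simp only [nb, insert_subset_iff, singleton_subset_iff, disjoint_empty_left, and_true,
    card_pair h, show lam22 2 = 5 from rfl] at this
  exact_mod_cast this

theorem S22_disj {b : Finset α} (hb : b ∈ B) : {d | d ∈ B ∧ Disjoint b d}.ncard = 16 := by
  have h := block_inter_eq hB hα lam22_ok hb (empty_subset b)
  rw [card_empty, show tri lam22 (6 - 0) 0 = 16 by decide +kernel] at h
  simp only [disjoint_iff_inter_eq_empty]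
  exact_mod_cast h

theorem S22_pt_disj {b : Finset α} (hb : b ∈ B) {x : α} (hx : x ∉ b) :
    {d | d ∈ B ∧ x ∈ d ∧ Disjoint b d}.ncard = 6 := by
  have := two_val_count {d | d ∈ B ∧ x ∈ d} b 5 (fun y hy => by
    rw [← S22_pair hα hB (x := x) (y := y) (fun h => hx (h ▸ hy))]
    simp only [Set.mem_ofPred_eq, and_assoc]) (fun d hd =>
      S22_inter hα hB hb hd.1 fun h => hx (h ▸ hd.2))
  rw [S22_pt hα hB, hB.1 b hb] at this
  simp only [Set.mem_ofPred_eq, and_assoc] at this
  omega

theorem S22_no_triangle {b c d : Finset α} (hb : b ∈ B) (hc : c ∈ B) (hd : d ∈ B)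
    (hbc : Disjoint b c) (hbd : Disjoint b d) (hcd : Disjoint c d) : False := by
  have hne : ∀ {x y : Finset α}, x ∈ B → Disjoint x y → y ≠ x := by
    intro x y hx h e
    subst e
    rw [disjoint_self, bot_eq_empty] at h
    have := hB.1 _ hx
    rw [h] at this; simp at this
  have h15 : ({d | d ∈ B ∧ Disjoint b d} \ {c}).ncard = 15 := by
    rw [Set.ncard_sdiff_singleton_of_mem (by exact ⟨hc, hbc⟩), S22_disj hα hB hb]
  have := two_val_count ({d | d ∈ B ∧ Disjoint b d} \ {c}) c 5 (fun y hy => by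
    have h6 := S22_pt_disj hα hB hb (x := y) (fun h => disjoint_left.1 hbc h hy)
    have h7 := Set.ncard_sdiff_singleton_of_mem (a := c)
      (s := {d | d ∈ B ∧ y ∈ d ∧ Disjoint b d}) ⟨hc, hy, hbc⟩
    rw [h6] at h7
    rw [← show 6 - 1 = 5 from rfl, ← h7]
    congr 1; ext e
    simp only [Set.mem_ofPred_eq, Set.mem_sdiff, Set.mem_singleton_iff]; tauto) (fun e he =>
      S22_inter hα hB hc he.1.1 fun h => he.2 h.symm)
  rw [h15, hB.1 c hc] at this
  have h0 : {e | e ∈ {d | d ∈ B ∧ Disjoint b d} \ {c} ∧ Disjoint c e}.ncard = 0 := by omega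
  rw [Set.ncard_eq_zero (Set.toFinite _), Set.eq_empty_iff_forall_notMem] at h0
  exact h0 d ⟨⟨⟨hd, hbd⟩, hne hc hcd⟩, hcd⟩

theorem S22_mu {b c : Finset α} (hb : b ∈ B) (hc : c ∈ B) (hbc : b ≠ c) (h : ¬ Disjoint b c) :
    {d | d ∈ B ∧ Disjoint b d ∧ Disjoint c d}.ncard = 4 := by
  have h2 : (b ∩ c).card = 2 := (S22_inter hα hB hb hc hbc).resolve_left (by
    rwa [card_eq_zero, ← disjoint_iff_inter_eq_empty])
  have h4 : (c \ b).card = 4 := by
    have := card_sdiff_add_card_inter c b; rw [hB.1 c hc, inter_comm] at this; omega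
  have e : ∀ d, Disjoint b d → (c \ b) ∩ d = c ∩ d := by
    intro d hd; ext x
    have := @disjoint_left.1 hd x
    simp only [mem_inter, mem_sdiff]; tauto
  have := two_val_count {d | d ∈ B ∧ Disjoint b d} (c \ b) 6 (fun y hy => by
    rw [← S22_pt_disj hα hB hb (x := y) (mem_sdiff.1 hy).2]
    congr 1; ext e
    simp only [Set.mem_ofPred_eq]; tauto) (fun d hd => by
      rw [e d hd.2]
      exact S22_inter hα hB hc hd.1 fun h' => h (h' ▸ hd.2))
  rw [S22_disj hα hB hb, h4] at this
  have h5 : {d | d ∈ B ∧ Disjoint b d ∧ Disjoint c d} =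
      {d | d ∈ {d | d ∈ B ∧ Disjoint b d} ∧ Disjoint (c \ b) d} := by
    ext d
    simp only [Set.mem_ofPred_eq, and_assoc, and_congr_right_iff]
    intro _ hd
    rw [disjoint_iff_inter_eq_empty, disjoint_iff_inter_eq_empty, e d hd]
  rw [h5]; omega

omit hα in
theorem S22_ne_of_disj {b c : Finset α} (hb : b ∈ B) (h : Disjoint b c) : b ≠ c := by
  rintro rfl
  rw [disjoint_self, bot_eq_empty] at h
  have := hB.1 _ hb
  rw [h] at this; simp at this

omit hα in
theorem blockGraph_adj (b c : B) : (blockGraph B).Adj b c ↔ Disjoint (b : Finset α) c := by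
  rw [blockGraph, SimpleGraph.fromRel_adj]
  constructor
  · rintro ⟨-, h | h⟩
    · exact h
    · exact h.symm
  · intro h
    exact ⟨fun e => S22_ne_of_disj hB b.2 h (congrArg Subtype.val e), Or.inl h⟩

omit hα hB in
theorem ncard_subtype_set (P : Finset α → Prop) :
    {c : B | P c}.ncard = {c | c ∈ B ∧ P c}.ncard := by
  rw [← Set.ncard_image_of_injective _ Subtype.val_injective]
  congr 1; ext c; simp [and_comm]

theorem blockGraph_srg [Fintype B] [DecidableRel (blockGraph B).Adj] :
    (blockGraph B).IsSRGWith 77 16 0 4 where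
  card := by rw [← S22_ncard hα hB, Set.ncard_eq_toFinset_card', Set.toFinset_card]
  regular := by
    intro b
    rw [← SimpleGraph.card_neighborSet_eq_degree, ← Nat.card_eq_fintype_card, Nat.card_coe_set_eq,
      ← S22_disj hα hB b.2, ← ncard_subtype_set]
    congr 1; ext c; exact blockGraph_adj hB b c
  of_adj := by
    intro b c h
    rw [Fintype.card_eq_zero_iff]
    refine ⟨fun d => ?_⟩
    have := d.2
    rw [SimpleGraph.mem_commonNeighbors, blockGraph_adj hB, blockGraph_adj hB] at this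
    exact S22_no_triangle hα hB b.2 c.2 d.1.2 ((blockGraph_adj hB b c).1 h) this.1 this.2
  of_not_adj := by
    intro b c hbc h
    rw [blockGraph_adj hB] at h
    rw [← Nat.card_eq_fintype_card, Nat.card_coe_set_eq,
      ← S22_mu hα hB b.2 c.2 (fun e => hbc (Subtype.ext e)) h, ← ncard_subtype_set]
    congr 1; ext d
    rw [SimpleGraph.mem_commonNeighbors, blockGraph_adj hB, blockGraph_adj hB]; rfl

omit hα hB

theorem pbAdj_none_none : ¬ (pointBlockGraph B).Adj none none := SimpleGraph.irrefl _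
theorem pbAdj_none_pt (a : α) : (pointBlockGraph B).Adj none (some (.inl a)) := by
  simp [pointBlockGraph, SimpleGraph.fromRel_adj, pointBlockRel]
theorem pbAdj_none_bl (b : B) : ¬ (pointBlockGraph B).Adj none (some (.inr b)) := by
  simp [pointBlockGraph, SimpleGraph.fromRel_adj, pointBlockRel]
theorem pbAdj_pt_none (a : α) : (pointBlockGraph B).Adj (some (.inl a)) none := (pbAdj_none_pt a).symm
theorem pbAdj_bl_none (b : B) : ¬ (pointBlockGraph B).Adj (some (.inr b)) none :=
  fun h => pbAdj_none_bl b h.symm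
theorem pbAdj_pt_pt (a a' : α) : ¬ (pointBlockGraph B).Adj (some (.inl a)) (some (.inl a')) := by
  simp [pointBlockGraph, SimpleGraph.fromRel_adj, pointBlockRel]
theorem pbAdj_pt_bl (a : α) (b : B) :
    (pointBlockGraph B).Adj (some (.inl a)) (some (.inr b)) ↔ a ∈ (b : Finset α) := by
  simp [pointBlockGraph, SimpleGraph.fromRel_adj, pointBlockRel]
theorem pbAdj_bl_pt (a : α) (b : B) :
    (pointBlockGraph B).Adj (some (.inr b)) (some (.inl a)) ↔ a ∈ (b : Finset α) := by
  rw [SimpleGraph.adj_comm, pbAdj_pt_bl]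
theorem pbAdj_bl_bl (hB : IsSteinerSystem 3 6 B) (b c : B) :
    (pointBlockGraph B).Adj (some (.inr b)) (some (.inr c)) ↔ Disjoint (b : Finset α) c := by
  rw [← blockGraph_adj hB]
  simp [pointBlockGraph, blockGraph, SimpleGraph.fromRel_adj, pointBlockRel]

open Classical in
theorem ncard_eq_sum_ite {δ : Type*} [Fintype δ] (T : Set δ) :
    T.ncard = ∑ x, if x ∈ T then 1 else 0 := by
  rw [← card_filter, ← Set.ncard_coe_finset]; congr 1; ext x; simp

open Classical in
theorem ncard_optSum {β γ : Type*} [Finite β] [Finite γ] (S : Set (Option (β ⊕ γ))) :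
    S.ncard = (if none ∈ S then 1 else 0) + {a | some (.inl a) ∈ S}.ncard +
      {b | some (.inr b) ∈ S}.ncard := by
  have := Fintype.ofFinite β
  have := Fintype.ofFinite γ
  rw [ncard_eq_sum_ite, ncard_eq_sum_ite, ncard_eq_sum_ite, Fintype.sum_option, Fintype.sum_sum_type, add_assoc]
  rfl

include hα hB in
theorem pointBlockGraph_srg [Fintype B] [DecidableRel (pointBlockGraph B).Adj] :
    (pointBlockGraph B).IsSRGWith 100 22 0 6 where
  card := by
    rw [Fintype.card_option, Fintype.card_sum, hα, ← Set.toFinset_card, ← Set.ncard_eq_toFinset_card',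
      S22_ncard hα hB]
  regular := by
    intro v
    rw [← SimpleGraph.card_neighborSet_eq_degree, ← Nat.card_eq_fintype_card, Nat.card_coe_set_eq,
      ncard_optSum]
    simp only [SimpleGraph.mem_neighborSet]
    rcases v with _ | a | b
    · simp [pbAdj_none_pt, pbAdj_none_bl, Set.ncard_univ, hα]
    · simp only [pbAdj_pt_none, pbAdj_pt_pt, pbAdj_pt_bl]
      rw [ncard_subtype_set (fun c => a ∈ c), S22_pt hα hB]; simp
    · simp only [pbAdj_bl_none, pbAdj_bl_pt, pbAdj_bl_bl hB]
      rw [ncard_subtype_set (fun c => Disjoint (b : Finset α) c), S22_disj hα hB b.2]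
      simp [hB.1 b b.2]
  of_adj := by
    intro v w h
    rw [Fintype.card_eq_zero_iff]
    refine ⟨fun ⟨d, hd⟩ => ?_⟩
    rw [SimpleGraph.mem_commonNeighbors] at hd
    obtain ⟨h1, h2⟩ := hd
    rcases v with _ | a | b <;> rcases w with _ | a' | b' <;> rcases d with _ | a'' | b'' <;>
      simp only [pbAdj_none_none, pbAdj_none_bl, pbAdj_bl_none, pbAdj_pt_pt, pbAdj_pt_bl, pbAdj_bl_pt,
        pbAdj_bl_bl hB] at h h1 h2
    · exact disjoint_left.1 h2 h h1
    · exact disjoint_left.1 h1 h h2
    · exact disjoint_left.1 h h1 h2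
    · exact S22_no_triangle hα hB b.2 b'.2 b''.2 h h1 h2
  of_not_adj := by
    intro v w hvw h
    rw [← Nat.card_eq_fintype_card, Nat.card_coe_set_eq, ncard_optSum]
    simp only [SimpleGraph.mem_commonNeighbors]
    rcases v with _ | a | b <;> rcases w with _ | a' | b' <;>
      simp only [pbAdj_none_none, pbAdj_none_pt, pbAdj_pt_none, pbAdj_none_bl, pbAdj_bl_none, pbAdj_pt_pt,
        pbAdj_pt_bl, pbAdj_bl_pt, pbAdj_bl_bl hB, not_true_eq_false] at h ⊢
    · exact absurd rfl hvw
    · simp [hB.1 b' b'.2]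
    · rw [ncard_subtype_set (fun c => a ∈ c ∧ a' ∈ c), S22_pair hα hB (fun e => hvw (by rw [e]))]
      simp
    · rw [ncard_subtype_set (fun c => a ∈ c ∧ Disjoint (b' : Finset α) c), S22_pt_disj hα hB b'.2 h]
      simp
    · simp [hB.1 b b.2]
    · simp only [and_comm (a := Disjoint (b : Finset α) _)]
      rw [ncard_subtype_set (fun c => a' ∈ c ∧ Disjoint (b : Finset α) c), S22_pt_disj hα hB b.2 h]
      simp
    · have hne : (b : Finset α) ≠ b' := fun e => hvw (by rw [Subtype.ext e])
      rw [ncard_subtype_set (fun c => Disjoint (b : Finset α) c ∧ Disjoint (b' : Finset α) c),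
        S22_mu hα hB b.2 b'.2 hne h]
      have h2 : ((b : Finset α) ∩ b').card = 2 := (S22_inter hα hB b.2 b'.2 hne).resolve_left (by
        rwa [card_eq_zero, ← disjoint_iff_inter_eq_empty])
      have : {a | a ∈ (b : Finset α) ∧ a ∈ (b' : Finset α)} = ↑((b : Finset α) ∩ b') := by
        ext a; simp
      rw [this, Set.ncard_coe_finset, h2]; simp

end H14
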