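import Mathlib
import Cfsg.Agent.H14.Witt
import Cfsg.Agent.H14.S22

/-! Uniqueness of the strongly regular graph with parameters (100, 22, 0, 6): `H14.srg100_pb` (it is the point-block graph of an
S(3, 6, 22), with any vertex as the extra vertex), `pbMap`, `srg100_iso`, `card_aut_pb`. -/

namespace H14

open Finset Cfsg MulAction
open scoped Pointwise

theorem sum_card_inter {ι V : Type*} [DecidableEq V] (R : Finset ι) (b : ι → Finset V) (s : Finset V) :
    ∑ w ∈ R, (s ∩ b w).card = ∑ p ∈ s, (R.filter fun w => p ∈ b w).card := by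
  simp only [← filter_mem_eq_inter, card_filter]; exact sum_comm

theorem sum_card_inter_sq {ι V : Type*} [DecidableEq V] (R : Finset ι) (b : ι → Finset V) (s : Finset V) :
    ∑ w ∈ R, (s ∩ b w).card ^ 2 = ∑ p ∈ s, ∑ q ∈ s, (R.filter fun w => p ∈ b w ∧ q ∈ b w).card := by
  simp only [← filter_mem_eq_inter, card_filter, sq, sum_mul_sum, ite_mul, one_mul, zero_mul, ← ite_and]
  rw [sum_comm]; exact sum_congr rfl fun _ _ => sum_comm

theorem sum_sum_pair {V : Type*} [DecidableEq V] (s : Finset V) (f : V → V → ℕ) {r l : ℕ} (h1 : ∀ p ∈ s, f p p = r)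
    (h2 : ∀ p ∈ s, ∀ q ∈ s, p ≠ q → f p q = l) : ∑ p ∈ s, ∑ q ∈ s, f p q = s.card * (r + (s.card - 1) * l) := by
  rw [← smul_eq_mul, ← sum_const]
  refine sum_congr rfl fun p hp => ?_
  rw [← add_sum_erase _ _ hp, h1 p hp, sum_congr rfl fun q hq => h2 p hp q (mem_of_mem_erase hq) (ne_of_mem_erase hq).symm,
    sum_const, card_erase_of_mem hp, smul_eq_mul]

section SRG
variable {V : Type*} [Fintype V] [DecidableEq V] {G : SimpleGraph V} [DecidableRel G.Adj] {n k m : ℕ}

theorem card_cn (v w : V) : Fintype.card (G.commonNeighbors v w) = (G.neighborFinset v ∩ G.neighborFinset w).card := by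
  rw [← Set.toFinset_card]; congr 1; ext x; simp [SimpleGraph.mem_commonNeighbors]

/-- the vertices at distance two -/
def far (G : SimpleGraph V) [DecidableRel G.Adj] (x : V) : Finset V := univ.filter fun w => w ≠ x ∧ ¬ G.Adj x w

theorem mem_far {x w : V} : w ∈ far G x ↔ w ≠ x ∧ ¬ G.Adj x w := by simp [far]

variable (hG : G.IsSRGWith n k 0 m)
include hG

theorem srg_deg (v : V) : (G.neighborFinset v).card = k := hG.regular.degree_eq v

theorem srg_tri {u v w : V} (h1 : G.Adj u v) (h2 : G.Adj u w) : ¬ G.Adj v w := fun h =>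
  (Fintype.card_eq_zero_iff.1 (hG.of_adj v w h)).false ⟨u, h1.symm, h2.symm⟩

theorem srg_mu {v w : V} (h : v ≠ w) (h' : ¬ G.Adj v w) : (G.neighborFinset v ∩ G.neighborFinset w).card = m :=
  (card_cn v w).symm.trans (hG.of_not_adj h h')

theorem card_far (x : V) : (far G x).card = n - 1 - k := by
  have : far G x = (insert x (G.neighborFinset x))ᶜ := by ext w; simp [mem_far]
  rw [this, card_compl, hG.card, card_insert_of_notMem (by simp), srg_deg hG]; omega

theorem far_pt {x p : V} (hp : G.Adj x p) : ((far G x).filter fun w => p ∈ G.neighborFinset w).card = k - 1 := by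
  rw [← srg_deg hG p, ← card_erase_of_mem (a := x) (by simpa using hp.symm)]
  congr 1; ext w
  simp only [mem_filter, mem_far, mem_erase, SimpleGraph.mem_neighborFinset]
  exact ⟨fun h => ⟨h.1.1, h.2.symm⟩, fun h => ⟨⟨h.1, srg_tri hG hp.symm h.2⟩, h.2.symm⟩⟩

theorem far_pair {x p q : V} (hp : G.Adj x p) (hq : G.Adj x q) (h : p ≠ q) :
    ((far G x).filter fun w => p ∈ G.neighborFinset w ∧ q ∈ G.neighborFinset w).card = m - 1 := by
  rw [← srg_mu hG h (srg_tri hG hp hq), ← card_erase_of_mem (a := x) (by simp [hp.symm, hq.symm])]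
  congr 1; ext w
  simp only [mem_filter, mem_far, mem_erase, mem_inter, SimpleGraph.mem_neighborFinset]
  exact ⟨fun h => ⟨h.1.1, h.2.1.symm, h.2.2.symm⟩, fun h => ⟨⟨h.1, srg_tri hG hp.symm h.2.1⟩, h.2.1.symm, h.2.2.symm⟩⟩

theorem far_nb {x w : V} (hw : w ∈ far G x) : ((far G x).filter fun v => G.Adj w v).card = k - m := by
  obtain ⟨h1, h2⟩ := mem_far.1 hw
  rw [← srg_deg hG w, ← srg_mu hG h1 fun h => h2 h.symm, ← card_sdiff_of_subset inter_subset_left]
  congr 1; ext v
  simp only [mem_filter, mem_far, mem_sdiff, mem_inter, SimpleGraph.mem_neighborFinset]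
  exact ⟨fun h => ⟨h.2, fun c => h.1.2 c.2⟩, fun h => ⟨⟨fun c => h2 (c ▸ h.1.symm), fun c => h.2 ⟨h.1, c⟩⟩, h.1⟩⟩

end SRG

section HS
variable {V : Type*} [Fintype V] [DecidableEq V] {G : SimpleGraph V} [DecidableRel G.Adj]

theorem srg100_inter (hG : G.IsSRGWith 100 22 0 6) {x w v : V} (hw : w ∈ far G x) (hv : v ∈ far G x) (h : v ≠ w)
    (h' : ¬ G.Adj w v) : (G.neighborFinset x ∩ G.neighborFinset w ∩ G.neighborFinset v).card = 2 := by
  set s := G.neighborFinset x ∩ G.neighborFinset w with hs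
  have c : s.card = 6 := srg_mu hG (mem_far.1 hw).1.symm (mem_far.1 hw).2
  have a : ∀ p ∈ s, G.Adj x p := fun p hp => (SimpleGraph.mem_neighborFinset _ _ _).1 (mem_inter.1 hp).1
  have h1 := sum_card_inter (far G x) (fun u => G.neighborFinset u) s
  rw [sum_congr rfl fun p hp => far_pt hG (a p hp), sum_const, c] at h1
  have h2 := sum_card_inter_sq (far G x) (fun u => G.neighborFinset u) s
  rw [sum_sum_pair s _ (fun p hp => by simp only [and_self]; exact far_pt hG (a p hp))
    (fun p hp q hq => far_pair hG (a p hp) (a q hq)), c] at h2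
  have h3 : ∑ u ∈ far G x, (((s ∩ G.neighborFinset u).card : ℤ) - 2) ^ 2 = 80 := by
    simp only [sub_sq, sum_add_distrib, sum_sub_distrib, mul_assoc, ← mul_sum, ← sum_mul, sum_const, card_far hG]
    have a1 := congrArg (Nat.cast (R := ℤ)) h1
    have a2 := congrArg (Nat.cast (R := ℤ)) h2
    push_cast at a1 a2
    rw [a1, a2]; norm_num
  have h4 : insert v (insert w ((far G x).filter fun u => G.Adj w u)) ⊆ far G x :=
    insert_subset hv (insert_subset hw (filter_subset _ _))
  have h5 := sum_le_sum_of_subset_of_nonneg h4 (f := fun u => (((s ∩ G.neighborFinset u).card : ℤ) - 2) ^ 2) fun _ _ _ => sq_nonneg _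
  rw [h3, sum_insert (by simp [h, h']), sum_insert (by simp), sum_congr rfl (g := fun _ => 4) fun u hu => by
    rw [show s ∩ G.neighborFinset u = ∅ from eq_empty_of_forall_notMem fun y hy => by
      simp only [hs, mem_inter, SimpleGraph.mem_neighborFinset] at hy
      exact srg_tri hG (mem_filter.1 hu).2 hy.1.2 hy.2]; rfl, sum_const, far_nb hG hw,
    show s ∩ G.neighborFinset w = s by rw [hs, inter_assoc, inter_self], c] at h5
  norm_num at h5
  omega

theorem srg100_pb (hG : G.IsSRGWith 100 22 0 6) (x : V) : ∃ B : Set (Finset (G.neighborFinset x)), IsSteinerSystem 3 6 B ∧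
    ∃ f : pointBlockGraph B ≃g G, f none = x := by
  let β : V → Finset (G.neighborFinset x) := fun w => (G.neighborFinset w).subtype _
  have m : ∀ w a, a ∈ β w ↔ G.Adj w a := fun w a => by simp [β]
  have c1 : ∀ w ∈ far G x, (β w).card = 6 := fun w hw => by
    rw [card_subtype, filter_mem_eq_inter, inter_comm]; exact srg_mu hG (mem_far.1 hw).1.symm (mem_far.1 hw).2
  have c2 : ∀ w ∈ far G x, ∀ v ∈ far G x, v ≠ w → ¬ G.Adj w v → (β w ∩ β v).card = 2 := fun w hw v hv h h' => by
    rw [← srg100_inter hG hw hv h h', ← card_map (Function.Embedding.subtype _)]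
    congr 1; ext y; simp [β]; tauto
  have c0 : ∀ w v, G.Adj w v → Disjoint (β w) (β v) := fun w v h => disjoint_left.2 fun a h1 h2 =>
    srg_tri hG h ((m _ _).1 h1) ((m _ _).1 h2)
  have c3 : ∀ w ∈ far G x, ∀ v ∈ far G x, 3 ≤ (β w ∩ β v).card → w = v := fun w hw v hv h => by
    by_contra c
    by_cases d : G.Adj w v
    · rw [disjoint_iff_inter_eq_empty.1 (c0 w v d)] at h; cases h
    · rw [c2 w hw v hv (Ne.symm c) d] at h; omega
  have inj : Set.InjOn β (far G x) := fun w hw v hv h => c3 w hw v hv (by rw [← h, inter_self, c1 w hw]; omega)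
  have hc : Fintype.card (G.neighborFinset x) = 22 := (Fintype.card_coe _).trans (srg_deg hG x)
  have hB : IsSteinerSystem 3 6 (β '' far G x) := steiner_of_count (by rintro _ ⟨w, hw, rfl⟩; exact c1 w hw)
    (by rintro _ ⟨w, hw, rfl⟩ _ ⟨v, hv, rfl⟩ h; rw [c3 w hw v hv h])
    (by rw [inj.ncard_image, Set.ncard_coe_finset, card_far hG, hc]; rfl)
  refine ⟨_, hB, ?_⟩
  choose w hw hw' using fun b : β '' far G x => b.2
  let g : Option (G.neighborFinset x ⊕ β '' far G x) → V := fun u => u.elim x (Sum.elim (↑) w)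
  have a : ∀ p : G.neighborFinset x, G.Adj x p := fun p => (SimpleGraph.mem_neighborFinset _ _ _).1 p.2
  have bij : g.Bijective := by
    constructor
    · rintro (_ | p | b) (_ | q | c) h <;> simp only [g, Option.elim, Sum.elim_inl, Sum.elim_inr] at h
      · rfl
      · exact absurd h (a q).ne
      · exact absurd h.symm (mem_far.1 (hw c)).1
      · exact absurd h.symm (a p).ne
      · rw [Subtype.ext h]
      · exact absurd (h ▸ a p) (mem_far.1 (hw c)).2
      · exact absurd h (mem_far.1 (hw b)).1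
      · exact absurd (h.symm ▸ a q) (mem_far.1 (hw b)).2
      · rw [Subtype.ext ((hw' b).symm.trans ((congrArg β h).trans (hw' c)))]
    · intro v
      by_cases h : v = x
      · exact ⟨none, h.symm⟩
      by_cases h' : G.Adj x v
      · exact ⟨some (.inl ⟨v, (SimpleGraph.mem_neighborFinset _ _ _).2 h'⟩), rfl⟩
      · exact ⟨some (.inr ⟨_, v, mem_far.2 ⟨h, h'⟩, rfl⟩), inj (hw _) (mem_far.2 ⟨h, h'⟩) (hw' _)⟩
  refine ⟨⟨Equiv.ofBijective g bij, ?_⟩, rfl⟩
  rintro (_ | p | b) (_ | q | c) <;> simp only [Equiv.ofBijective_apply, g, Option.elim, Sum.elim_inl, Sum.elim_inr,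
    SimpleGraph.irrefl, pbAdj_none_pt, pbAdj_pt_none, pbAdj_none_bl, pbAdj_bl_none, pbAdj_pt_pt, pbAdj_pt_bl, pbAdj_bl_pt,
    pbAdj_bl_bl hB, iff_true, iff_false]
  · exact a q
  · exact (mem_far.1 (hw c)).2
  · exact (a p).symm
  · exact srg_tri hG (a p) (a q)
  · rw [← hw' c, m, G.adj_comm]
  · exact fun h => (mem_far.1 (hw b)).2 h.symm
  · rw [← hw' b, m]
  · rw [← hw' b, ← hw' c]
    refine ⟨c0 _ _, fun h => by_contra fun d => ?_⟩
    have h := card_eq_zero.2 (disjoint_iff_inter_eq_empty.1 h)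
    by_cases e : w c = w b
    · rw [e, inter_self, c1 _ (hw b)] at h; omega
    · rw [c2 _ (hw b) _ (hw c) e d] at h; omega

end HS

section PB
variable {α β : Type*} [Fintype α] [DecidableEq α] [Fintype β] [DecidableEq β] {B : Set (Finset α)} {B' : Set (Finset β)}

/-- the isomorphism of point-block graphs induced by an isomorphism of designs -/
def pbMap (hB : IsSteinerSystem 3 6 B) (hB' : IsSteinerSystem 3 6 B') (e : α ≃ β) (h : ∀ b, b ∈ B ↔ b.map e.toEmbedding ∈ B') :
    pointBlockGraph B ≃g pointBlockGraph B' where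
  toEquiv := (e.sumCongr (e.finsetCongr.subtypeEquiv h)).optionCongr
  map_rel_iff' := by
    rintro (_ | p | b) (_ | q | c) <;> simp [pbAdj_none_pt, pbAdj_pt_none, pbAdj_none_bl, pbAdj_bl_none, pbAdj_pt_pt,
      pbAdj_pt_bl, pbAdj_bl_pt, pbAdj_bl_bl hB, pbAdj_bl_bl hB']
    exacts [mem_map' e.toEmbedding, mem_map' e.toEmbedding, disjoint_map e.toEmbedding]

theorem pb_iso (hB : IsSteinerSystem 3 6 B) (hB' : IsSteinerSystem 3 6 B') (h : SetSystemIso B B') :
    ∃ f : pointBlockGraph B ≃g pointBlockGraph B', f none = none := by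
  obtain ⟨e, rfl⟩ := h
  exact ⟨pbMap hB hB' e fun b => by
    rw [map_eq_image]; exact ((image_injective e.injective).mem_set_image).symm, rfl⟩

theorem srg100_iso {V W : Type*} [Fintype V] [Fintype W] {G : SimpleGraph V} {H : SimpleGraph W} [DecidableRel G.Adj]
    [DecidableRel H.Adj] (hG : G.IsSRGWith 100 22 0 6) (hH : H.IsSRGWith 100 22 0 6) (x : V) (y : W) : ∃ f : G ≃g H, f x = y := by
  classical
  obtain ⟨B, hB, f, hf⟩ := srg100_pb hG x
  obtain ⟨B', hB', f', hf'⟩ := srg100_pb hH y
  obtain ⟨e, h⟩ := Sr.std22 ((Fintype.card_coe _).trans (srg_deg hG _)) hB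
  obtain ⟨e', h'⟩ := Sr.std22 ((Fintype.card_coe _).trans (srg_deg hH _)) hB'
  obtain ⟨g, hg⟩ := pb_iso hB hB' (h.iso h')
  exact ⟨(f.symm.trans g).trans f', ((congrArg (fun z => f' (g z)) (f.symm_apply_eq.2 hf.symm)).trans (congrArg f' hg)).trans hf'⟩

theorem card_aut_pb (hα : Fintype.card α = 22) (hB : IsSteinerSystem 3 6 B) :
    Nat.card (pointBlockGraph B ≃g pointBlockGraph B) = 88704000 := by
  classical
  have hG := pointBlockGraph_srg hα hB
  have m : ∀ (φ : setSystemAut B) b, b ∈ B ↔ b.map φ.1.toEmbedding ∈ B := fun φ b => by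
    rw [map_eq_image]
    exact (Set.smul_mem_smul_set_iff (a := φ.1)).symm.trans (by rw [mem_stabilizer_iff.1 φ.2]; rfl)
  have c : Nat.card (setSystemAut B) = Nat.card (stabilizer (pointBlockGraph B ≃g pointBlockGraph B) (none : Option (α ⊕ B))) := by
    refine Nat.card_congr (Equiv.ofBijective (fun φ => ⟨pbMap hB hB φ.1 (m φ), rfl⟩) ⟨fun φ ψ h => Subtype.ext (Equiv.ext fun a => ?_),
      fun f => ?_⟩)
    · have := DFunLike.congr_fun (congrArg Subtype.val h) (some (.inl a))
      exact Sum.inl_injective (Option.some_injective _ this)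
    · have hf : f.1 none = none := f.2
      have a1 : ∀ a, ∃ a', f.1 (some (.inl a)) = some (.inl a') := fun a => by
        have := f.1.map_rel_iff.2 (pbAdj_none_pt (B := B) a)
        rw [hf] at this
        rcases h : f.1 (some (.inl a)) with _ | a' | b <;> rw [h] at this
        exacts [absurd this pbAdj_none_none, ⟨a', rfl⟩, absurd this (pbAdj_none_bl b)]
      have a2 : ∀ b, ∃ b', f.1 (some (.inr b)) = some (.inr b') := fun b => by
        have := mt f.1.map_rel_iff.1 (pbAdj_none_bl (B := B) b)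
        rw [hf] at this
        rcases h : f.1 (some (.inr b)) with _ | a' | b'
        exacts [absurd (f.1.injective (h.trans hf.symm)) (by simp), absurd (h ▸ pbAdj_none_pt a') this, ⟨b', rfl⟩]
      choose σ hσ using a1
      choose τ hτ using a2
      have inj : σ.Injective := fun a a' h => Sum.inl_injective (Option.some_injective _ (f.1.injective (by rw [hσ, hσ, h])))
      let s : Equiv.Perm α := Equiv.ofBijective σ (Finite.injective_iff_bijective.1 inj)
      have k : ∀ b : B, b.1.map s.toEmbedding = τ b := fun b => by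
        ext a
        obtain ⟨a, rfl⟩ := s.surjective a
        rw [← pbAdj_pt_bl, ← hτ, show s a = σ a from rfl, ← hσ, f.1.map_rel_iff, pbAdj_pt_bl]
        exact mem_map' _
      refine ⟨⟨s, (mem_setSystemAut_iff _ _).2 fun b hb => ?_⟩, Subtype.ext (RelIso.ext ?_)⟩
      · have := k ⟨b, hb⟩
        rw [map_eq_image] at this
        exact (show s • b = _ from this) ▸ (τ _).2
      · rintro (_ | a | b)
        · exact hf.symm
        · exact (hσ a).symm
        · exact (congrArg (fun x => some (Sum.inr x)) (Subtype.ext (k b))).trans (hτ b).symm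
  have : IsPretransitive (pointBlockGraph B ≃g pointBlockGraph B) (Option (α ⊕ B)) := ⟨srg100_iso hG hG⟩
  rw [← Subgroup.index_mul_card (stabilizer (pointBlockGraph B ≃g pointBlockGraph B) (none : Option (α ⊕ B))), index_stabilizer_of_transitive, ← c,
    Sr.card_aut22 hα hB, Nat.card_eq_fintype_card, hG.card]

end PB

end H14
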