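import Mathlib
import Cfsg.Agent.H15.Inv
import Cfsg.Agent.H27.Res

/-!
Centralisers of involutions from words (namespace `H14.XS`).
* `aes_of_gens`, `Tri`, `tri_spec` (extraspecial groups from generators), `pcore_ext`;
* `card_le_orb`, `conj_le`, `cjA`, `cjOk`, `cj_le` (bounds for the order of a centraliser).
-/

set_option autoImplicit false

namespace H14.XS
open H13 H14.PK H14.PK.TS H27.MG Subgroup Cfsg
open scoped commutatorElement

variable {G : Type*} [Group G]

theorem aes_of_gens {t : G} (ht : orderOf t = 2) {s : Set G} (h1 : ∀ x ∈ s, Commute x t)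
    (h2 : ∀ x ∈ s, ∀ y ∈ s, ⁅x, y⁆ ∈ zpowers t) (h3 : ∀ x ∈ s, x ^ 2 ∈ zpowers t) :
    H04.AES 2 (closure (insert t s)) t := by
  have c : ∀ x ∈ closure (insert t s), Commute x t := fun x hx =>
    mem_centralizer_singleton_iff.1 ((closure_le (centralizer {t})).2 (by
      rintro y (rfl | hy)
      exacts [mem_centralizer_singleton_iff.2 rfl, mem_centralizer_singleton_iff.2 (h1 y hy)]) hx)
  have c' : ∀ x ∈ closure (insert t s), ∀ z ∈ zpowers t, x * z * x⁻¹ = z := fun x hx z ⟨k, e⟩ => by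
    rw [← e, mul_inv_eq_iff_eq_mul]; exact ((c x hx).zpow_right k).eq
  have d : ∀ x ∈ closure (insert t s), ∀ y ∈ closure (insert t s), ⁅x, y⁆ ∈ zpowers t := by
    intro x hx y hy
    induction hx, hy using closure_induction₂ with
    | mem x y hx hy =>
      rcases hx with rfl | hx
      · rw [(c y (subset_closure hy)).symm.commutator_eq]; exact one_mem _
      rcases hy with rfl | hy
      · rw [(h1 x hx).commutator_eq]; exact one_mem _
      exact h2 x hx y hy
    | one_left x hx => simp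
    | one_right x hx => simp
    | mul_left x y z hx hy hz a b =>
      rw [show ⁅x * y, z⁆ = x * ⁅y, z⁆ * x⁻¹ * ⁅x, z⁆ by group, c' x hx _ b]; exact mul_mem b a
    | mul_right x y z hx hy hz a b =>
      rw [show ⁅z, x * y⁆ = ⁅z, x⁆ * (x * ⁅z, y⁆ * x⁻¹) by group, c' x hx _ b]; exact mul_mem a b
    | inv_left x y hx hy a =>
      rw [show ⁅x⁻¹, y⁆ = x⁻¹ * ⁅x, y⁆⁻¹ * x⁻¹⁻¹ by group, c' _ (inv_mem hx) _ (inv_mem a)]; exact inv_mem a
    | inv_right x y hx hy a =>
      rw [show ⁅x, y⁻¹⁆ = y⁻¹ * ⁅x, y⁆⁻¹ * y⁻¹⁻¹ by group, c' _ (inv_mem hy) _ (inv_mem a)]; exact inv_mem a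
  refine ⟨ht, subset_closure (Set.mem_insert _ _), fun x hx => c x hx, d, fun x hx => ?_⟩
  induction hx using closure_induction with
  | mem x hx =>
    rcases hx with rfl | hx
    exacts [pow_mem (mem_zpowers _) 2, h3 x hx]
  | one => simp
  | mul x y hx hy a b =>
    rw [show (x * y) ^ 2 = x ^ 2 * ⁅x⁻¹, y⁆ * y ^ 2 by simp only [sq]; group]
    exact mul_mem (mul_mem a (d _ (inv_mem hx) _ hy)) b
  | inv x hx a => rw [inv_pow]; exact inv_mem a

/-- the second entries detect the first entries -/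
def Tri : List (G × G) → Prop
  | [] => True
  | p :: L => Tri L ∧ ¬ Commute p.1 p.2 ∧ ∀ q ∈ L, Commute q.1 p.2

theorem tri_spec [Finite G] {t : G} {Q : Subgroup G} (h : H04.AES 2 Q t) {L : List (G × G)} (hL : Tri L)
    (hQ : ∀ p ∈ L, p.1 ∈ Q ∧ p.2 ∈ Q) : 2 ^ (L.length + 1) ≤ Nat.card (closure (insert t {x | x ∈ L.map Prod.fst})) ∧
      ∀ x ∈ closure (insert t {x | x ∈ L.map Prod.fst}), (∀ p ∈ L, Commute x p.2) → x ∈ zpowers t := by
  induction L with
  | nil =>
    have : closure (insert t {x | x ∈ ([] : List (G × G)).map Prod.fst}) = zpowers t := by simp [zpowers_eq_closure]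
    rw [this, Nat.card_zpowers, h.ord]
    exact ⟨le_rfl, fun x hx _ => hx⟩
  | cons p L ih =>
    obtain ⟨a, b, c⟩ := hL
    obtain ⟨⟨p1, p2⟩, hQ'⟩ := List.forall_mem_cons.1 hQ
    obtain ⟨i1, i2⟩ := ih a hQ'
    set R := closure (insert t {x | x ∈ L.map Prod.fst})
    set R' := closure (insert t {x | x ∈ (p :: L).map Prod.fst})
    have hz : zpowers t ≤ R := zpowers_le.2 (subset_closure (Set.mem_insert _ _))
    have hR : ∀ x ∈ R, Commute x p.2 := fun x hx => mem_centralizer_singleton_iff.1 ((closure_le (centralizer {p.2})).2 (by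
      rintro y (rfl | hy)
      · exact mem_centralizer_singleton_iff.2 (h.cent _ p2).symm
      · obtain ⟨q, hq, rfl⟩ := List.mem_map.1 hy
        exact mem_centralizer_singleton_iff.2 (c q hq)) hx)
    have hR' : R' ≤ Q := (closure_le _).2 (by
      rintro y (rfl | hy)
      · exact h.mem
      · obtain ⟨q, hq, rfl⟩ := List.mem_map.1 hy
        exact (hQ q hq).1)
    have hle : R ≤ R' := closure_mono (Set.insert_subset_insert fun x hx => List.mem_cons_of_mem _ hx)
    have hp : p.1 ∈ R' := subset_closure (Set.mem_insert_of_mem _ List.mem_cons_self)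
    have s2 : p.1 * p.1 ∈ R := hz (sq p.1 ▸ h.pow _ p1)
    have dec : ∀ x ∈ R', x ∈ R ∨ p.1 * x ∈ R := fun x hx => by
      induction hx using closure_induction with
      | mem x hx =>
        rcases hx with rfl | hx
        · exact .inl (hz (mem_zpowers _))
        · rcases List.mem_cons.1 hx with rfl | hx
          exacts [.inr s2, .inl (subset_closure (Set.mem_insert_of_mem _ hx))]
      | one => exact .inl (one_mem _)
      | mul x y hx hy a b =>
        rcases a with a | a <;> rcases b with b | b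
        · exact .inl (mul_mem a b)
        · refine .inr ?_
          rw [show p.1 * (x * y) = ⁅p.1, x⁆ * x * (p.1 * y) by group]
          exact mul_mem (mul_mem (hz (h.comm _ p1 _ (hR' hx))) a) b
        · exact .inr (by rw [← mul_assoc]; exact mul_mem a b)
        · refine .inl ?_
          rw [show x * y = ⁅p.1⁻¹, p.1 * x⁆ * (p.1 * x) * (p.1 * p.1)⁻¹ * (p.1 * y) by group]
          exact mul_mem (mul_mem (mul_mem (hz (h.comm _ (inv_mem p1) _ (mul_mem p1 (hR' hx)))) a) (inv_mem s2)) b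
      | inv x hx a =>
        rcases a with a | a
        · exact .inl (inv_mem a)
        · refine .inr ?_
          rw [show p.1 * x⁻¹ = ⁅p.1, (p.1 * x)⁻¹⁆ * (p.1 * x)⁻¹ * (p.1 * p.1) by group]
          exact mul_mem (mul_mem (hz (h.comm _ p1 _ (inv_mem (mul_mem p1 (hR' hx))))) (inv_mem a)) s2
    refine ⟨?_, fun x hx hc => ?_⟩
    · obtain ⟨k, e⟩ := card_dvd_of_le hle
      have k0 : k ≠ 0 := fun c => (Nat.card_pos (α := R')).ne' (by rw [e, c, mul_zero])
      have k1 : k ≠ 1 := fun c => b (hR _ ((eq_of_le_of_card_ge hle (by rw [e, c, mul_one])).ge hp))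
      rw [e, List.length_cons, pow_succ]
      exact Nat.mul_le_mul i1 (by omega)
    · obtain ⟨c1, c2⟩ := List.forall_mem_cons.1 hc
      refine i2 x ((dec x hx).resolve_right fun d => b ?_) c2
      simpa using (hR _ d).mul_left c1.inv_left

theorem pcore_ext {A : Type*} [Group A] [Finite G] [IsSimpleGroup A] {t : G} {Q : Subgroup G} {f : A →* G}
    (X : H15.Ext t Q f) (hA : ¬ IsPGroup 2 A) : pCore 2 (centralizer ({t} : Set G)) = Q.subgroupOf (centralizer {t}) := by
  have := X.normal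
  obtain ⟨e⟩ := X.quot
  refine le_antisymm (sSup_le fun N ⟨h1, h2⟩ => ?_) (le_sSup ⟨this, X.extra.1.1⟩)
  let φ := e.toMonoidHom.comp (QuotientGroup.mk' (Q.subgroupOf (centralizer {t})))
  have s : Function.Surjective φ := e.surjective.comp (QuotientGroup.mk'_surjective _)
  have := (h1.map φ s).eq_bot_or_eq_top.resolve_right fun c => hA (by
    have := h2.map φ
    rw [c] at this
    exact this.of_equiv topEquiv)
  exact fun x hx => (QuotientGroup.eq_one_iff x).1 (e.injective ((mem_bot.1 (this.le (mem_map_of_mem φ hx))).trans (map_one e).symm))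

theorem conj_le [Finite G] {K : Subgroup G} (t : G) {L : List G} (hL : ∀ g ∈ L, g ∈ K)
    (nd : (L.map fun g => g * t * g⁻¹).Nodup) : L.length * Nat.card ↥(K ⊓ centralizer {t}) ≤ Nat.card K := by
  have := Nat.card_le_card_of_injective (fun x : Fin L.length × ↥(K ⊓ centralizer {t}) =>
    (⟨L[x.1] * x.2.1, mul_mem (hL _ (List.getElem_mem _)) x.2.2.1⟩ : K)) fun ⟨i, x⟩ ⟨j, y⟩ e => by
      have e : L[i] * x.1 = L[j] * y.1 := congrArg Subtype.val e
      have c : ∀ z : ↥(K ⊓ centralizer {t}), ∀ g : G, g * z.1 * t * (g * z.1)⁻¹ = g * t * g⁻¹ := fun z g => by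
        rw [mul_assoc g, mem_centralizer_singleton_iff.1 z.2.2]; group
      obtain rfl : i = j := Fin.ext ((List.Nodup.getElem_inj_iff nd (hi := by simp) (hj := by simp)).1 (by
        simp only [List.getElem_map]
        exact (c x _).symm.trans (e ▸ c y _)))
      exact Prod.ext rfl (Subtype.ext (mul_left_cancel e))
  simpa using this

variable {w n : ℕ} {S : TS G w n}

theorem card_le_orb (K : Subgroup G) {b : ℕ} (hb : b < n) {O : Finset ℕ} (h : ∀ g ∈ K, S.ap g b ∈ O) :
    Nat.card K ≤ O.card * Nat.card ↥(S.st b ⊓ K) := by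
  have := S.finite
  rw [card_eq_card_quotient_mul_card_subgroup ((S.st b).subgroupOf K), ← inf_subgroupOf_right,
    Nat.card_congr (subgroupOfEquivOfLe (inf_le_right : S.st b ⊓ K ≤ K)).toEquiv, inf_subgroupOf_right, ← Nat.card_eq_finsetCard]
  refine Nat.mul_le_mul_right _ (Nat.card_le_card_of_injective (fun x => (⟨S.ap x.out.1 b, h _ x.out.2⟩ : O)) fun x y e => ?_)
  have e : S.ap x.out.1 b = S.ap y.out.1 b := congrArg Subtype.val e
  rw [← x.out_eq, ← y.out_eq]
  exact QuotientGroup.eq.2 fun _ => by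
    change S.ap (x.out.1⁻¹ * y.out.1) b = b
    rw [S.ap_mul _ _ hb, ← e, S.ap_inv_ap _ hb]

/-- the words act in the same way on the points -/
noncomputable def eqP (w n : ℕ) (bs Ts u v : List ℕ) : Bool :=
  allL (fun b => Nat.beq (apV w n Ts u b) (apV w n Ts v b)) bs

variable {bs Ts : List ℕ}

theorem eqP_iff (hb : S.Base bs) (h : ∀ t ∈ Ts, S.In ⊤ t) {u v : List ℕ} :
    eqP w n bs Ts u v = true ↔ evalW (gn S Ts) u = evalW (gn S Ts) v := by
  simp only [eqP, allL_iff, Nat.beq_eq]
  exact ⟨fun e => hb.ext fun b x => by rw [← apV_spec h u b (hb.1 b x), ← apV_spec h v b (hb.1 b x), e b x],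
    fun e b x => by rw [apV_spec h u b (hb.1 b x), apV_spec h v b (hb.1 b x), e]⟩

/-- the test for `Tri` -/
noncomputable def triOk (c : ℕ → List ℕ → Bool) (L : List (ℕ × List ℕ)) : Bool :=
  List.rec true (fun p L ih => band ih (band (bn (c p.1 p.2)) (allL (fun q => c q.1 p.2) L))) L

theorem tri_of {c : ℕ → List ℕ → Bool} {g : ℕ → G} (hc : ∀ a u, c a u = true ↔ Commute (g a) (evalW g u))
    {L : List (ℕ × List ℕ)} (e : triOk c L = true) : Tri (L.map fun p => (g p.1, evalW g p.2)) := by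
  induction L with
  | nil => trivial
  | cons p L ih =>
    obtain ⟨a, b⟩ := band_eq_true.1 (show band (triOk c L) _ = true from e)
    obtain ⟨b, d⟩ := band_eq_true.1 b
    exact ⟨ih a, fun x => bn_iff.1 b ((hc _ _).2 x), List.forall_mem_map.2 fun q hq => (hc _ _).1 (allL_iff.1 d q hq)⟩

/-- letter `0` is an involution, the first entries of `L` generate with it an extraspecial group normalised by the letters `as` -/
noncomputable def xsOk (w n : ℕ) (bs Ts : List ℕ) (L : List (ℕ × List ℕ)) (as : List (ℕ × List (List ℕ))) : Bool :=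
  band (band (band (eqP w n bs Ts [0, 0] []) (bn (eqP w n bs Ts [0] [])))
    (allL (fun p => band (band (eqP w n bs Ts [p.1, 0] [0, p.1]) (bor (eqP w n bs Ts [p.1, p.1] []) (eqP w n bs Ts [p.1, p.1] [0])))
      (band (allL (fun q => bor (eqP w n bs Ts [p.1, q.1] [q.1, p.1]) (eqP w n bs Ts [p.1, q.1] [0, q.1, p.1])) L)
        (allL (fun a => memL a (L.map Prod.fst)) p.2))) L))
    (band (band (triOk (fun a u => eqP w n bs Ts (a :: u) (u ++ [a])) L)
      (allL (fun a => band (eqP w n bs Ts [a.1, 0] [0, a.1]) (allL (fun p => anyL (fun u =>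
        band (eqP w n bs Ts [a.1, p.1] (u ++ [a.1])) (allL (fun a => memL a (0 :: L.map Prod.fst)) u)) a.2) L)) as))
      (anyL (fun a => anyL (fun p => band (bn (eqP w n bs Ts [a.1, p.1] [p.1, a.1]))
        (bn (eqP w n bs Ts [a.1, p.1] [0, p.1, a.1]))) L) as))

theorem shape_of {A : Type*} [Group A] [IsSimpleGroup A] (hA : ¬ IsPGroup 2 A) (hb : S.Base bs) (h : ∀ t ∈ Ts, S.In ⊤ t)
    {L : List (ℕ × List ℕ)} {as : List (ℕ × List (List ℕ))} (e : xsOk w n bs Ts L as = true)
    (φ : A ≃* S.cl (as.map fun a => nd (idv w n) Ts a.1))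
    (hc : Nat.card (centralizer ({gn S Ts 0} : Set G)) ≤ 2 ^ (L.length + 1) * Nat.card A) :
    ∃ t : G, orderOf t = 2 ∧ IsExtraspecial 2 (pCore 2 (centralizer ({t} : Set G))) ∧
      Nat.card (pCore 2 (centralizer ({t} : Set G))) = 2 ^ (L.length + 1) ∧
      Nonempty (centralizer ({t} : Set G) ⧸ pCore 2 (centralizer ({t} : Set G)) ≃* A) := by
  have := S.finite
  simp only [xsOk, band_eq_true, bor_eq_true, allL_iff, anyL_iff, bn_iff, eqP_iff hb h, evalW_cons, evalW_nil, evalW_append,
    mul_one, memL_iff] at e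
  obtain ⟨⟨⟨e1, e2⟩, e3⟩, ⟨e4, e5⟩, a, a1, p, p1, e6, e7⟩ := e
  set g := gn S Ts
  set t := g 0
  have ht : orderOf t = 2 := orderOf_eq_prime (by rw [sq, e1]) e2
  let L' := L.map fun p => (g p.1, evalW g p.2)
  have k : ∀ {x}, x ∈ L'.map Prod.fst ↔ ∃ p ∈ L, g p.1 = x := by simp [L']
  have c : ∀ x y : G, ⁅x, y⁆ ∈ zpowers t ↔ x * y = y * x ∨ x * y = t * (y * x) := fun x y => by
    rw [H15.mem_two ht, commutatorElement_eq_one_iff_mul_comm, commutatorElement_def, mul_inv_eq_iff_eq_mul,
      mul_inv_eq_iff_eq_mul, mul_assoc]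
  have aes := aes_of_gens ht (s := {x | x ∈ L'.map Prod.fst}) (fun x hx => by obtain ⟨p, a, rfl⟩ := k.1 hx; exact (e3 p a).1.1)
    (fun x hx y hy => by
      obtain ⟨p, a, rfl⟩ := k.1 hx
      obtain ⟨q, b, rfl⟩ := k.1 hy
      exact (c _ _).2 ((e3 p a).2.1 q b))
    fun x hx => by obtain ⟨p, a, rfl⟩ := k.1 hx; rw [H15.mem_two ht, sq]; exact (e3 p a).1.2
  set Q := closure (insert t {x | x ∈ L'.map Prod.fst})
  have m : ∀ l ∈ 0 :: L.map Prod.fst, g l ∈ Q := List.forall_mem_cons.2 ⟨aes.mem, List.forall_mem_map.2 fun p hp =>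
    subset_closure (Set.mem_insert_of_mem _ (k.2 ⟨p, hp, rfl⟩))⟩
  have hQ : ∀ p ∈ L', p.1 ∈ Q ∧ p.2 ∈ Q := List.forall_mem_map.2 fun p hp =>
    ⟨m _ (List.mem_cons_of_mem _ (List.mem_map_of_mem hp)), evalW_mem fun l hl => m _ (List.mem_cons_of_mem _ ((e3 p hp).2.2 l hl))⟩
  obtain ⟨b1, b2⟩ := tri_spec aes (tri_of (g := g) (fun a u => by
    rw [eqP_iff hb h, evalW_cons, evalW_append, evalW_cons, evalW_nil, mul_one]; rfl) e4) hQ
  rw [List.length_map] at b1
  have n1 : S.cl (as.map fun a => nd (idv w n) Ts a.1) ≤ normalizer (Q : Set G) ⊓ centralizer {t} :=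
    cl_le' (List.forall_mem_map.2 fun a ha => ⟨mem_normalizer_fintype fun x hx =>
      (closure_le (Q.comap (MulAut.conj (g a.1)).toMonoidHom)).2 (by
        rintro y (rfl | hy)
        · change g a.1 * t * (g a.1)⁻¹ ∈ Q
          rw [(e5 a ha).1, mul_inv_cancel_right]; exact aes.mem
        · obtain ⟨p, b, rfl⟩ := k.1 hy
          obtain ⟨u, -, c, d⟩ := (e5 a ha).2 p b
          change g a.1 * g p.1 * (g a.1)⁻¹ ∈ Q
          rw [c, mul_inv_cancel_right]; exact evalW_mem fun l hl => m l (d l hl)) hx, mem_centralizer_singleton_iff.2 (e5 a ha).1⟩)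
  have X : H15.Ext t Q ((Subgroup.subtype _).comp φ.toMonoidHom) :=
    { aes := aes
      cen := fun x hx hc => b2 x hx fun p hp => (hc _ (hQ p hp).2).symm
      inj := (subtype_injective _).comp φ.injective
      comm := fun a => mem_centralizer_singleton_iff.1 (n1 (φ a).2).2
      norm := fun a => (n1 (φ a).2).1
      nd := fun c => hA (by
        obtain ⟨j, hj⟩ := aes.isPGroup.exists_card_eq
        obtain ⟨i, -, hi⟩ := (Nat.dvd_prime_pow Nat.prime_two).1 (hj ▸ c)
        exact IsPGroup.of_card hi)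
      le := hc.trans (Nat.mul_le_mul_right _ b1)
      act := ⟨φ.symm ⟨g a.1, subset_closure ⟨_, List.mem_map_of_mem a1, rfl⟩⟩, g p.1,
        m _ (List.mem_cons_of_mem _ (List.mem_map_of_mem p1)), by
          simp only [MonoidHom.comp_apply, MulEquiv.coe_toMonoidHom, MulEquiv.apply_symm_apply, coe_subtype, c]
          exact not_or.2 ⟨e6, e7⟩⟩
      big := lt_of_lt_of_le (by
        obtain ⟨j, hj⟩ := Nat.exists_eq_succ_of_ne_zero (List.length_pos_of_mem p1).ne'
        rw [hj, pow_succ, pow_succ]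
        have := Nat.pos_of_ne_zero (pow_ne_zero j two_ne_zero)
        omega) b1 }
  have := X.normal
  obtain ⟨f⟩ := X.quot
  have r := pcore_ext X hA
  refine ⟨t, ht, r ▸ X.extra, ?_, ⟨(QuotientGroup.quotientMulEquivOfEq r).trans f⟩⟩
  have : Finite A := Finite.of_injective _ X.inj
  rw [r, X.card_Q]
  exact le_antisymm (Nat.le_of_mul_le_mul_right (X.compl.2 ▸ hc) Nat.card_pos) b1

/-- the word for a conjugate of letter `0`; letters `2k`, `2k+1` are mutually inverse -/
noncomputable def cjW (u : List ℕ) : List ℕ := List.rec [0] (fun a _ ih => a :: apd ih [Nat.xor a 1]) u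

theorem evalW_cjW {g : ℕ → G} {u : List ℕ} (h : ∀ a ∈ u, g a * g (Nat.xor a 1) = 1) :
    evalW g (cjW u) = evalW g u * g 0 * (evalW g u)⁻¹ := by
  induction u with
  | nil => simp [cjW]
  | cons a u ih =>
    obtain ⟨b, c⟩ := List.forall_mem_cons.1 h
    change evalW g (a :: apd (cjW u) [Nat.xor a 1]) = _
    rw [evalW_cons, apd_eq, evalW_append, ih c, evalW_cons, evalW_cons, evalW_nil, eq_inv_of_mul_eq_one_right b]
    group

/-- the keys increase -/
noncomputable def incK (key : List ℕ → ℕ) (us : List (List ℕ)) : ℕ → Bool :=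
  List.rec (fun _ => true) (fun u _ ih m => force (key u) fun k => band (Nat.ble m k) (ih (Nat.succ k))) us

theorem incK_spec {key : List ℕ → ℕ} {us : List (List ℕ)} {m : ℕ} (e : incK key us m = true) :
    (us.map key).Nodup ∧ ∀ u ∈ us, m ≤ key u := by
  induction us generalizing m with
  | nil => simp
  | cons u us ih =>
    have e : force (key u) (fun k => band (Nat.ble m k) (incK key us (Nat.succ k))) = true := e
    rw [force_eq, band_eq_true, Nat.ble_eq] at e
    obtain ⟨a, b⟩ := ih e.2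
    exact ⟨List.nodup_cons.2 ⟨fun c => by
      obtain ⟨v, c, d⟩ := List.mem_map.1 c
      exact absurd (b v c) (by rw [d]; exact Nat.not_succ_le_self _), a⟩, List.forall_mem_cons.2 ⟨e.1, fun v c => e.1.trans (Nat.le_of_succ_le (b v c))⟩⟩

/-- the images of the points as a number -/
noncomputable def keyF (n : ℕ) (f : ℕ → ℕ) (ps : List ℕ) : ℕ := List.rec 0 (fun p _ ih => Nat.add (Nat.mul ih n) (f p)) ps

theorem keyF_congr {f g : ℕ → ℕ} {ps : List ℕ} (h : ∀ p ∈ ps, f p = g p) : keyF n f ps = keyF n g ps := by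
  induction ps with
  | nil => rfl
  | cons p ps ih =>
    obtain ⟨a, b⟩ := List.forall_mem_cons.1 h
    exact congrArg₂ (fun x y => Nat.add (Nat.mul x n) y) (ih b) a

/-- `F` contains the fixed points of letter `0`, the words `us` fix `b` and give distinct conjugates of letter `0` -/
noncomputable def cjOk (w n b : ℕ) (bs Ts F as ps : List ℕ) (us : List (List ℕ)) : Bool :=
  band (band (band (Nat.blt b n) (allL (fun p => Nat.blt p n) ps)) (force (nd (idv w n) Ts 0) fun T =>
      band (Nat.beq (get w T b) b) (allLt (fun i => bor (bn (Nat.beq (get w T i) i)) (memL i F)) n)))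
    (band (allL (fun a => band (eqP w n bs Ts [a, Nat.xor a 1] []) (Nat.beq (get w (nd (idv w n) Ts a) b) b)) as)
      (band (allL (allL fun a => memL a as) us) (incK (fun u => keyF n (apV w n Ts (cjW u)) ps) us 0)))

theorem cent_le (hb : S.Base bs) (h : ∀ t ∈ Ts, S.In ⊤ t) {b : ℕ} {F as ps : List ℕ} {us : List (List ℕ)}
    (e : cjOk w n b bs Ts F as ps us = true) :
    us.length * Nat.card (centralizer ({gn S Ts 0} : Set G)) ≤ F.length * Nat.card (S.st b) := by
  have := S.finite
  rw [cjOk, force_eq] at e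
  simp only [band_eq_true, bor_eq_true, allL_iff, allLt_iff, bn_iff, eqP_iff hb h, evalW_cons, evalW_nil,
    mul_one, memL_iff, Nat.blt_eq, Nat.beq_eq] at e
  obtain ⟨⟨⟨e1, e2⟩, e3, e4⟩, e5, e6, e7⟩ := e
  have k : ∀ a i, S.ap (gn S Ts a) i = get w (nd (idv w n) Ts a) i := fun a => (nd_prop In.one h a).ap_el
  have c1 := card_le_orb (S := S) (centralizer {gn S Ts 0}) e1 (O := F.toFinset) fun g hg => List.mem_toFinset.2
    ((e4 _ (S.ap_lt g e1)).resolve_left (not_not.2 (by
      rw [← k, ← S.ap_mul _ _ e1, ← mem_centralizer_singleton_iff.1 hg, S.ap_mul _ _ e1, k, e3])))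
  have c2 := conj_le (K := S.st b) (gn S Ts 0) (L := us.map (evalW (gn S Ts)))
    (List.forall_mem_map.2 fun u hu => evalW_mem fun l hl _ => (k l b).trans (e5 l (e6 u hu l hl)).2) (by
      refine List.Nodup.of_map (fun x => keyF n (S.ap x) ps) ?_
      rw [List.map_map, List.map_map]
      refine (List.map_congr_left fun u hu => ?_) ▸ (incK_spec e7).1
      exact keyF_congr fun p hp => (apV_spec h _ p (e2 p hp)).trans
        (by rw [evalW_cjW fun a ha => (e5 a (e6 u hu a ha)).1]))
  rw [List.length_map] at c2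
  calc _ ≤ us.length * (F.length * Nat.card ↥(S.st b ⊓ centralizer {gn S Ts 0})) :=
        Nat.mul_le_mul_left _ (c1.trans (Nat.mul_le_mul_right _ F.toFinset_card_le))
    _ ≤ _ := by rw [mul_left_comm]; exact Nat.mul_le_mul_left _ c2

end H14.XS
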