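import Mathlib
import Cfsg.Agent.H14.XS
import Cfsg.Agent.H13.Sm
import Cfsg.Agent.H14.PK4

/-!
Labelled orbits and identification of orbits (namespace `H14.R3`).
* `msk`, `labOk`, `Lab` (orbits of a subgroup given by labels), `Lab.card`, `row`;
* `Idn`, `exists_idn` (an orbit of an abstract action is numbered), `exists_fixed`, `ncard_orb`.
-/

set_option autoImplicit false

namespace H14.R3
open H13 H14.PK H14.PK.TS H27.MG H14.XS Subgroup MulAction Finset

variable {H : Type*} [Group H] {w n : ℕ} {T : TS H w n} {K : Subgroup H}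

/-- the points of a mask -/
def msk (n M : ℕ) : Finset ℕ := (range n).filter fun i => bt M i = true

theorem mem_msk {M i : ℕ} : i ∈ msk n M ↔ i < n ∧ bt M i = true := by simp [msk]

/-- the number of points with the label -/
noncomputable def cntL (n : ℕ) (f : ℕ → ℕ) (j : ℕ) : ℕ :=
  Nat.rec (nat_lit 0) (fun i ih => force ih fun c => Bool.rec c (Nat.succ c) (Nat.beq (f i) j)) n

theorem cntL_eq (f : ℕ → ℕ) (j : ℕ) : cntL n f j = ((range n).filter fun i => f i = j).card := by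
  induction n with
  | zero => rfl
  | succ n ih =>
    have : cntL (n + 1) f j = force (cntL n f j) fun c => Bool.rec c (Nat.succ c) (Nat.beq (f n) j) := rfl
    rw [this, force_eq, range_add_one, filter_insert, ih]
    by_cases h : f n = j
    · rw [if_pos h, card_insert_of_notMem (by simp), show Nat.beq (f n) j = true from Nat.beq_eq.symm ▸ h]
    · rw [if_neg h, show Nat.beq (f n) j = false from Bool.eq_false_iff.2 fun c => h (Nat.eq_of_beq_eq_true c)]

/-- the mask of a list -/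
noncomputable def mskL (L : List ℕ) : ℕ := List.rec (nat_lit 0) (fun a _ ih => sb ih a) L

theorem bt_mskL {L : List ℕ} {i : ℕ} : bt (mskL L) i = true ↔ i ∈ L := by
  induction L with
  | nil => exact iff_of_false bt_zero (by simp)
  | cons a L ih => rw [show mskL (a :: L) = sb (mskL L) a from rfl, bt_sb, ih, List.mem_cons, or_comm]

/-- the tables `gs` preserve the labels, and the points of `D` (nonzero label) are reached from the representatives -/
noncomputable def labOk (w n v D LB : ℕ) (gs reps : List ℕ) : Bool := force D fun D => force LB fun LB =>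
  band (band (allLt (fun i => bx (bt D i) (Nat.beq (get v LB i) 0)) n)
    (allL (fun t => force t fun t => allLt (fun i => Nat.beq (get v LB (get w t i)) (get v LB i)) n) gs))
    (band (allLt (fun j => band (Nat.blt (nd 0 reps j) n) (Nat.beq (get v LB (nd 0 reps j)) (Nat.succ j))) reps.length)
      (Nat.beq (Nat.add (orbC w gs n reps (mskL reps) reps.length) (cntL n (get v LB) 0)) n))

variable (T K) in
/-- labels of the points of `D` with representatives, connected under `K` -/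
structure Lab (D : Finset ℕ) (lab rep : ℕ → ℕ) (m : ℕ) : Prop where
  mem : ∀ i, i ∈ D ↔ i < n ∧ lab i ≠ 0
  rep_mem : ∀ j < m, rep j < n ∧ lab (rep j) = j + 1
  conn : ∀ i ∈ D, ∃ j < m, lab i = j + 1 ∧ ∃ g ∈ K, T.ap g (rep j) = i

theorem lab_of {v D LB : ℕ} {gs reps : List ℕ} (e : labOk w n v D LB gs reps = true) (h : ∀ t ∈ gs, T.In K t) :
    Lab T K (msk n D) (get v LB) (nd 0 reps) reps.length ∧ ∀ g ∈ T.cl gs, ∀ i < n, get v LB (T.ap g i) = get v LB i := by
  rw [labOk, force_eq, force_eq] at e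
  simp only [band_eq_true] at e
  obtain ⟨⟨e1, e2⟩, e3, e4⟩ := e
  have a : ∀ i, i ∈ msk n D ↔ i < n ∧ get v LB i ≠ 0 := fun i => mem_msk.trans (and_congr_right fun hi => by
    have := bx_iff.1 (allLt_iff.1 e1 i hi)
    rw [Nat.beq_eq] at this
    tauto)
  have b : ∀ t ∈ gs, ∀ i < n, get v LB (get w t i) = get v LB i := fun t ht i hi => by
    have := allL_iff.1 e2 t ht
    rw [force_eq] at this
    exact Nat.eq_of_beq_eq_true (allLt_iff.1 this i hi)
  have c : ∀ j < reps.length, nd 0 reps j < n ∧ get v LB (nd 0 reps j) = j + 1 := fun j hj => by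
    simpa using allLt_iff.1 e3 j hj
  have d : ∀ x ∈ reps, ∃ j < reps.length, nd 0 reps j = x := fun x hx => by
    obtain ⟨j, hj, rfl⟩ := List.getElem_of_mem hx
    exact ⟨j, hj, by rw [nd_eq, List.getD_eq_getElem]⟩
  refine ⟨⟨a, c, ?_⟩, ?_⟩
  · let P := fun i => i < n ∧ ∃ j < reps.length, get v LB i = j + 1 ∧ ∃ g ∈ K, T.ap g (nd 0 reps j) = i
    have p : ∀ x ∈ reps, P x := fun x hx => by
      obtain ⟨j, hj, rfl⟩ := d x hx
      exact ⟨(c j hj).1, j, hj, (c j hj).2, 1, K.one_mem, T.ap_one (c j hj).1⟩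
    obtain ⟨st', M', l, a1, a2, a3, -⟩ := orbC_inv (P := P) (w := w) (gs := gs) (fun t ht p ⟨x, j, y, z, g, u, r⟩ =>
      ⟨(h t ht).ap_el p ▸ T.ap_lt _ x, j, y, (b t ht p x).trans z, _, K.mul_mem (h t ht).el_mem u, by
        rw [T.ap_mul _ _ (c j y).1, r, (h t ht).ap_el]⟩) n (st := reps) (M := mskL reps) (c := reps.length)
      ⟨reps, List.nodup_iff_injective_getElem.2 fun i j q => Fin.ext (by
        have x := (c i i.2).2
        have y := (c j j.2).2
        rw [nd_eq, List.getD_eq_getElem _ _ (Fin.is_lt _)] at x y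
        have q : reps[i.1] = reps[j.1] := q
        rw [q, y] at x
        omega), rfl, fun x hx => ⟨p x hx, bt_mskL.2 hx⟩, p⟩
    have : l.toFinset = msk n D := eq_of_subset_of_card_le (fun x hx => by
      obtain ⟨y, j, -, z, -⟩ := (a3 x (List.mem_toFinset.1 hx)).1
      exact (a x).2 ⟨y, by omega⟩) (by
      have := card_filter_add_card_filter_not (s := range n) (fun i => get v LB i = 0)
      rw [← cntL_eq, card_range, show (range n).filter (fun i => ¬ get v LB i = 0) = msk n D from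
        Finset.ext fun i => by rw [a]; simp] at this
      have e4 : _ + _ = n := Nat.eq_of_beq_eq_true e4
      rw [List.toFinset_card_of_nodup a1, a2]
      omega)
    exact fun i hi => (a3 i (List.mem_toFinset.1 (this ▸ hi))).1.2
  · let Z : Subgroup H :=
      { carrier := {g | ∀ i < n, get v LB (T.ap g i) = get v LB i}
        one_mem' := fun i hi => by rw [T.ap_one hi]
        mul_mem' := fun a b i hi => by rw [T.ap_mul _ _ hi, a _ (T.ap_lt _ hi), b i hi]
        inv_mem' := fun {g} a i hi => by rw [← a _ (T.ap_lt _ hi), T.ap_ap_inv _ hi] }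
    exact cl_le' (K := Z) fun t ht i hi => by rw [(h t ht).ap_el, b t ht i hi]

namespace Lab
variable {D : Finset ℕ} {lab rep : ℕ → ℕ} {m : ℕ} (L : Lab T K D lab rep m)
include L

theorem lt {i : ℕ} (h : i ∈ D) : i < n := ((L.mem i).1 h).1

theorem rep_in {j : ℕ} (h : j < m) : rep j ∈ D := (L.mem _).2 ⟨(L.rep_mem j h).1, by rw [(L.rep_mem j h).2]; omega⟩

theorem iff_rep {Q : ℕ → Prop} (hQ : ∀ g ∈ K, ∀ i ∈ D, Q (T.ap g i) ↔ Q i) {i : ℕ} (h : i ∈ D) : Q i ↔ Q (rep (lab i - 1)) := by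
  obtain ⟨j, a, b, g, c, d⟩ := L.conn i h
  rw [b, Nat.add_sub_cancel, ← hQ g c _ (L.rep_in a), d]

theorem card {Q : ℕ → Prop} [DecidablePred Q] (hQ : ∀ g ∈ K, ∀ i ∈ D, Q (T.ap g i) ↔ Q i) :
    (D.filter Q).card = ∑ j ∈ range m, if Q (rep j) then cntL n lab (j + 1) else 0 := by
  rw [card_eq_sum_card_fiberwise (f := fun i => lab i - 1) (t := range m) fun i hi => by
    obtain ⟨j, a, b, -⟩ := L.conn i (mem_filter.1 hi).1
    simpa [b] using a]
  refine sum_congr rfl fun j _ => ?_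
  rw [cntL_eq]
  split_ifs with h
  · refine congrArg _ (Finset.ext fun i => ?_)
    simp only [mem_filter, mem_range, L.mem]
    exact ⟨fun a => ⟨a.1.1.1, by omega⟩, fun a => ⟨⟨⟨a.1, by omega⟩, (L.iff_rep hQ ((L.mem i).2 ⟨a.1, by omega⟩)).2
      (by rwa [a.2])⟩, by omega⟩⟩
  · refine card_eq_zero.2 (filter_eq_empty_iff.2 fun i hi c => h ?_)
    exact c ▸ (L.iff_rep hQ (mem_filter.1 hi).1).1 (mem_filter.1 hi).2

end Lab

/-- the mask of the images of the points with the label -/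
noncomputable def row (n : ℕ) (lab : ℕ → ℕ) (j : ℕ) (f : ℕ → ℕ) : ℕ :=
  Nat.rec (nat_lit 0) (fun i ih => force ih fun M => Bool.rec M (sb M (f i)) (Nat.beq (lab i) j)) n

theorem bt_row {lab f : ℕ → ℕ} {j y : ℕ} : bt (row n lab j f) y = true ↔ ∃ i < n, lab i = j ∧ f i = y := by
  induction n with
  | zero => exact iff_of_false bt_zero (by simp)
  | succ n ih =>
    have : row (n + 1) lab j f = force (row n lab j f) fun M => Bool.rec M (sb M (f n)) (Nat.beq (lab n) j) := rfl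
    rw [this, force_eq, Nat.exists_lt_succ_right, ← ih]
    by_cases h : lab n = j
    · rw [show Nat.beq (lab n) j = true from Nat.beq_eq.symm ▸ h, bt_sb]
      exact or_congr_right ⟨fun c => ⟨h, c.symm⟩, fun c => c.2.symm⟩
    · rw [show Nat.beq (lab n) j = false from Bool.eq_false_iff.2 fun c => h (Nat.eq_of_beq_eq_true c)]; simp [h]

theorem bt_row_ap {lab f : ℕ → ℕ} {j y : ℕ} {g : H} (hf : ∀ i < n, f i = T.ap g i) (hy : y < n) :
    bt (row n lab j f) y = true ↔ lab (T.ap g⁻¹ y) = j :=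
  bt_row.trans ⟨fun ⟨i, a, b, c⟩ => by rw [← c, hf i a, T.ap_inv_ap _ a, b],
    fun e => ⟨_, T.ap_lt _ hy, e, by rw [hf _ (T.ap_lt _ hy), T.ap_ap_inv _ hy]⟩⟩

theorem row_lt {lab f : ℕ → ℕ} {j y : ℕ} {g : H} (hf : ∀ i < n, f i = T.ap g i) (h : bt (row n lab j f) y = true) : y < n := by
  obtain ⟨i, a, -, c⟩ := bt_row.1 h
  exact c ▸ hf i a ▸ T.ap_lt _ a

theorem ncard_orb (K : Subgroup H) {i : ℕ} (hi : i < n) :
    {j | ∃ g ∈ K, T.ap g i = j}.ncard * Nat.card ↥(T.st i ⊓ K) = Nat.card K := by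
  let _ := MulAction.compHom (Fin n) (toP T)
  have e : (T.st i).subgroupOf K = stabilizer K (⟨i, hi⟩ : Fin n) := Subgroup.ext fun g =>
    (mem_st hi).trans (Fin.val_inj (a := toP T g ⟨i, hi⟩) (b := ⟨i, hi⟩))
  rw [← ((T.st i).subgroupOf K).index_mul_card, ← Nat.card_congr (subgroupOfEquivOfLe (inf_le_right : T.st i ⊓ K ≤ K)).toEquiv,
    inf_subgroupOf_right, e, index_stabilizer, ← Set.ncard_image_of_injective _ Fin.val_injective]
  congr 2
  ext j
  exact ⟨fun ⟨g, a, b⟩ => ⟨_, ⟨⟨g, a⟩, rfl⟩, b⟩, fun ⟨_, ⟨g, rfl⟩, b⟩ => ⟨g, g.2, b⟩⟩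

variable {Ω : Type*} [MulAction H Ω]

variable (T) in
/-- the points of `D` number the set `Z` -/
structure Idn (D : Finset ℕ) (Z : Set Ω) (pt : ℕ → Ω) : Prop where
  lt : ∀ i ∈ D, i < n
  inv : ∀ g, ∀ i ∈ D, T.ap g i ∈ D
  eqv : ∀ g, ∀ i ∈ D, pt (T.ap g i) = g • pt i
  bij : Set.BijOn pt D Z

theorem exists_idn {D : Finset ℕ} {c₀ : ℕ} {c : Ω} (h0 : c₀ < n) (hD : ∀ i, i ∈ D ↔ ∃ g, T.ap g c₀ = i)
    (hs : ∀ g : H, g • c = c → T.ap g c₀ = c₀) (hc : (orbit H c).ncard = D.card) :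
    ∃ pt : ℕ → Ω, Idn T D (orbit H c) pt ∧ pt c₀ = c := by
  have := T.finite
  have : Nonempty Ω := ⟨c⟩
  classical
  let q : Ω → ℕ := fun y => if h : ∃ g : H, g • c = y then T.ap h.choose c₀ else 0
  have hq : ∀ g : H, q (g • c) = T.ap g c₀ := fun g => by
    have e : ∃ g' : H, g' • c = g • c := ⟨g, rfl⟩
    have := congrArg (T.ap g) (hs (g⁻¹ * e.choose) (by rw [mul_smul, e.choose_spec, inv_smul_smul]))
    rw [← T.ap_mul _ _ h0, mul_inv_cancel_left] at this
    exact (dif_pos e).trans this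
  have m : Set.MapsTo q (orbit H c) D := by rintro _ ⟨g, rfl⟩; exact (hD _).2 ⟨g, (hq g).symm⟩
  have s : Set.SurjOn q (orbit H c) D := fun i hi => let ⟨g, e⟩ := (hD i).1 hi; ⟨_, ⟨g, rfl⟩, (hq g).trans e⟩
  have b : Set.BijOn q (orbit H c) D := ⟨m, (Set.ncard_image_iff (s := orbit H c) (Set.finite_range _)).1
    (by rw [s.image_eq_of_mapsTo m, hc, Set.ncard_coe_finset]), s⟩
  have k : ∀ g : H, Function.invFunOn q (orbit H c) (T.ap g c₀) = g • c := fun g => hq g ▸ b.invOn_invFunOn.1 ⟨g, rfl⟩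
  refine ⟨_, ⟨fun i hi => ?_, fun g i hi => ?_, fun g i hi => ?_, b.invOn_invFunOn.symm.bijOn b.surjOn.mapsTo_invFunOn m⟩, ?_⟩
  · obtain ⟨x, rfl⟩ := (hD i).1 hi; exact T.ap_lt _ h0
  · obtain ⟨x, rfl⟩ := (hD i).1 hi; exact (hD _).2 ⟨_, T.ap_mul _ _ h0⟩
  · obtain ⟨x, rfl⟩ := (hD i).1 hi; rw [← T.ap_mul _ _ h0, k, k, mul_smul]
  · rw [← T.ap_one h0, k, one_smul]

theorem Idn.card {D : Finset ℕ} {Z : Set Ω} {pt : ℕ → Ω} (I : Idn T D Z pt) (Q : Ω → Prop) [DecidablePred Q] :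
    (D.filter fun i => Q (pt i)).card = {y | y ∈ Z ∧ Q y}.ncard := by
  rw [← Set.ncard_coe_finset]
  refine Set.BijOn.ncard_eq (f := pt) ⟨fun i hi => ?_, I.bij.injOn.mono fun i hi => (mem_filter.1 hi).1, fun y hy => ?_⟩
  · exact ⟨I.bij.mapsTo (mem_filter.1 hi).1, (mem_filter.1 hi).2⟩
  · obtain ⟨i, hi, rfl⟩ := I.bij.surjOn hy.1
    exact ⟨i, mem_coe.2 (mem_filter.2 ⟨hi, hy.2⟩), rfl⟩

theorem exists_fixed {p : ℕ} (hp : p.Prime) {P : Subgroup H} (hP : IsPGroup p P) {c : Ω} (hc : ¬ p ∣ (orbit H c).ncard) :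
    ∃ y ∈ orbit H c, ∀ g ∈ P, g • y = y := by
  have := Fact.mk hp
  obtain ⟨y, hy⟩ := hP.nonempty_fixed_point_of_prime_not_dvd_card (orbit H c) hc
  exact ⟨y, y.2, fun g hg => congrArg Subtype.val (hy ⟨g, hg⟩)⟩

end H14.R3
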