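import Mathlib
import Cfsg.Agent.H14.R3

/-!
Neighbourhoods in strongly regular graphs with a known second subconstituent (namespace `H14.R3`).
* `Tr`, `trOk`, `tr_spec` (search trees for zero-one solutions of linear equations);
* `quadOk`, `tight` (the linear equation from a sum of squares), `search`.
-/

set_option autoImplicit false

namespace H14.R3
open H13 H14.PK H14.PK.TS H27.MG H14.XS MulAction Finset

/-- search trees -/
inductive Tr
  | leaf (e : ℕ)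
  | sol
  | br (j : ℕ) (l r : Tr)

/-- sum over a list -/
noncomputable def sumZ {α : Type} (f : α → ℤ) (l : List α) : ℤ := List.rec 0 (fun a _ ih => Int.add (f a) ih) l

theorem sumZ_eq {α : Type} (f : α → ℤ) (l : List α) : sumZ f l = (l.map f).sum := by
  induction l with
  | nil => rfl
  | cons a l ih => rw [List.map_cons, List.sum_cons, ← ih]; rfl

/-- a bound for a term -/
noncomputable def bnd (f : ℤ → ℤ) (A B : ℕ) (y : ℕ × ℤ) : ℤ :=
  force y.1 fun j => Bool.rec (Bool.rec (f y.2) 0 (bt B j)) y.2 (bt A j)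

/-- every solution extending the ones `A` and zeros `B` is listed -/
noncomputable def trOk (eqn : ℕ → List (ℕ × ℤ)) (κ : ℤ) (m : ℕ) (sols : List ℕ) (t : Tr) : ℕ → ℕ → Bool :=
  Tr.rec (fun e A B => bor (decide (κ < sumZ (bnd (min · 0) A B) (eqn e))) (decide (sumZ (bnd (max · 0) A B) (eqn e) < κ)))
    (fun A B => band (memL A sols) (allLt (fun j => bor (bt A (Nat.succ j)) (bt B (Nat.succ j))) m))
    (fun j _ _ l r A B => band (force (sb B j) (l A)) (force (sb A j) fun A => r A B)) t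

theorem tr_spec {eqn : ℕ → List (ℕ × ℤ)} {κ : ℤ} {m : ℕ} {sols : List ℕ} {X : ℕ → Prop} [DecidablePred X]
    (h : ∀ e, ((eqn e).map fun y => if X y.1 then y.2 else 0).sum = κ) {t : Tr} {A B : ℕ} (e : trOk eqn κ m sols t A B = true)
    (hA : ∀ j, bt A j = true → X j) (hB : ∀ j, bt B j = true → ¬ X j) : ∃ s ∈ sols, ∀ j < m, X (j + 1) ↔ bt s (j + 1) = true := by
  induction t generalizing A B with
  | leaf x =>
    have e : bor (decide (κ < sumZ (bnd (min · 0) A B) (eqn x))) (decide (sumZ (bnd (max · 0) A B) (eqn x) < κ)) = true := e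
    rw [bor_eq_true, decide_eq_true_eq, decide_eq_true_eq, sumZ_eq, sumZ_eq, ← h x] at e
    have k : ∀ y : ℕ × ℤ, bnd (min · 0) A B y ≤ (if X y.1 then y.2 else 0) ∧ (if X y.1 then y.2 else 0) ≤ bnd (max · 0) A B y := fun y => by
      rw [bnd, bnd, force_eq, force_eq]
      cases a : bt A y.1
      · cases b : bt B y.1
        · split_ifs <;> simp
        · rw [if_neg (hB _ b)]; exact ⟨le_rfl, le_rfl⟩
      · rw [if_pos (hA _ a)]; exact ⟨le_rfl, le_rfl⟩
    exact (e.elim (List.sum_le_sum fun y _ => (k y).1).not_gt (List.sum_le_sum fun y _ => (k y).2).not_gt).elim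
  | sol =>
    obtain ⟨a, b⟩ := band_eq_true.1 (show band (memL A sols) (allLt (fun j => bor (bt A (Nat.succ j)) (bt B (Nat.succ j))) m) = true from e)
    exact ⟨A, memL_iff.1 a, fun j hj => ⟨fun c => (bor_eq_true.1 (allLt_iff.1 b j hj)).resolve_right fun d => hB _ d c, hA _⟩⟩
  | br j l r i1 i2 =>
    have e : band (force (sb B j) (trOk eqn κ m sols l A)) (force (sb A j) fun A => trOk eqn κ m sols r A B) = true := e
    rw [force_eq, force_eq, band_eq_true] at e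
    by_cases c : X j
    · exact i2 e.2 (fun i hi => (bt_sb.1 hi).elim (hA i) fun d => d ▸ c) hB
    · exact i1 e.1 hA fun i hi => (bt_sb.1 hi).elim (hB i) fun d => d ▸ c

theorem sum_list {α β : Type*} (s : Finset β) (L : List α) (u : β → α → ℤ) :
    ∑ b ∈ s, (L.map (u b)).sum = (L.map fun x => ∑ b ∈ s, u b x).sum := by
  induction L with
  | nil => simp
  | cons a L ih => simp [sum_add_distrib, ih]

/-- the points and rows of the words -/
noncomputable def rowsK (w n : ℕ) (Ts : List ℕ) (lab : ℕ → ℕ) (j c : ℕ) (I : List (List ℕ × ℤ)) :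
    (List (ℕ × ℕ × ℤ) → Bool) → Bool :=
  List.rec (fun k => k []) (fun x _ ih k => force (apV w n Ts x.1 c) fun p => force (row n lab j (apV w n Ts x.1)) fun R =>
    ih fun l => k ((p, R, x.2) :: l)) I

theorem rowsK_eq (w n : ℕ) (Ts : List ℕ) (lab : ℕ → ℕ) (j c : ℕ) (I : List (List ℕ × ℤ)) (k : List (ℕ × ℕ × ℤ) → Bool) :
    rowsK w n Ts lab j c I k = k (I.map fun x => (apV w n Ts x.1 c, row n lab j (apV w n Ts x.1), x.2)) := by
  induction I generalizing k with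
  | nil => rfl
  | cons x I ih =>
    have : rowsK w n Ts lab j c (x :: I) k = force (apV w n Ts x.1 c) fun p => force (row n lab j (apV w n Ts x.1)) fun R =>
      rowsK w n Ts lab j c I fun l => k ((p, R, x.2) :: l) := rfl
    rw [this, force_eq, force_eq, ih]; rfl

/-- the number of common neighbours in the first subconstituent -/
noncomputable def cmn (v r k l m : ℕ) (x y : ℕ × ℕ × ℤ) : ℤ :=
  Int.subNatNat (Bool.rec (Bool.rec m l (bt x.2.1 y.1)) k (Nat.beq x.1 y.1)) (popc v r (Nat.land x.2.1 y.2.1))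

/-- the sum of squares vanishes -/
noncomputable def quadOk (v r k l m : ℕ) (κ : ℤ) (L : List (ℕ × ℕ × ℤ)) : Bool :=
  decide (sumZ (fun x => sumZ (fun y => x.2.2 * y.2.2 * cmn v r k l m x y) L) L -
    2 * κ * sumZ (fun x => x.2.2 * cmn v r k l m x x) L + κ ^ 2 * k = 0)

variable {H Ω : Type*} [Group H] [MulAction H Ω] {w n : ℕ} {T : TS H w n} {Γ : SimpleGraph Ω} {a : Ω} {D : Finset ℕ} {pt : ℕ → Ω}

/-- `R` is the mask of the neighbours of the point `i` in `D` -/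
def RowP (Γ : SimpleGraph Ω) (D : Finset ℕ) (pt : ℕ → Ω) (i R : ℕ) : Prop :=
  i ∈ D ∧ ∀ y, bt R y = true ↔ y ∈ D ∧ Γ.Adj (pt i) (pt y)

theorem rowP_of {Z : Set Ω} (I : Idn T D Z pt) (hA : ∀ (g : H) x y, Γ.Adj (g • x) (g • y) ↔ Γ.Adj x y) {c j : ℕ} {lab : ℕ → ℕ}
    (hc : c ∈ D) (h : ∀ i < n, lab i = j ↔ i ∈ D ∧ Γ.Adj (pt c) (pt i)) {g : H} {f : ℕ → ℕ} (hf : ∀ i < n, f i = T.ap g i) :
    RowP Γ D pt (f c) (row n lab j f) := by
  rw [hf c (I.lt c hc)]
  have k : ∀ y < n, bt (row n lab j f) y = true ↔ y ∈ D ∧ Γ.Adj (pt (T.ap g c)) (pt y) := fun y hy => by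
    rw [bt_row_ap hf hy, h _ (T.ap_lt _ hy), I.eqv g c hc]
    exact ⟨fun ⟨a, b⟩ => by
      have := I.inv g _ a
      rw [T.ap_ap_inv _ hy] at this
      exact ⟨this, by rwa [I.eqv _ _ this, ← hA g, smul_inv_smul] at b⟩,
      fun ⟨a, b⟩ => ⟨I.inv _ _ a, by rwa [I.eqv _ _ a, ← hA g, smul_inv_smul]⟩⟩
  exact ⟨I.inv g c hc, fun y => ⟨fun e => (k y (row_lt hf e)).1 e, fun e => (k y (I.lt y e.1)).2 e⟩⟩

variable [Fintype Ω] [DecidableRel Γ.Adj] {N k l m : ℕ}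

theorem cmn_eq (h : Γ.IsSRGWith N k l m) (I : Idn T D {y | y ≠ a ∧ ¬ Γ.Adj a y} pt) {v r : ℕ} (hv : r + 1 < 2 ^ v) (hr : n ≤ v * r)
    {x y : ℕ × ℕ × ℤ} (hx : RowP Γ D pt x.1 x.2.1) (hy : RowP Γ D pt y.1 y.2.1) :
    cmn v r k l m x y = ((Γ.neighborFinset a).filter fun b => Γ.Adj b (pt x.1) ∧ Γ.Adj b (pt y.1)).card := by
  classical
  have e1 : popc v r (Nat.land x.2.1 y.2.1) = {z | z ∈ {y | y ≠ a ∧ ¬ Γ.Adj a y} ∧ (Γ.Adj (pt x.1) z ∧ Γ.Adj (pt y.1) z)}.ncard := by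
    rw [popc_eq hv, ← I.card, ← Set.ncard_coe_finset]
    refine congrArg _ (Set.ext fun i => ?_)
    rw [Set.mem_ofPred_eq, Nat.land_eq, Nat.testBit_and, Bool.and_eq_true, ← bt_eq, ← bt_eq, hx.2, hy.2, mem_coe, mem_filter]
    exact ⟨fun e => ⟨e.2.1.1, e.2.1.2, e.2.2.2⟩, fun e => ⟨(I.lt i e.1).trans_le hr, ⟨e.1, e.2.1⟩, e.1, e.2.2⟩⟩
  have e2 : (Bool.rec (Bool.rec m l (bt x.2.1 y.1)) k (Nat.beq x.1 y.1) : ℕ) = Fintype.card (Γ.commonNeighbors (pt x.1) (pt y.1)) := by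
    cases c : Nat.beq x.1 y.1
    · cases d : bt x.2.1 y.1
      · exact (h.of_not_adj (fun e => by rw [I.bij.injOn hx.1 hy.1 e, Nat.beq_refl] at c; cases c)
          fun e => by rw [(hx.2 _).2 ⟨hy.1, e⟩] at d; cases d).symm
      · exact (h.of_adj _ _ ((hx.2 _).1 d).2).symm
    · rw [← Nat.eq_of_beq_eq_true c, ← h.regular.degree_eq (pt x.1), ← SimpleGraph.card_neighborSet_eq_degree]
      exact Fintype.card_congr (Equiv.setCongr (Set.inter_self _).symm)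
  have e3 := Set.ncard_inter_add_ncard_diff_eq_ncard (Γ.commonNeighbors (pt x.1) (pt y.1)) (Γ.neighborSet a)
  rw [cmn, e1, e2, Int.subNatNat_eq_coe, ← Nat.card_eq_fintype_card, Nat.card_coe_set_eq, ← e3, sub_eq_iff_eq_add, ← Nat.cast_add,
    ← Set.ncard_coe_finset]
  congr 3
  · ext z; simp [SimpleGraph.mem_commonNeighbors, and_comm, Γ.adj_comm]
  · ext z
    exact ⟨fun e => ⟨⟨fun c => (I.bij.mapsTo hx.1).2 (c ▸ e.1.1.symm), e.2⟩, e.1⟩, fun e => ⟨e.2, e.1.2⟩⟩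

theorem tight (h : Γ.IsSRGWith N k l m) (I : Idn T D {y | y ≠ a ∧ ¬ Γ.Adj a y} pt) {v r : ℕ} (hv : r + 1 < 2 ^ v) (hr : n ≤ v * r)
    {L : List (ℕ × ℕ × ℤ)} (hL : ∀ x ∈ L, RowP Γ D pt x.1 x.2.1) {κ : ℤ} (e : quadOk v r k l m κ L = true) {b : Ω} (hb : Γ.Adj a b) :
    (L.map fun x => if Γ.Adj b (pt x.1) then x.2.2 else 0).sum = κ := by
  classical
  let u : Ω → ℕ × ℕ × ℤ → ℤ := fun b x => if Γ.Adj b (pt x.1) then x.2.2 else 0
  have c : ∀ x ∈ L, ∀ y ∈ L, x.2.2 * y.2.2 * cmn v r k l m x y = ∑ b ∈ Γ.neighborFinset a, u b x * u b y := fun x hx y hy => by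
    rw [cmn_eq h I hv hr (hL x hx) (hL y hy), card_filter, Nat.cast_sum, mul_sum]
    refine sum_congr rfl fun b _ => ?_
    by_cases p : Γ.Adj b (pt x.1) <;> by_cases q : Γ.Adj b (pt y.1) <;> simp [u, p, q]
  have d : ∀ x ∈ L, x.2.2 * cmn v r k l m x x = ∑ b ∈ Γ.neighborFinset a, u b x := fun x hx => by
    rw [cmn_eq h I hv hr (hL x hx) (hL x hx), card_filter, Nat.cast_sum, mul_sum]
    refine sum_congr rfl fun b _ => ?_
    by_cases p : Γ.Adj b (pt x.1) <;> simp [u, p]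
  rw [quadOk, decide_eq_true_eq, sumZ_eq, sumZ_eq, List.map_congr_left d, ← sum_list, List.map_congr_left fun x hx => by
    rw [sumZ_eq, List.map_congr_left (c x hx), ← sum_list], ← sum_list, ← h.regular.degree_eq a,
    ← SimpleGraph.card_neighborFinset_eq_degree, card_eq_sum_ones, Nat.cast_sum, mul_sum, mul_sum, ← sum_sub_distrib,
    ← sum_add_distrib] at e
  have := (sum_eq_zero_iff_of_nonneg (f := fun b => ((L.map (u b)).sum - κ) ^ 2) fun _ _ => sq_nonneg _).1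
    ((sum_congr rfl fun b _ => ?_).trans e) b ((Γ.mem_neighborFinset a b).2 hb)
  · exact sub_eq_zero.1 (pow_eq_zero_iff two_ne_zero |>.1 this)
  · simp only [List.sum_map_mul_left, List.sum_map_mul_right]
    push_cast
    ring

/-- the certificate for the neighbourhoods -/
noncomputable def srchOk (w n v r k l m : ℕ) (κ : ℤ) (Ts : List ℕ) (lab lab' : ℕ → ℕ) (j c s : ℕ) (I : List (List ℕ × ℤ))
    (us : List (List ℕ)) (sols : List ℕ) (t : Tr) : Bool :=
  band (band (Nat.blt (Nat.succ r) (p2 v)) (Nat.ble n (Nat.mul v r))) (rowsK w n Ts lab j c I fun L => band (quadOk v r k l m κ L)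
    (trOk (fun e => L.map fun x => (lab' (apV w n Ts (nd [] us e) x.1), x.2.2)) κ s sols t 0 0))

theorem search (h : Γ.IsSRGWith N k l m) (I : Idn T D {y | y ≠ a ∧ ¬ Γ.Adj a y} pt)
    (hA : ∀ (g : H) x y, Γ.Adj (g • x) (g • y) ↔ Γ.Adj x y) (ha : ∀ g : H, g • a = a) {c j : ℕ} {lab : ℕ → ℕ}
    (hc : c ∈ D) (hj : ∀ i < n, lab i = j ↔ i ∈ D ∧ Γ.Adj (pt c) (pt i)) {Ts : List ℕ} (hT : ∀ t ∈ Ts, T.In ⊤ t)
    {P : Subgroup H} {lab' rep : ℕ → ℕ} {s : ℕ} (Lb : Lab T P D lab' rep s) {v r : ℕ} {κ : ℤ} {J : List (List ℕ × ℤ)}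
    {us : List (List ℕ)} {sols : List ℕ} {t : Tr} (e : srchOk w n v r k l m κ Ts lab lab' j c s J us sols t = true)
    {b : Ω} (hb : Γ.Adj a b) (hP : ∀ g ∈ P, g • b = b) : ∃ x ∈ sols, ∀ i ∈ D, Γ.Adj b (pt i) ↔ bt x (lab' i) = true := by
  classical
  rw [srchOk, rowsK_eq] at e
  simp only [band_eq_true, Nat.blt_eq, Nat.ble_eq, p2_eq] at e
  obtain ⟨⟨e1, e2⟩, e3, e4⟩ := e
  have k1 : ∀ i ∈ D, Γ.Adj b (pt i) ↔ Γ.Adj b (pt (rep (lab' i - 1))) := fun i hi =>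
    Lb.iff_rep (Q := fun i => Γ.Adj b (pt i)) (fun g hg i hi => by rw [I.eqv g i hi, ← hA g b (pt i), hP g hg]) hi
  generalize hL : J.map _ = L at e3 e4
  have k2 : ∀ x ∈ L, RowP Γ D pt x.1 x.2.1 := hL ▸ List.forall_mem_map.2 fun x _ => rowP_of I hA hc hj (apV_spec hT x.1)
  obtain ⟨x, a, d⟩ := tr_spec (X := fun j => Γ.Adj b (pt (rep (j - 1)))) (fun e => by
    rw [← tight h I e1 e2 k2 e3 (b := (evalW (gn T Ts) (nd [] us e))⁻¹ • b) (by rwa [← hA, smul_inv_smul, ha]), List.map_map]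
    refine congrArg _ (List.map_congr_left fun x hx => if_congr ?_ rfl rfl)
    have := (k2 x hx).1
    dsimp only
    rw [apV_spec hT _ _ (I.lt _ this), ← k1 _ (I.inv _ _ this), I.eqv _ _ this, ← hA (evalW (gn T Ts) (nd [] us e)) (_ • b),
      smul_inv_smul]) e4 (fun _ c => absurd c bt_zero) fun _ c => absurd c bt_zero
  refine ⟨x, a, fun i hi => ?_⟩
  obtain ⟨y, p, q, -⟩ := Lb.conn i hi
  rw [k1 i hi, q]
  exact d y p

end H14.R3
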