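import Mathlib
import Cfsg.Agent.H14.R3b

/-!
Recognition of rank 3 groups from their graphs (namespace `H14.R3`).
* `Rel` (the orbital relation of a model), `autOk`, `aut_le` (a bound for the automorphism group);
* `glue` (numbering of an abstract graph), `equiv_of_graph`.
-/

set_option autoImplicit false

namespace H14.R3
open H13 H14.PK H14.PK.TS H27.MG H27.PKx H14.XS MulAction Finset

variable {M : Type*} [Group M] {w n : ℕ} {S : TS M w n} {lab : ℕ → ℕ} {j : ℕ}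

variable (S lab j) in
/-- the orbital relation given by the label `j` -/
def Rel (x y : ℕ) : Prop := ∃ s : M, S.ap s 0 = x ∧ lab (S.ap s⁻¹ y) = j

theorem rel_iff (h0 : 0 < n) (hl : ∀ g ∈ S.st 0, ∀ i < n, lab (S.ap g i) = lab i) (s : M) {y : ℕ} (hy : y < n) :
    Rel S lab j (S.ap s 0) y ↔ lab (S.ap s⁻¹ y) = j :=
  ⟨fun ⟨t, a, b⟩ => by
    rw [← b, ← hl (s⁻¹ * t) (fun _ => by rw [S.ap_mul _ _ h0, a, S.ap_inv_ap _ h0]) (S.ap t⁻¹ y) (S.ap_lt _ hy),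
      S.ap_mul _ _ (S.ap_lt _ hy), S.ap_ap_inv _ hy], fun e => ⟨s, rfl, e⟩⟩

theorem rel_row (h0 : 0 < n) (hl : ∀ g ∈ S.st 0, ∀ i < n, lab (S.ap g i) = lab i) {s : M} {f : ℕ → ℕ} (hf : ∀ i < n, f i = S.ap s i)
    {y : ℕ} (hy : y < n) : bt (row n lab j f) y = true ↔ Rel S lab j (f 0) y := by
  rw [bt_row_ap hf hy, hf 0 h0, rel_iff h0 hl s hy]

theorem Rel.ap (h0 : 0 < n) (s : M) {x y : ℕ} (hy : y < n) (h : Rel S lab j x y) : Rel S lab j (S.ap s x) (S.ap s y) :=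
  let ⟨t, a, b⟩ := h
  ⟨s * t, by rw [S.ap_mul _ _ h0, a], by rw [mul_inv_rev, S.ap_mul _ _ (S.ap_lt _ hy), S.ap_inv_ap _ hy, b]⟩

theorem rel_ap (h0 : 0 < n) (s : M) {x y : ℕ} (hx : x < n) (hy : y < n) : Rel S lab j (S.ap s x) (S.ap s y) ↔ Rel S lab j x y :=
  ⟨fun h => by simpa only [S.ap_inv_ap _ hx, S.ap_inv_ap _ hy] using h.ap h0 s⁻¹ (S.ap_lt _ hy), Rel.ap h0 s hy⟩

theorem Rel.symm (h0 : 0 < n) {b : ℕ} (hb : ∀ i < n, lab i = j → ∃ g ∈ S.st 0, S.ap g b = i) (hb' : lab b = j) (hn : b < n)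
    {σ : M} (h1 : S.ap σ 0 = b) (h2 : S.ap σ b = 0) {x y : ℕ} (hy : y < n) (h : Rel S lab j x y) : Rel S lab j y x := by
  obtain ⟨s, rfl, e⟩ := h
  obtain ⟨g, a, c⟩ := hb _ (S.ap_lt _ hy) e
  refine ⟨s * g * σ, by rw [S.ap_mul _ _ h0, h1, S.ap_mul _ _ hn, c, S.ap_ap_inv _ hy], ?_⟩
  rw [mul_inv_rev, mul_inv_rev, S.ap_mul _ _ (S.ap_lt _ h0), S.ap_mul _ _ (S.ap_lt _ h0), S.ap_inv_ap _ h0,
    (S.st 0).inv_mem a h0, ← h2, S.ap_inv_ap _ hn, hb']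

/-- the points outside `F` with the same relations to the rows as `x` -/
noncomputable def cand (n : ℕ) (rows : List (ℕ × ℕ)) (F x : ℕ) : ℕ :=
  List.rec (Nat.xor (ones n) F) (fun p _ ih => force ih fun C =>
    Bool.rec (Nat.land C (Nat.xor (ones n) p.2)) (Nat.land C p.2) (bt p.2 x)) rows

theorem bt_not {F y : ℕ} (hy : y < n) (h : ¬ bt F y = true) : (Nat.xor (ones n) F).testBit y = true := by
  rw [bt_eq] at h
  rw [Nat.xor_eq, Nat.testBit_xor, ones_eq, Nat.testBit_two_pow_sub_one]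
  simpa [hy] using h

theorem bt_cand {rows : List (ℕ × ℕ)} {F x y : ℕ} (hy : y < n) (h : ¬ bt F y = true)
    (h' : ∀ p ∈ rows, bt p.2 y = true ↔ bt p.2 x = true) : (cand n rows F x).testBit y = true := by
  induction rows with
  | nil => exact bt_not hy h
  | cons p rows ih =>
    obtain ⟨a, b⟩ := List.forall_mem_cons.1 h'
    have : cand n (p :: rows) F x = force (cand n rows F x) fun C =>
      Bool.rec (Nat.land C (Nat.xor (ones n) p.2)) (Nat.land C p.2) (bt p.2 x) := rfl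
    rw [this, force_eq]
    cases c : bt p.2 x
    · exact (Nat.testBit_and _ _ _).trans (by rw [ih b, bt_not hy fun d => by simp [a.1 d] at c]; rfl)
    · exact (Nat.testBit_and _ _ _).trans (by rw [ih b, ← bt_eq, a.2 c]; rfl)

/-- bounds for the orbits along a base -/
noncomputable def autOk (w n v r : ℕ) (Ts : List ℕ) (lab : ℕ → ℕ) (j : ℕ) (st : List (List ℕ × ℕ)) : List (ℕ × ℕ) → ℕ → Bool :=
  List.rec (fun rows F => allLt (fun x => bor (bt F x) (Nat.beq (cand n rows F x) (p2 x))) n)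
    (fun s _ ih rows F => force (apV w n Ts s.1 0) fun x => band (band (bn (bt F x)) (Nat.ble (popc v r (cand n rows F x)) s.2))
      (force (row n lab j (apV w n Ts s.1)) fun R => force (sb F x) fun F => ih ((x, R) :: rows) F)) st

theorem aut_aux {A : Type*} [Group A] {U : TS A w n} (h0 : 0 < n) (hl : ∀ g ∈ S.st 0, ∀ i < n, lab (S.ap g i) = lab i)
    (hU : ∀ g, ∀ x < n, ∀ y < n, Rel S lab j (U.ap g x) (U.ap g y) ↔ Rel S lab j x y) {Ts : List ℕ} (hT : ∀ t ∈ Ts, S.In ⊤ t)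
    {v r : ℕ} (hv : r + 1 < 2 ^ v) (hr : n ≤ v * r) {st : List (List ℕ × ℕ)} {rows : List (ℕ × ℕ)} {F : ℕ}
    (e : autOk w n v r Ts lab j st rows F = true) {K : Subgroup A} (hF : ∀ i, bt F i = true → i < n ∧ ∀ g ∈ K, U.ap g i = i)
    (hR : ∀ p ∈ rows, bt F p.1 = true ∧ ∀ y < n, bt p.2 y = true ↔ Rel S lab j p.1 y) :
    Nat.card K ≤ (st.map Prod.snd).prod := by
  have k : ∀ {rows : List (ℕ × ℕ)} {F : ℕ} {K : Subgroup A}, (∀ i, bt F i = true → i < n ∧ ∀ g ∈ K, U.ap g i = i) →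
      (∀ p ∈ rows, bt F p.1 = true ∧ ∀ y < n, bt p.2 y = true ↔ Rel S lab j p.1 y) → ∀ x < n, ¬ bt F x = true → ∀ g ∈ K,
      (cand n rows F x).testBit (U.ap g x) = true := fun hF hR x hx a g hg =>
    bt_cand (U.ap_lt _ hx) (fun c => a (U.ap_inj g (hF _ c).1 hx ((hF _ c).2 g hg) ▸ c)) fun p hp => by
      obtain ⟨b, c⟩ := hF _ (hR p hp).1
      rw [(hR p hp).2 _ (U.ap_lt _ hx), (hR p hp).2 _ hx, ← hU g _ b _ hx, c g hg]
  induction st generalizing rows F K with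
  | nil =>
    have e : allLt (fun x => bor (bt F x) (Nat.beq (cand n rows F x) (p2 x))) n = true := e
    refine (Subgroup.card_eq_one.2 (eq_bot_iff.2 fun g hg => U.faith g fun i hi => ?_)).le
    by_cases c : bt F i = true
    · exact (hF i c).2 g hg
    · have := k hF hR i hi c g hg
      rw [Nat.eq_of_beq_eq_true ((bor_eq_true.1 (allLt_iff.1 e i hi)).resolve_left c), p2_eq, Nat.testBit_two_pow,
        decide_eq_true_eq] at this
      exact this.symm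
  | cons s st ih =>
    have e : force (apV w n Ts s.1 0) (fun x => band (band (bn (bt F x)) (Nat.ble (popc v r (cand n rows F x)) s.2))
      (force (row n lab j (apV w n Ts s.1)) fun R => force (sb F x) fun F => autOk w n v r Ts lab j st ((x, R) :: rows) F)) = true := e
    rw [force_eq, force_eq, force_eq, band_eq_true, band_eq_true, bn_iff, Nat.ble_eq, popc_eq hv] at e
    have hx : apV w n Ts s.1 0 < n := apV_spec hT s.1 0 h0 ▸ S.ap_lt _ h0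
    have a := ih e.2 (K := U.st (apV w n Ts s.1 0) ⊓ K)
      (fun i hi => (bt_sb.1 hi).elim (fun c => ⟨(hF i c).1, fun g hg => (hF i c).2 g hg.2⟩) fun c => by rw [c]; exact ⟨hx, fun g hg => hg.1 hx⟩)
      (List.forall_mem_cons.2 ⟨⟨bt_sb.2 (.inr rfl), fun y hy => rel_row h0 hl (apV_spec hT s.1) hy⟩,
        fun p hp => ⟨bt_sb.2 (.inl (hR p hp).1), (hR p hp).2⟩⟩)
    rw [List.map_cons, List.prod_cons, ← ncard_orb (T := U) K hx]
    refine Nat.mul_le_mul (le_trans (Set.ncard_le_ncard ?_ ((Set.finite_lt_nat _).subset fun i hi => hi.1)) e.1.2) a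
    rintro _ ⟨g, hg, rfl⟩
    exact ⟨(U.ap_lt _ hx).trans_le hr, k hF hR _ hx e.1.1 g hg⟩

theorem eq_of_index {A : Type*} [Group A] [Finite A] {K L : Subgroup A} [IsSimpleGroup L] (h : Nat.card K = Nat.card L)
    (h1 : Nat.card A ≤ 2 * Nat.card L) (h2 : 2 < Nat.card L) : K = L := by
  have a := K.index_mul_card
  have b : K.index ≠ 0 := Subgroup.index_ne_zero_of_finite
  have c : K.index ≤ 2 := Nat.le_of_mul_le_mul_right (by rw [a, h]; exact h1) (Nat.card_pos (α := K))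
  have : K.Normal := by
    obtain d | d : K.index = 1 ∨ K.index = 2 := by omega
    · rw [Subgroup.index_eq_one.1 d]; infer_instance
    · exact K.normal_of_index_eq_two d
  refine (Subgroup.eq_of_le_of_card_ge (Subgroup.subgroupOf_eq_top.1
    ((Subgroup.normal_subgroupOf.eq_bot_or_eq_top).resolve_left fun d => ?_)) h.le).symm
  have := Nat.le_of_dvd (Nat.pos_of_ne_zero b) (Subgroup.relIndex_dvd_index_of_normal K L)
  rw [Subgroup.relIndex, d, Subgroup.index_bot] at this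
  omega

theorem equiv_of_graph [IsSimpleGroup M] {G Ω : Type*} [Group G] [MulAction G Ω] [FaithfulSMul G Ω] {Γ : SimpleGraph Ω}
    (hA : ∀ (g : G) x y, Γ.Adj (g • x) (g • y) ↔ Γ.Adj x y) {Ψ : ℕ → Ω} (hΨ : Set.BijOn Ψ {i | i < n} Set.univ)
    (hR : ∀ x < n, ∀ y < n, Γ.Adj (Ψ x) (Ψ y) ↔ Rel S lab j x y) (hc : Nat.card G = Nat.card M) (h2 : 2 < Nat.card M)
    (h0 : 0 < n) (hl : ∀ g ∈ S.st 0, ∀ i < n, lab (S.ap g i) = lab i) {Ts : List ℕ} (hT : ∀ t ∈ Ts, S.In ⊤ t)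
    {v r : ℕ} (hv : r + 1 < 2 ^ v) (hr : n ≤ v * r) {st : List (List ℕ × ℕ)} (e : autOk w n v r Ts lab j st [] 0 = true)
    (hs : (st.map Prod.snd).prod ≤ 2 * Nat.card M) : Nonempty (G ≃* M) := by
  obtain ⟨U, hU⟩ := exists_act (G := G) Ψ S.hw S.hn (fun i hi j hj => hΨ.injOn hi hj)
    (fun g i _ => let ⟨j, a, b⟩ := hΨ.surjOn (Set.mem_univ (g • Ψ i)); ⟨j, a, b.symm⟩) fun g h => eq_of_smul_eq_smul (α := Ω) fun y => by
      obtain ⟨i, a, rfl⟩ := hΨ.surjOn (Set.mem_univ y)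
      rw [h i a, one_smul]
  let P := SP w n S.hw S.hn
  let A : Subgroup (Equiv.Perm (Fin n)) :=
    { carrier := {g | ∀ x < n, ∀ y < n, Rel S lab j (P.ap g x) (P.ap g y) ↔ Rel S lab j x y}
      one_mem' := fun x a y b => by rw [P.ap_one a, P.ap_one b]
      mul_mem' := fun p q x a y b => by rw [P.ap_mul _ _ a, P.ap_mul _ _ b, p _ (P.ap_lt _ a) _ (P.ap_lt _ b), q x a y b]
      inv_mem' := fun {g} p x a y b => by rw [← p _ (P.ap_lt _ a) _ (P.ap_lt _ b), P.ap_ap_inv _ a, P.ap_ap_inv _ b] }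
  have c := aut_aux (U := P.sub A) h0 hl (fun g => g.2) hT hv hr e (K := ⊤) (fun _ c => absurd c bt_zero) (by simp)
  have a1 : (toP U).range ≤ A := by
    rintro _ ⟨g, rfl⟩ x a y b
    rw [ap, ap, tb_toP, ← hR _ (U.ap_lt _ a) _ (U.ap_lt _ b), ← hU g x a, ← hU g y b, hA, hR x a y b]
  have a2 : (toP S).range ≤ A := by
    rintro _ ⟨g, rfl⟩ x a y b
    rw [ap, ap, tb_toP]
    exact rel_ap h0 g a b
  have e1 := (MonoidHom.ofInjective (toP_inj U)).trans (Subgroup.subgroupOfEquivOfLe a1).symm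
  have e2 := (MonoidHom.ofInjective (toP_inj S)).trans (Subgroup.subgroupOfEquivOfLe a2).symm
  have := e2.symm.isSimpleGroup
  have c2 := Nat.card_congr e2.toEquiv
  exact ⟨e1.trans ((MulEquiv.subgroupCongr (eq_of_index ((Nat.card_congr e1.toEquiv).symm.trans (hc.trans c2))
    (by rw [← c2, ← Subgroup.card_top]; exact c.trans hs) (c2 ▸ h2))).trans e2.symm)⟩

theorem glue {H Ω : Type*} [Group H] [MulAction H Ω] {T : TS H w n} {Γ : SimpleGraph Ω} {a : Ω}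
    (hA : ∀ (g : H) x y, Γ.Adj (g • x) (g • y) ↔ Γ.Adj x y) {R : ℕ → ℕ → Prop}
    (hR : ∀ g, ∀ x < n, ∀ y < n, R (T.ap g x) (T.ap g y) ↔ R x y) (hs : ∀ x < n, ∀ y < n, R x y → R y x) (h0 : 0 < n)
    {D E : Finset ℕ} (hD : ∀ i < n, R 0 i ↔ i ∈ D) (hE : ∀ i < n, i ∈ E ↔ i ≠ 0 ∧ i ∉ D) (h1 : 0 ∉ D) {p q : ℕ → Ω}
    (I : Idn T D {y | Γ.Adj a y} p) (J : Idn T E {y | y ≠ a ∧ ¬ Γ.Adj a y} q) {b c : ℕ} (hb : b ∈ D) (hc : c ∈ E)
    (tb : ∀ i ∈ D, ∃ g, T.ap g b = i) (tc : ∀ i ∈ E, ∃ g, T.ap g c = i) (r1 : ∀ i ∈ D, Γ.Adj (p b) (p i) ↔ R b i)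
    (r2 : ∀ i ∈ E, Γ.Adj (p b) (q i) ↔ R b i) (r3 : ∀ i ∈ E, Γ.Adj (q c) (q i) ↔ R c i) :
    ∃ Ψ : ℕ → Ω, Set.BijOn Ψ {i | i < n} Set.univ ∧ ∀ x < n, ∀ y < n, Γ.Adj (Ψ x) (Ψ y) ↔ R x y := by
  classical
  let Ψ : ℕ → Ω := fun i => if i = 0 then a else if i ∈ D then p i else q i
  have p0 : Ψ 0 = a := if_pos rfl
  have p1 : ∀ i ∈ D, Ψ i = p i := fun i hi => (if_neg fun (c : i = 0) => h1 (c ▸ hi)).trans (if_pos hi)
  have p2 : ∀ i ∈ E, Ψ i = q i := fun i hi => (if_neg ((hE i (J.lt i hi)).1 hi).1).trans (if_neg ((hE i (J.lt i hi)).1 hi).2)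
  have cs : ∀ i < n, i = 0 ∨ i ∈ D ∨ i ∈ E := fun i hi => by rw [hE i hi]; tauto
  have sy : ∀ x < n, ∀ y < n, (Γ.Adj (Ψ x) (Ψ y) ↔ R x y) → (Γ.Adj (Ψ y) (Ψ x) ↔ R y x) := fun x a y b e =>
    (Γ.adj_comm _ _).trans (e.trans ⟨hs x a y b, hs y b x a⟩)
  have k0 : ∀ y < n, Γ.Adj (Ψ 0) (Ψ y) ↔ R 0 y := fun y hy => by
    rw [hD y hy, p0]
    rcases cs y hy with rfl | e | e
    · exact iff_of_false (p0 ▸ Γ.irrefl) h1
    · exact iff_of_true (p1 y e ▸ I.bij.mapsTo e) e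
    · exact iff_of_false (p2 y e ▸ (J.bij.mapsTo e).2) ((hE y hy).1 e).2
  have k1 : ∀ x ∈ D, ∀ y < n, Γ.Adj (Ψ x) (Ψ y) ↔ R x y := fun x hx y hy => by
    obtain ⟨g, rfl⟩ := tb x hx
    rcases cs y hy with rfl | e | e
    · exact sy _ h0 _ (I.lt _ hx) (k0 _ (I.lt _ hx))
    · rw [p1 _ hx, p1 y e, ← T.ap_ap_inv g hy, hR g _ (I.lt b hb) _ (T.ap_lt _ hy), I.eqv g b hb, I.eqv g _ (I.inv _ y e), hA,
        r1 _ (I.inv _ y e)]
    · rw [p1 _ hx, p2 y e, ← T.ap_ap_inv g hy, hR g _ (I.lt b hb) _ (T.ap_lt _ hy), I.eqv g b hb, J.eqv g _ (J.inv _ y e), hA,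
        r2 _ (J.inv _ y e)]
  refine ⟨Ψ, ⟨fun _ _ => trivial, fun x hx y hy e => ?_, fun y _ => ?_⟩, fun x hx y hy => ?_⟩
  · rcases cs x hx with rfl | c | c <;> rcases cs y hy with rfl | d | d
    · rfl
    · exact absurd (I.bij.mapsTo d) (by rw [← p1 y d, ← e, p0]; exact Γ.irrefl)
    · exact absurd (by rw [← p2 y d, ← e, p0]) (J.bij.mapsTo d).1
    · exact absurd (I.bij.mapsTo c) (by rw [← p1 x c, e, p0]; exact Γ.irrefl)
    · exact I.bij.injOn c d (by rw [← p1 x c, e, p1 y d])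
    · exact absurd (I.bij.mapsTo c) (by rw [← p1 x c, e, p2 y d]; exact (J.bij.mapsTo d).2)
    · exact absurd (by rw [← p2 x c, e, p0]) (J.bij.mapsTo c).1
    · exact absurd (I.bij.mapsTo d) (by rw [← p1 y d, ← e, p2 x c]; exact (J.bij.mapsTo c).2)
    · exact J.bij.injOn c d (by rw [← p2 x c, e, p2 y d])
  · by_cases c : y = a
    · exact ⟨0, h0, p0.trans c.symm⟩
    by_cases d : Γ.Adj a y
    · obtain ⟨i, e, rfl⟩ := I.bij.surjOn d
      exact ⟨i, I.lt i e, p1 i e⟩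
    · obtain ⟨i, e, rfl⟩ := J.bij.surjOn ⟨c, d⟩
      exact ⟨i, J.lt i e, p2 i e⟩
  · rcases cs x hx with rfl | c | c
    · exact k0 y hy
    · exact k1 x c y hy
    rcases cs y hy with rfl | e | e
    · exact sy _ h0 _ hx (k0 _ hx)
    · exact sy _ hy _ hx (k1 _ e _ hx)
    · obtain ⟨g, rfl⟩ := tc x c
      rw [p2 _ c, p2 y e, ← T.ap_ap_inv g hy, hR g _ (J.lt _ hc) _ (T.ap_lt _ hy), J.eqv g _ hc, J.eqv g _ (J.inv _ y e), hA,
        r3 _ (J.inv _ y e)]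

end H14.R3
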