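import Mathlib

/-! The strongly regular graph of a rank 3 action with distinct subdegrees. -/

namespace H14

open MulAction
open scoped Pointwise

variable {G Ω : Type*} [Group G] [MulAction G Ω]

theorem orbit_stab_smul (g : G) (x y : Ω) : orbit (stabilizer G (g • x)) (g • y) = g • orbit (stabilizer G x) y := by
  ext z
  obtain ⟨z, rfl⟩ := (MulAction.toPerm g).surjective z
  change g • z ∈ _ ↔ g • z ∈ _
  rw [Set.smul_mem_smul_set_iff]
  constructor
  · rintro ⟨⟨k, hk⟩, e⟩
    exact ⟨⟨g⁻¹ * k * g, by rw [mem_stabilizer_iff, mul_smul, mul_smul, mem_stabilizer_iff.1 hk, inv_smul_smul]⟩, by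
      change (g⁻¹ * k * g) • y = z
      rw [mul_smul, mul_smul, show k • g • y = g • z from e, inv_smul_smul]⟩
  · rintro ⟨⟨k, hk⟩, rfl⟩
    exact ⟨⟨g * k * g⁻¹, by rw [mem_stabilizer_iff, mul_smul, mul_smul, inv_smul_smul, mem_stabilizer_iff.1 hk]⟩, by
      change (g * k * g⁻¹) • g • y = g • k • y
      rw [mul_smul, mul_smul, inv_smul_smul]⟩

variable [Fintype Ω] [IsPretransitive G Ω]

theorem ncard_orbit_symm (x y : Ω) : (orbit (stabilizer G x) y).ncard = (orbit (stabilizer G y) x).ncard := by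
  have a : ∀ x y : Ω, (orbit (stabilizer G x) y).ncard * Nat.card Ω = (stabilizer G y ⊓ stabilizer G x).index := fun x y => by
    rw [← index_stabilizer, ← index_stabilizer_of_transitive G x, ← Subgroup.relIndex_mul_index inf_le_right,
      Subgroup.inf_relIndex_right]; rfl
  have : Nonempty Ω := ⟨x⟩
  exact Nat.eq_of_mul_eq_mul_right Nat.card_pos ((a x y).trans (by rw [inf_comm, a]))

variable (G Ω) in
/-- `x` and `y` are adjacent when the orbit of `y` under the stabiliser of `x` has `k + 2` points -/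
def orbG (k : ℕ) : SimpleGraph Ω where
  Adj x y := (orbit (stabilizer G x) y).ncard = k + 2
  symm := ⟨fun x y h => (ncard_orbit_symm y x).trans h⟩
  loopless := ⟨fun x h => by
    rw [show orbit (stabilizer G x) x = {x} from Set.eq_singleton_iff_unique_mem.2 ⟨mem_orbit_self _, by
      rintro _ ⟨g, rfl⟩; exact g.2⟩, Set.ncard_singleton] at h
    omega⟩

variable (G Ω) in
/-- the action on the orbital graph -/
def orbAct (k : ℕ) : G →* (orbG G Ω k ≃g orbG G Ω k) where
  toFun g := ⟨MulAction.toPerm g, fun {x y} => by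
    change (orbit (stabilizer G (g • x)) (g • y)).ncard = _ ↔ _
    rw [orbit_stab_smul, Set.ncard_smul_set]; rfl⟩
  map_one' := RelIso.ext fun _ => one_smul _ _
  map_mul' _ _ := RelIso.ext fun _ => mul_smul _ _ _

theorem orbG_srg {k l : ℕ} {a b c : Ω} (hb : (orbit (stabilizer G a) b).ncard = k + 2) (hc : (orbit (stabilizer G a) c).ncard = l + 2)
    (h : k ≠ l) (hΩ : Fintype.card Ω = k + l + 5) [DecidableRel (orbG G Ω k).Adj] :
    (∀ x y, (orbG G Ω k).Adj x y → ∃ g : G, g • a = x ∧ g • b = y) ∧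
    (∀ x y, x ≠ y → ¬ (orbG G Ω k).Adj x y → ∃ g : G, g • a = x ∧ g • c = y) ∧
    ∃ i m, (orbG G Ω k).IsSRGWith (k + l + 5) (k + 2) i m := by
  classical
  have o : ∀ {y z : Ω}, y ∈ orbit (stabilizer G a) z → orbit (stabilizer G a) y = orbit (stabilizer G a) z := orbit_eq_iff.2
  have na : ∀ {z : Ω} {j : ℕ}, (orbit (stabilizer G a) z).ncard = j + 2 → a ∉ orbit (stabilizer G a) z := fun {z j} e c =>
    (orbG G Ω j).irrefl (v := a) ((congrArg _ (o c)).trans e)
  have u : insert a (orbit (stabilizer G a) b ∪ orbit (stabilizer G a) c) = Set.univ := Set.eq_of_subset_of_ncard_le (Set.subset_univ _) (by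
    rw [Set.ncard_insert_of_notMem (fun q => q.elim (na hb) (na hc)), Set.ncard_union_eq (Set.disjoint_left.2 fun y p q => by
      rw [← o p, o q] at hb; omega), hb, hc, Set.ncard_univ, Nat.card_eq_fintype_card, hΩ]; omega)
  have v : ∀ y, (orbG G Ω k).Adj a y ↔ y ∈ orbit (stabilizer G a) b := fun y => ⟨fun e => by
    rcases (u.symm ▸ Set.mem_univ y :) with rfl | p | p
    · exact absurd e (orbG G Ω k).irrefl
    · exact p
    · exact absurd (((congrArg _ (o p)).trans hc).symm.trans e) (by omega), fun p => (congrArg _ (o p)).trans hb⟩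
  have t : ∀ x y z : Ω, (∀ g : G, g • a = x → g⁻¹ • y ∈ orbit (stabilizer G a) z) → ∃ g : G, g • a = x ∧ g • z = y := fun x y z e => by
    obtain ⟨g, rfl⟩ := exists_smul_eq G a x
    obtain ⟨s, p⟩ := e g rfl
    exact ⟨g * s, by rw [mul_smul, mem_stabilizer_iff.1 s.2], by rw [mul_smul, show s.1 • z = g⁻¹ • y from p, smul_inv_smul]⟩
  have w : ∀ (g : G) x y, (orbG G Ω k).Adj (g • x) (g • y) ↔ (orbG G Ω k).Adj x y := fun g x y => (orbAct G Ω k g).map_rel_iff
  have t1 : ∀ x y, (orbG G Ω k).Adj x y → ∃ g : G, g • a = x ∧ g • b = y := fun x y e => t x y b fun g p =>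
    (v _).1 ((w g _ _).1 (by rwa [p, smul_inv_smul]))
  have t2 : ∀ x y, x ≠ y → ¬ (orbG G Ω k).Adj x y → ∃ g : G, g • a = x ∧ g • c = y := fun x y d e => t x y c fun g p => by
    rcases (u.symm ▸ Set.mem_univ (g⁻¹ • y) :) with q | q | q
    · exact absurd (by rw [← p, ← q, smul_inv_smul]) d
    · exact absurd (by simpa [p] using (w g _ _).2 ((v _).2 q)) e
    · exact q
  have cn : ∀ (g : G) x y, Fintype.card ((orbG G Ω k).commonNeighbors (g • x) (g • y)) = Fintype.card ((orbG G Ω k).commonNeighbors x y) :=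
    fun g x y => (Fintype.card_congr ((MulAction.toPerm g).subtypeEquiv fun z => (and_congr (w g x z) (w g y z)).symm)).symm
  refine ⟨t1, t2, Fintype.card ((orbG G Ω k).commonNeighbors a b), Fintype.card ((orbG G Ω k).commonNeighbors a c), hΩ, fun x => ?_,
    fun x y e => ?_, fun x y d e => ?_⟩
  · obtain ⟨g, rfl⟩ := exists_smul_eq G a x
    refine ((orbAct G Ω k g).degree_eq a).trans ?_
    rw [← SimpleGraph.card_neighborSet_eq_degree, ← Nat.card_eq_fintype_card, Nat.card_coe_set_eq, ← hb]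
    exact congrArg _ (Set.ext v)
  · obtain ⟨g, rfl, rfl⟩ := t1 x y e; exact cn ..
  · obtain ⟨g, rfl, rfl⟩ := t2 x y d e; exact cn ..

theorem srg_three {V : Type*} [Fintype V] {Γ : SimpleGraph V} [DecidableRel Γ.Adj] {n k i m : ℕ} (h : Γ.IsSRGWith n k i m) :
    3 ∣ n * k * i := by
  classical
  have a := ZMod.trace_pow_card (p := 3) (Γ.adjMatrix (ZMod 3))
  rw [SimpleGraph.trace_adjMatrix, pow_succ', h.matrix_eq] at a
  rw [← ZMod.natCast_eq_zero_iff, ← h.card]
  refine Eq.trans ?_ (a.trans (by simp))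
  simp only [Matrix.trace, Matrix.diag, SimpleGraph.adjMatrix_mul_apply]
  rw [Finset.sum_congr rfl fun v _ => Finset.sum_congr rfl (g := fun _ => (i : ZMod 3)) fun w hw => ?_]
  · simp [h.regular.degree_eq, mul_assoc]
  · have hw := (Γ.mem_neighborFinset _ _).1 hw
    simp only [Matrix.add_apply, Matrix.smul_apply, SimpleGraph.adjMatrix_apply, SimpleGraph.compl_adj, Matrix.one_apply]
    simp [hw.symm, hw.ne']

theorem srg_mu0 {V : Type*} [Fintype V] {Γ : SimpleGraph V} [DecidableRel Γ.Adj] {n i p : ℕ} [Fact p.Prime] (h : Γ.IsSRGWith n (i + 1) i 0)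
    (hp : p ∣ i + 2) : p ∣ n := by
  classical
  have a := ZMod.trace_pow_card (p := p) (Γ.adjMatrix (ZMod p) + 1)
  have b : (Γ.adjMatrix (ZMod p) + 1) ^ 2 = 0 := by
    rw [show (Γ.adjMatrix (ZMod p) + 1) ^ 2 = Γ.adjMatrix (ZMod p) ^ 2 + 2 • Γ.adjMatrix (ZMod p) + 1 by noncomm_ring, h.matrix_eq]
    refine Eq.trans (b := ((i + 2 : ℕ) : ZMod p) • (Γ.adjMatrix (ZMod p) + 1)) ?_ (by rw [(ZMod.natCast_eq_zero_iff _ _).2 hp, zero_smul])
    rw [Nat.cast_smul_eq_nsmul]
    module
  rw [pow_eq_zero_of_le (Fact.out : p.Prime).two_le b] at a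
  rw [← ZMod.natCast_eq_zero_iff, ← h.card]
  simpa using pow_eq_zero_iff (Fact.out : p.Prime).ne_zero |>.1 (a.symm.trans (Matrix.trace_zero _ _))

end H14
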