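import Mathlib
import Cfsg.Agent.H14.R3c
import Cfsg.Agent.H14.Rk3

/-!
The steps of the recognition of a rank 3 group (namespace `H14.R3`).
* `rk3` (the graph), `cls`, `nbr` (neighbours by counting), `dich` (point stabilisers by Sylow's theorem);
* `blkOk`, `exists_blk` (the action on blocks), `pgOk`, `pgrp`, `finish`.
-/

set_option autoImplicit false

namespace H14.R3
open H13 H14.PK H14.PK.TS H27.MG H27.PKx H14.XS MulAction Finset
open scoped Pointwise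

theorem rk3 {G Ω : Type*} [Group G] [MulAction G Ω] [Fintype Ω] [IsPretransitive G Ω] {k l : ℕ} {a b c : Ω}
    (hb : (orbit (stabilizer G a) b).ncard = k + 2) (hc : (orbit (stabilizer G a) c).ncard = l + 2) (h : k ≠ l)
    (hΩ : Fintype.card Ω = k + l + 5) : ∃ (Γ : SimpleGraph Ω) (_ : DecidableRel Γ.Adj),
    (∀ (g : G) x y, Γ.Adj (g • x) (g • y) ↔ Γ.Adj x y) ∧ orbit (stabilizer G a) b = {y | Γ.Adj a y} ∧
    orbit (stabilizer G a) c = {y | y ≠ a ∧ ¬ Γ.Adj a y} ∧ ∃ i m, Γ.IsSRGWith (k + l + 5) (k + 2) i m := by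
  classical
  obtain ⟨t1, t2, e⟩ := orbG_srg hb hc h hΩ
  have o : ∀ {y z : Ω}, y ∈ orbit (stabilizer G a) z → orbit (stabilizer G a) y = orbit (stabilizer G a) z := orbit_eq_iff.2
  refine ⟨orbG G Ω k, _, fun g x y => (orbAct G Ω k g).map_rel_iff, Set.ext fun y => ⟨fun p => (congrArg _ (o p)).trans hb, fun p => ?_⟩,
    Set.ext fun y => ⟨fun p => ⟨fun q => (orbG G Ω l).irrefl (v := a) ((congrArg _ (o (q ▸ p))).trans hc), fun q => ?_⟩, fun p => ?_⟩, e⟩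
  · obtain ⟨g, u, v⟩ := t1 a y p; exact ⟨⟨g, u⟩, v⟩
  · exact absurd (((congrArg _ (o p)).trans hc).symm.trans q) (by omega)
  · obtain ⟨g, u, v⟩ := t2 a y p.1.symm p.2; exact ⟨⟨g, u⟩, v⟩

variable {H Ω : Type*} [Group H] [MulAction H Ω] {w n : ℕ} {T : TS H w n} {K : Subgroup H} {D : Finset ℕ} {lab rep sz : ℕ → ℕ} {s : ℕ}

theorem cls {Z : Set Ω} {pt : ℕ → Ω} (I : Idn T D Z pt) (L : Lab T K D lab rep s) (hsz : ∀ j < s, cntL n lab (j + 1) = sz j)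
    {Q : Ω → Prop} (hQ : ∀ g ∈ K, ∀ y, Q (g • y) ↔ Q y) {j : ℕ}
    (hu : ∀ X ∈ (range s).powerset, ∑ i ∈ X, sz i = {y | y ∈ Z ∧ Q y}.ncard → X = {j}) :
    sz j = {y | y ∈ Z ∧ Q y}.ncard ∧ ∀ i < n, lab i = j + 1 ↔ i ∈ D ∧ Q (pt i) := by
  classical
  have k : ∀ g ∈ K, ∀ i ∈ D, Q (pt (T.ap g i)) ↔ Q (pt i) := fun g hg i hi => by rw [I.eqv g i hi, hQ g hg]
  have e := L.card (Q := fun i => Q (pt i)) k
  rw [I.card Q, sum_congr rfl fun i hi => if_congr Iff.rfl (hsz i (mem_range.1 hi)) rfl, ← sum_filter] at e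
  have x := hu _ (mem_powerset.2 (filter_subset _ _)) e.symm
  refine ⟨by rw [e, x, sum_singleton], fun i hi => ⟨fun c => ?_, fun ⟨c, d⟩ => ?_⟩⟩
  · have c' := (L.mem i).2 ⟨hi, by omega⟩
    exact ⟨c', (L.iff_rep (Q := fun i => Q (pt i)) k c').2 (by rw [c]; exact (mem_filter.1 (x ▸ mem_singleton_self j :)).2)⟩
  · obtain ⟨y, p, q, -⟩ := L.conn i c
    rw [L.iff_rep (Q := fun i => Q (pt i)) k c, q] at d
    rw [q, mem_singleton.1 (x ▸ mem_filter.2 ⟨mem_range.2 p, d⟩ : y ∈ ({j} : Finset ℕ))]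

theorem nbr [Fintype Ω] {Γ : SimpleGraph Ω} [DecidableRel Γ.Adj] {N k l m : ℕ} (h : Γ.IsSRGWith N k l m) {a : Ω} {pt : ℕ → Ω}
    (I : Idn T D {y | y ≠ a ∧ ¬ Γ.Adj a y} pt) (hA : ∀ (g : H) x y, Γ.Adj (g • x) (g • y) ↔ Γ.Adj x y) {c : ℕ} (hc : c ∈ D)
    (L : Lab T (T.st c) D lab rep s) (hsz : ∀ j < s, cntL n lab (j + 1) = sz j) {j : ℕ} (hk : 0 < k)
    (hu : ∀ X ∈ (range s).powerset, ∀ e ≤ k, ∑ i ∈ X, sz i + e = k → k ∣ (N - k - 1) * e → (N - k - 1) * e < k * k → X = {j}) :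
    sz j + m = k ∧ k * (k - l - 1) = (N - k - 1) * m ∧ ∀ i < n, lab i = j + 1 ↔ i ∈ D ∧ Γ.Adj (pt c) (pt i) := by
  classical
  have p := h.param_eq Γ (h.card ▸ Fintype.card_pos_iff.2 ⟨a⟩)
  have b := I.bij.mapsTo hc
  have e : {y | y ∈ {y | y ≠ a ∧ ¬ Γ.Adj a y} ∧ Γ.Adj (pt c) y}.ncard + m = k := by
    rw [← h.of_not_adj b.1.symm b.2, ← h.regular.degree_eq (pt c), ← SimpleGraph.card_neighborSet_eq_degree, ← Nat.card_eq_fintype_card,
      ← Nat.card_eq_fintype_card, Nat.card_coe_set_eq, Nat.card_coe_set_eq,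
      ← Set.ncard_inter_add_ncard_sdiff_eq_ncard (Γ.neighborSet (pt c)) (Γ.neighborSet a), add_comm]
    congr 2
    · exact Set.inter_comm _ _
    · ext z
      exact ⟨fun e => ⟨e.2, e.1.2⟩, fun e => ⟨⟨fun d => b.2 (d ▸ e.1.symm), e.2⟩, e.1⟩⟩
  obtain ⟨x, y⟩ := cls I L hsz (Q := Γ.Adj (pt c)) (j := j) (fun g hg y => by rw [← hA g (pt c) y, ← I.eqv g c hc, hg (I.lt c hc)])
    fun X hX q => hu X hX m (by omega) (q ▸ e) ⟨_, p.symm⟩ (p ▸ Nat.mul_lt_mul_of_pos_left (by omega) hk)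
  exact ⟨x ▸ e, p, y⟩

theorem Lab.ncard (L : Lab T K D lab rep s) (hl : ∀ g ∈ K, ∀ i < n, lab (T.ap g i) = lab i) {x : ℕ} (hx : x ∈ D) :
    {j | ∃ g ∈ K, T.ap g x = j}.ncard = cntL n lab (lab x) := by
  rw [cntL_eq, ← Set.ncard_coe_finset]
  refine congrArg _ (Set.ext fun i => ⟨?_, fun c => ?_⟩)
  · rintro ⟨g, a, rfl⟩
    exact mem_coe.2 (mem_filter.2 ⟨mem_range.2 (T.ap_lt _ (L.lt hx)), hl g a x (L.lt hx)⟩)
  · obtain ⟨a, b⟩ := mem_filter.1 c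
    obtain ⟨y, p, q, g, u, rfl⟩ := L.conn x hx
    obtain ⟨y', -, q', g', u', rfl⟩ := L.conn i ((L.mem i).2 ⟨mem_range.1 a, by omega⟩)
    obtain rfl : y = y' := by omega
    exact ⟨g' * g⁻¹, K.mul_mem u' (K.inv_mem u), by rw [T.ap_mul _ _ (L.lt hx), T.ap_inv_ap _ (L.rep_mem y p).1]⟩

theorem orb_div {c : ℕ} (L : Lab T (T.st c) D lab rep s) (hl : ∀ g ∈ T.st c, ∀ i < n, lab (T.ap g i) = lab i) (hc : c < n)
    (hK : Nat.card K = Nat.card (T.st c)) {x : ℕ} (hx : x ∈ D) (h : ∃ g ∈ K, T.ap g c = x) (h' : x ≠ c) :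
    ∃ o < {j | ∃ g ∈ K, T.ap g c = j}.ncard, 0 < o ∧ cntL n lab (lab x) ∣ o * {j | ∃ g ∈ K, T.ap g c = j}.ncard := by
  have := T.finite
  have f : ∀ (K : Subgroup H) (x : ℕ), x < n → {j | ∃ g ∈ K, T.ap g x = j}.Finite := fun K x hx =>
    (Set.finite_lt_nat n).subset (by rintro _ ⟨g, -, rfl⟩; exact T.ap_lt g hx)
  have a1 := ncard_orb (T := T) K hc
  have a2 := ncard_orb (T := T) (T.st c ⊓ K) (L.lt hx)
  have a3 := ncard_orb (T := T) (T.st c) (L.lt hx)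
  obtain ⟨d, a4⟩ := Subgroup.card_dvd_of_le (inf_le_inf_left _ inf_le_left : T.st x ⊓ (T.st c ⊓ K) ≤ T.st x ⊓ T.st c)
  refine ⟨_, Set.ncard_lt_ncard ⟨?_, fun e => ?_⟩ (f K c hc),
    (Set.ncard_pos (f _ x (L.lt hx))).2 ⟨x, 1, (T.st c ⊓ K).one_mem, T.ap_one (L.lt hx)⟩, d,
    Nat.eq_of_mul_eq_mul_right (Nat.card_pos (α := ↥(T.st x ⊓ (T.st c ⊓ K)))) ?_⟩
  · obtain ⟨g, u, rfl⟩ := h
    rintro _ ⟨g', v, rfl⟩
    exact ⟨g' * g, K.mul_mem v.2 u, T.ap_mul _ _ hc⟩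
  · obtain ⟨g, u, v⟩ := e ⟨1, K.one_mem, T.ap_one hc⟩
    exact h' (T.ap_inj g (L.lt hx) hc (v.trans (u.1 hc).symm))
  · rw [mul_right_comm, a2, mul_comm, a1, hK, ← a3, L.ncard hl hx, a4]; ring

theorem dich {c p a r : ℕ} (hp : p.Prime) (L : Lab T (T.st c) D lab rep s) (hl : ∀ g ∈ T.st c, ∀ i < n, lab (T.ap g i) = lab i)
    (hsz : ∀ j < s, cntL n lab (j + 1) = sz j) (hD : ∀ g, T.ap g c ∈ D) (h0 : rep 0 = c) (hs : 1 < s) {z : Ω}
    (hz : ¬ p ∣ (orbit H z).ncard) (hK : Nat.card (T.st c) = p ^ a * r) (hN : Nat.card H = (orbit H z).ncard * (p ^ a * r))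
    (big : ∀ j < s, 2 ≤ j → ∀ e ≤ r, e ∣ r → ∀ o < e, 0 < o → ¬ sz j ∣ o * e) {u : H} (hu : T.ap u (rep 1) = c) :
    ∃ y ∈ orbit H z, (∀ g : H, g • y = y → T.ap g c = c) ∨ ∃ O : Set ℕ, (∀ i ∈ O, i ∈ D ∧ lab i ≤ 2 ∧ lab (T.ap u i) ≤ 2) ∧
      (∀ g : H, g • y = y → ∀ i ∈ O, T.ap g i ∈ O) ∧ ∃ o < O.ncard, 0 < o ∧ sz 1 ∣ o * O.ncard := by
  have := T.finite
  have := Fact.mk hp
  have hc : c < n := h0 ▸ (L.rep_mem 0 (by omega)).1
  have h1 := L.rep_mem 1 hs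
  have k : ∀ y ∈ orbit H z, Nat.card (stabilizer H y) = Nat.card (T.st c) := fun y hy => by
    have := (stabilizer H y).index_mul_card
    rw [index_stabilizer, orbit_eq_iff.2 hy, hN] at this
    exact (Nat.eq_of_mul_eq_mul_left (Nat.pos_of_ne_zero fun e => hz (by rw [e]; exact dvd_zero p)) this).trans hK.symm
  obtain ⟨P, e1⟩ := Sylow.exists_subgroup_card_pow_prime (G := T.st c) p (n := a) ⟨r, hK⟩
  obtain ⟨y, hy, e2⟩ := exists_fixed hp ((IsPGroup.of_card e1).map (T.st c).subtype) hz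
  have e3 : {j | ∃ g ∈ stabilizer H y, T.ap g c = j}.ncard ∣ r := by
    have a1 := ncard_orb (T := T) (stabilizer H y) hc
    obtain ⟨d, a2⟩ := Subgroup.card_dvd_of_le (le_inf (Subgroup.map_subtype_le P) e2 : _ ≤ T.st c ⊓ stabilizer H y)
    rw [k y hy, hK, a2, Subgroup.card_map_of_injective (T.st c).subtype_injective, e1, mul_left_comm] at a1
    exact ⟨d, (Nat.eq_of_mul_eq_mul_left (pow_pos hp.pos a) a1).symm⟩
  have e4 : ∀ g : H, g • y = y → lab (T.ap g c) ≤ 2 := fun g hg => by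
    by_contra q
    obtain ⟨j, b1, b2, -⟩ := L.conn _ (hD g)
    obtain ⟨o, b3, b4, b5⟩ := orb_div L hl hc (k y hy) (hD g) ⟨g, hg, rfl⟩ fun e => q (by
      rw [e, ← h0, (L.rep_mem 0 (by omega)).2]; omega)
    exact big j b1 (by omega) _ (Nat.le_of_dvd (Nat.pos_of_ne_zero fun e => (Nat.card_pos (α := T.st c)).ne' (by simp [hK, e])) e3)
      e3 o b3 b4 (by rwa [b2, hsz j b1] at b5)
  by_cases q : ∀ g : H, g • y = y → T.ap g c = c
  · exact ⟨y, hy, .inl q⟩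
  push Not at q
  obtain ⟨g, q1, q2⟩ := q
  obtain ⟨j, b1, b2, x, b3, b4⟩ := L.conn _ (hD g)
  obtain rfl : j = 1 := by
    have := e4 g q1
    by_contra e
    obtain rfl : j = 0 := by omega
    exact q2 (by rw [← b4, h0, b3 hc])
  have hy' : x⁻¹ • y ∈ orbit H z := mem_orbit_of_mem_orbit _ hy
  have e5 : ∀ g ∈ stabilizer H (x⁻¹ • y), lab (T.ap g c) ≤ 2 := fun g hg => by
    have := e4 (x * g * x⁻¹) (by rw [mul_smul, mul_smul, mem_stabilizer_iff.1 hg, smul_inv_smul])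
    rwa [T.ap_mul _ _ hc, (T.st c).inv_mem b3 hc, T.ap_mul _ _ hc, hl x b3 _ (T.ap_lt _ hc)] at this
  have e6 : x⁻¹ * g * x ∈ stabilizer H (x⁻¹ • y) := by rw [mem_stabilizer_iff, mul_smul, mul_smul, smul_inv_smul, q1]
  have e7 : T.ap (x⁻¹ * g * x) c = rep 1 := by rw [T.ap_mul _ _ hc, b3 hc, T.ap_mul _ _ hc, ← b4, T.ap_inv_ap _ h1.1]
  refine ⟨_, hy', .inr ⟨{j | ∃ g ∈ stabilizer H (x⁻¹ • y), T.ap g c = j}, ?_, ?_, ?_⟩⟩
  · rintro _ ⟨v, b5, rfl⟩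
    refine ⟨hD v, e5 v b5, ?_⟩
    have := e5 _ (mul_mem (inv_mem e6) b5)
    rwa [T.ap_mul _ _ hc, ← hl (u * (x⁻¹ * g * x)) (fun _ => by rw [T.ap_mul _ _ hc, e7, hu]) _ (T.ap_lt _ (T.ap_lt _ hc)),
      T.ap_mul _ _ (T.ap_lt _ (T.ap_lt _ hc)), T.ap_ap_inv _ (T.ap_lt _ hc)] at this
  · rintro v b5 _ ⟨v', b6, rfl⟩
    exact ⟨v * v', mul_mem b5 b6, T.ap_mul _ _ hc⟩
  · have := orb_div L hl hc (k _ hy') (L.rep_in hs) ⟨_, e6, e7⟩ fun e => by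
      have := (L.rep_mem 0 (by omega)).2
      rw [h0, ← e, h1.2] at this
      omega
    rwa [h1.2, hsz 1 hs] at this

/-- the mask of the image of a block -/
noncomputable def blkM (w k BL j : ℕ) (f : ℕ → ℕ) : ℕ :=
  Nat.rec (nat_lit 0) (fun i ih => sb ih (f (get w BL (Nat.add (Nat.mul j k) i)))) k

theorem bt_blkM {k BL j y : ℕ} {f : ℕ → ℕ} : bt (blkM w k BL j f) y = true ↔ ∃ i < k, f (get w BL (j * k + i)) = y := by
  have : ∀ m, bt (Nat.rec (nat_lit 0) (fun i ih => sb ih (f (get w BL (Nat.add (Nat.mul j k) i)))) m : ℕ) y = true ↔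
      ∃ i < m, f (get w BL (j * k + i)) = y := fun m => by
    induction m with
    | zero => exact iff_of_false bt_zero (by simp)
    | succ m ih => exact bt_sb.trans (by rw [ih, Nat.exists_lt_succ_right, eq_comm]; rfl)
  exact this k

/-- the tables permute the blocks, and the base points are intersections of blocks -/
noncomputable def blkOk (w n v m k BL : ℕ) (Ps : List (ℕ × ℕ)) (bs : List (ℕ × ℕ × ℕ)) : Bool := force BL fun BL =>
  band (band (band (band (Nat.blt 0 v) (Nat.ble m (p2 v))) (allLt (fun i => Nat.blt (get w BL i) n) (Nat.mul m k)))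
    (allLt (fun j => bor (Nat.ble m (Nat.succ j)) (Nat.blt (blkM w k BL j fun x => x) (blkM w k BL (Nat.succ j) fun x => x))) m))
    (band (allL (fun p => force p.1 fun t => force p.2 fun u => band (Nat.blt u (p2 (Nat.mul v m))) (allLt (fun j =>
      band (Nat.blt (get v u j) m) (Nat.beq (blkM w k BL j (get w t)) (blkM w k BL (get v u j) fun x => x))) m)) Ps)
      (allL (fun b => band (band (Nat.blt b.2.1 m) (Nat.blt b.2.2 m))
        (Nat.beq (Nat.land (blkM w k BL b.2.1 fun x => x) (blkM w k BL b.2.2 fun x => x)) (p2 b.1))) bs))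

theorem exists_blk {v m k BL N : ℕ} {Ps : List (ℕ × ℕ)} {bs : List (ℕ × ℕ × ℕ)} (e : blkOk w n v m k BL Ps bs = true)
    (M : Mdl T (Ps.map Prod.fst) (bs.map Prod.fst) N) : ∃ U : TS H v m, (∀ t ∈ Ps.map Prod.snd, U.In ⊤ t) ∧ U.cl (Ps.map Prod.snd) = ⊤ ∧
      ∀ g, ∀ j < m, (∀ x ∈ msk n (blkM w k BL j fun x => x), T.ap g x ∈ msk n (blkM w k BL j fun x => x)) → U.ap g j = j := by
  have := T.finite
  rw [blkOk, force_eq] at e
  simp only [band_eq_true, Nat.blt_eq, Nat.ble_eq, p2_eq] at e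
  obtain ⟨⟨⟨e0, e1⟩, e2⟩, e3, e4⟩ := e
  let _ := MulAction.compHom (Fin n) (toP T)
  let pt : ℕ → Set (Fin n) := fun j => {x | bt (blkM w k BL j fun x => x) x = true}
  have lt : ∀ j < m, ∀ i < k, get w BL (j * k + i) < n := fun j hj i hi => by
    simpa using allLt_iff.1 e1 (j * k + i) (by rw [Nat.mul_eq]; nlinarith)
  have mono : ∀ j < m, ∀ i < j, (blkM w k BL i fun x => x) < blkM w k BL j fun x => x := fun j => by
    induction j with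
    | zero => simp
    | succ j ih =>
      intro hj i hi
      have : (blkM w k BL j fun x => x) < blkM w k BL (j + 1) fun x => x := by
        simpa [hj.not_ge] using allLt_iff.1 e2 j (by omega)
      exact (Nat.lt_succ_iff_lt_or_eq.1 hi).elim (fun c => (ih (by omega) i c).trans this) fun c => c ▸ this
  have inj : ∀ i < m, ∀ j < m, pt i = pt j → i = j := fun i hi j hj c => by
    have : (blkM w k BL i fun x => x) = blkM w k BL j fun x => x := Nat.eq_of_testBit_eq fun y => by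
      rw [← bt_eq, ← bt_eq, Bool.eq_iff_iff]
      by_cases hy : y < n
      · exact Set.ext_iff.1 c ⟨y, hy⟩
      · exact iff_of_false (fun d => let ⟨x, a, b⟩ := bt_blkM.1 d; hy (b ▸ lt i hi x a)) fun d =>
          let ⟨x, a, b⟩ := bt_blkM.1 d; hy (b ▸ lt j hj x a)
    exact (lt_trichotomy i j).elim (fun d => absurd this (mono j hj i d).ne) fun d => d.elim id fun d => absurd this (mono i hi j d).ne'
  have gen : ∀ p ∈ Ps, p.2 < 2 ^ (v * m) ∧ ∀ j < m, get v p.2 j < m ∧ T.el p.1 • pt j = pt (get v p.2 j) := fun p hp => by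
    have := allL_iff.1 e3 p hp
    rw [force_eq, force_eq, band_eq_true, Nat.blt_eq] at this
    refine ⟨this.1, fun j hj => ?_⟩
    have := band_eq_true.1 (allLt_iff.1 this.2 j hj)
    refine ⟨Nat.blt_eq ▸ this.1, Set.ext fun y => ?_⟩
    rw [Set.mem_ofPred_eq, ← Nat.eq_of_beq_eq_true this.2, bt_blkM]
    have a := (M.mem _ (List.mem_map_of_mem hp)).ap_el
    exact ⟨fun ⟨x, b, c⟩ => let ⟨i, d, f⟩ := bt_blkM.1 b; ⟨i, d, by rw [← a, f, ← c]; rfl⟩,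
      fun ⟨i, d, f⟩ => ⟨⟨_, lt j hj i d⟩, bt_blkM.2 ⟨i, d, rfl⟩, Fin.ext ((a _).trans f)⟩⟩
  have all : ∀ g : H, ∀ j < m, ∃ i < m, g • pt j = pt i := fun g => by
    have hg : g ∈ (T.cl (Ps.map Prod.fst)).toSubmonoid := M.cl ▸ trivial
    rw [TS.cl, Subgroup.closure_toSubmonoid_of_finite] at hg
    induction hg using Submonoid.closure_induction with
    | mem x hx =>
      obtain ⟨t, ht, rfl⟩ := hx
      obtain ⟨p, hp, rfl⟩ := List.mem_map.1 ht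
      exact fun j hj => ⟨_, (gen p hp).2 j hj⟩
    | one => exact fun j hj => ⟨j, hj, one_smul _ _⟩
    | mul x y _ _ a b =>
      intro j hj
      obtain ⟨i, c, d⟩ := b j hj
      rw [mul_smul, d]
      exact a i c
  obtain ⟨U, hU⟩ := exists_act pt e0.1 e0.2 inj all fun g h => M.base.2 g fun b hb => by
    obtain ⟨p, hp, rfl⟩ := List.mem_map.1 hb
    have a := allL_iff.1 e4 p hp
    simp only [band_eq_true, Nat.blt_eq, Nat.beq_eq] at a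
    have c : ∀ y, y = p.1 ↔ bt (blkM w k BL p.2.1 fun x => x) y = true ∧ bt (blkM w k BL p.2.2 fun x => x) y = true := fun y => by
      rw [bt_eq, bt_eq, ← Bool.and_eq_true, ← Nat.testBit_and, ← Nat.land_eq, a.2, Nat.testBit_two_pow, decide_eq_true_eq, eq_comm]
    have d := (c _).1 rfl
    exact (c _).2 ⟨(h _ a.1.1).le (Set.smul_mem_smul_set (a := g) (b := ⟨p.1, M.base.1 _ hb⟩) d.1),
      (h _ a.1.2).le (Set.smul_mem_smul_set (a := g) (b := ⟨p.1, M.base.1 _ hb⟩) d.2)⟩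
  have tb : ∀ p ∈ Ps, U.tb (T.el p.1) = p.2 := fun p hp => U.tb_eq (gen p hp).1 fun j hj =>
    inj _ (U.ap_lt _ hj) _ ((gen p hp).2 j hj).1 ((hU _ j hj).symm.trans ((gen p hp).2 j hj).2)
  refine ⟨U, List.forall_mem_map.2 fun p hp => ⟨T.el p.1, trivial, tb p hp⟩, top_le_iff.1 (M.cl ▸ cl_le' (List.forall_mem_map.2 fun p hp =>
    Subgroup.subset_closure ⟨p.2, List.mem_map_of_mem hp, by rw [← tb p hp, el_tb]⟩)), fun g j hj h =>
    inj _ (U.ap_lt _ hj) _ hj ((hU _ j hj).symm.trans (Set.eq_of_subset_of_ncard_le ?_ (Set.ncard_smul_set g _).ge))⟩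
  rintro _ ⟨x, a, rfl⟩
  exact (mem_msk.1 (h _ (mem_msk.2 ⟨x.2, a⟩))).2

/-- the tables commute and have order dividing `p` -/
noncomputable def pgOk (w n p : ℕ) (gs : List ℕ) : Bool :=
  allL (fun t => band (Nat.beq (tp w n t p) (idv w n)) (allL (fun u => Nat.beq (tm w n t u) (tm w n u t)) gs)) gs

theorem pgrp {p : ℕ} {gs : List ℕ} (e : pgOk w n p gs = true) (h : ∀ t ∈ gs, T.In ⊤ t) : IsPGroup p (T.cl gs) := by
  have a : T.cl gs ≤ Subgroup.centralizer (T.el '' {t | t ∈ gs}) := cl_le' fun t ht => by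
    rintro _ ⟨u, hu, rfl⟩
    exact Subgroup.mem_centralizer_singleton_iff.1
      ((h u hu).comm (h t ht) (allL_iff.1 (band_eq_true.1 (allL_iff.1 e u hu)).2 t ht)).el_mem
  refine fun ⟨g, hg⟩ => ⟨1, Subtype.ext ?_⟩
  change g ^ p ^ 1 = 1
  induction hg using Subgroup.closure_induction with
  | mem x hx =>
    obtain ⟨t, ht, rfl⟩ := hx
    rw [pow_one, ← (h t ht).el_tp, Nat.eq_of_beq_eq_true (band_eq_true.1 (allL_iff.1 e t ht)).1, el_idv]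
  | one => exact one_pow _
  | mul x y u v b c => rw [Commute.mul_pow (Subgroup.closure_le_centralizer_centralizer _ v x (a u)), b, c, one_mul]
  | inv x _ b => rw [inv_pow, b, inv_one]

theorem finish [Finite Ω] {Γ : SimpleGraph Ω} {a : Ω} (hA : ∀ (g : H) x y, Γ.Adj (g • x) (g • y) ↔ Γ.Adj x y)
    {R : ℕ → ℕ → Prop} (hR : ∀ g, ∀ x < n, ∀ y < n, R (T.ap g x) (T.ap g y) ↔ R x y) (hs : ∀ x < n, ∀ y < n, R x y → R y x) (h0 : 0 < n)
    {E : Finset ℕ} (hD : ∀ i < n, R 0 i ↔ i ∈ D) (hE : ∀ i < n, i ∈ E ↔ i ≠ 0 ∧ i ∉ D) (h1 : 0 ∉ D) {q : ℕ → Ω}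
    (J : Idn T E {y | y ≠ a ∧ ¬ Γ.Adj a y} q) {c : ℕ} (hc : c ∈ E) (tc : ∀ i ∈ E, ∃ g, T.ap g c = i)
    (r3 : ∀ i ∈ E, Γ.Adj (q c) (q i) ↔ R c i) {β : ℕ} (hβ : β < n) (tb : ∀ i, i ∈ D ↔ ∃ g, T.ap g β = i) {b : Ω}
    (hb : orbit H b = {y | Γ.Adj a y}) (hk : (orbit H b).ncard = D.card) (r2 : ∀ i ∈ E, Γ.Adj b (q i) ↔ R β i)
    (L : Lab T (T.st β) D lab rep s) (hsz : ∀ j < s, cntL n lab (j + 1) = sz j)
    (sep : ∀ j < s, rep j = β ∨ ∃ i ∈ E, ¬ (R (rep j) i ↔ R β i)) {j : ℕ}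
    (hu : ∀ X ∈ (range s).powerset, ∑ i ∈ X, sz i = (Γ.commonNeighbors a b).ncard → X = {j}) (r1 : ∀ i ∈ D, lab i = j + 1 ↔ R β i) :
    ∃ Ψ : ℕ → Ω, Set.BijOn Ψ {i | i < n} Set.univ ∧ ∀ x < n, ∀ y < n, Γ.Adj (Ψ x) (Ψ y) ↔ R x y := by
  obtain ⟨p, I, rfl⟩ := exists_idn hβ tb (c := b) (fun g hg => by
    have d := (tb _).2 ⟨g, rfl⟩
    have u : ∀ g ∈ T.st β, ∀ x ∈ D, (∀ i ∈ E, R (T.ap g x) i ↔ R β i) → ∀ i ∈ E, R x i ↔ R β i := fun g hg x hx h i hi => by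
      rw [← hR g x (L.lt hx) i (J.lt i hi), h _ (J.inv g i hi), ← hR g β hβ i (J.lt i hi), hg hβ]
    obtain ⟨y, b1, -, x, b2, b3⟩ := L.conn _ d
    have v := u x b2 _ (L.rep_in b1) fun i hi => by
      rw [b3, ← T.ap_ap_inv g (J.lt i hi), hR g β hβ _ (T.ap_lt _ (J.lt i hi)), ← r2 _ (J.inv _ i hi),
        ← r2 _ (J.inv _ _ (J.inv _ i hi)), J.eqv g _ (J.inv _ i hi), ← hA g b, hg]
    obtain e | ⟨i, hi, e⟩ := sep y b1
    · rw [← b3, e, b2 hβ]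
    · exact absurd (v i hi) e) hk
  rw [hb] at I
  have hβ' := (tb _).2 ⟨1, T.ap_one hβ⟩
  obtain ⟨-, x⟩ := cls I L hsz (Q := Γ.Adj (p β)) (fun g hg y => by rw [← hA g (p β) y, ← I.eqv g β hβ', hg hβ]) hu
  exact glue hA hR hs h0 hD hE h1 I J hβ' hc (fun i hi => (tb i).1 hi) tc
    (fun i hi => by rw [← r1 i hi, x i (L.lt hi), and_iff_right hi]) r2 r3

theorem in_st {c : ℕ} {gs : List ℕ} (h : ∀ t ∈ gs, T.In ⊤ t) (e : allL (fun t => Nat.beq (get w t c) c) gs = true) :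
    ∀ t ∈ gs, T.In (T.st c) t := fun t ht =>
  (h t ht).of_el fun _ => ((h t ht).ap_el c).trans (Nat.eq_of_beq_eq_true (allL_iff.1 e t ht))

theorem cl_of_low {N : ℕ} {pr : List (List ℕ)} {gs : List ℕ} {lv : Ch} (e : lowOk w n N pr gs lv = true) (h : ∀ t ∈ gs, T.In K t)
    (hK : Nat.card K = N) : T.cl gs = K :=
  have := T.finite
  Subgroup.eq_of_le_of_card_ge (cl_le h) (hK ▸ le_of_ok e fun t ht => (h t ht).cl ht)

theorem one_of {M β : ℕ} {gs : List ℕ} (e : labOk w n 1 M M gs [β] = true) (h : ∀ t ∈ gs, T.In K t) (hK : T.cl gs = K) :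
    (∀ i, i ∈ msk n M ↔ ∃ g ∈ K, T.ap g β = i) ∧ (∀ i < n, get 1 M i = 1 ↔ i ∈ msk n M) ∧
      ∀ g ∈ K, ∀ i < n, get 1 M (T.ap g i) = get 1 M i := by
  obtain ⟨L, a⟩ := lab_of e h
  rw [hK] at a
  have b := L.rep_mem 0 Nat.one_pos
  refine ⟨fun i => ⟨fun c => ?_, ?_⟩, fun i hi => ⟨fun c => (L.mem i).2 ⟨hi, by omega⟩, fun c => ?_⟩, a⟩
  · obtain ⟨j, p, -, q⟩ := L.conn i c
    obtain rfl : j = 0 := Nat.lt_one_iff.1 p
    exact q
  · rintro ⟨g, p, rfl⟩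
    exact (L.mem _).2 ⟨T.ap_lt _ b.1, by rw [a g p β b.1, show get 1 M β = 1 from b.2]; omega⟩
  · obtain ⟨j, p, q, -⟩ := L.conn i c
    rw [q, Nat.lt_one_iff.1 p]

theorem card_st' {c : ℕ} (hc : c < n) (h : ∀ i, i ∈ D ↔ ∃ g, T.ap g c = i) : D.card * Nat.card (T.st c) = Nat.card H := by
  rw [← Subgroup.card_top (G := H), ← ncard_orb (T := T) ⊤ hc, inf_top_eq, ← Set.ncard_coe_finset]
  congr 2
  exact Set.ext fun i => (h i).trans (by simp)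

theorem card_msk {M c : ℕ} (e : Nat.beq (cntL n (fun i => Bool.rec 0 1 (bt M i)) 1) c = true) : (msk n M).card = c := by
  rw [← Nat.eq_of_beq_eq_true e, cntL_eq]
  exact congrArg _ (filter_congr fun i _ => by cases bt M i <;> simp)

/-- agreement on a mask -/
noncomputable def agr (n M : ℕ) (f g : ℕ → Bool) : Bool := force M fun M => allLt (fun i => bor (bn (bt M i)) (bn (bx (f i) (g i)))) n

theorem agr_spec {M : ℕ} {f g : ℕ → Bool} (e : agr n M f g = true) : ∀ i ∈ msk n M, f i = true ↔ g i = true := fun i hi => by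
  rw [agr, force_eq] at e
  simpa [bx_iff, (mem_msk.1 hi).2] using allLt_iff.1 e i (mem_msk.1 hi).1

theorem rel_lit {S : TS H w n} {j : ℕ} (h0 : 0 < n) (hl : ∀ g ∈ S.st 0, ∀ i < n, lab (S.ap g i) = lab i) {Ts : List ℕ}
    (hT : ∀ t ∈ Ts, S.In ⊤ t) (u : List ℕ) {x R : ℕ}
    (e : band (Nat.beq (apV w n Ts u 0) x) (Nat.beq (row n lab j (apV w n Ts u)) R) = true) :
    ∀ y < n, Rel S lab j x y ↔ bt R y = true := fun y hy => by
  simp only [band_eq_true, Nat.beq_eq] at e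
  rw [← e.1, ← e.2, rel_row h0 hl (apV_spec hT u) hy]

theorem core [Fintype Ω] {Γ : SimpleGraph Ω} [DecidableRel Γ.Adj] {N k l m : ℕ} (h : Γ.IsSRGWith N k l m) {a : Ω}
    (hA : ∀ (g : H) x y, Γ.Adj (g • x) (g • y) ↔ Γ.Adj x y) (ha : ∀ g : H, g • a = a) {z : Ω}
    (hz : orbit H z = {y | y ≠ a ∧ ¬ Γ.Adj a y}) {c : ℕ} (hc : c < n) (tc : ∀ i, i ∈ D ↔ ∃ g, T.ap g c = i)
    (hs : ∀ g : H, g • z = z → T.ap g c = c) (hd : (orbit H z).ncard = D.card) (L : Lab T (T.st c) D lab rep s)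
    (hsz : ∀ j < s, cntL n lab (j + 1) = sz j) {j : ℕ}
    (hu : ∀ X ∈ (range s).powerset, ∀ e ≤ k, ∑ i ∈ X, sz i + e = k → k ∣ (N - k - 1) * e → (N - k - 1) * e < k * k → X = {j})
    {l' m' : ℕ} (hm : sz j + m' = k ∧ l' + 1 < k ∧ k * (k - l' - 1) = (N - k - 1) * m') {Ts : List ℕ} (hT : ∀ t ∈ Ts, T.In ⊤ t)
    {p : ℕ} (hp : p.Prime) {P : Subgroup H} (hP : IsPGroup p P) {lab' rep' : ℕ → ℕ} {s' : ℕ} (Lb : Lab T P D lab' rep' s')
    {v r : ℕ} {κ : ℤ} {J : List (List ℕ × ℤ)} {us : List (List ℕ)} {sols : List ℕ} {t : Tr}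
    (e : srchOk w n v r k l' m' κ Ts lab lab' (j + 1) c s' J us sols t = true) {b : Ω} (hb : orbit H b = {y | Γ.Adj a y})
    (hk : ¬ p ∣ (orbit H b).ncard) : l = l' ∧ ∃ q, Idn T D {y | y ≠ a ∧ ¬ Γ.Adj a y} q ∧
      (∀ i < n, lab i = j + 1 ↔ i ∈ D ∧ Γ.Adj (q c) (q i)) ∧ ∃ y ∈ orbit H b, ∃ x ∈ sols, ∀ i ∈ D, Γ.Adj y (q i) ↔ bt x (lab' i) = true := by
  obtain ⟨q, I, -⟩ := exists_idn hc tc hs hd
  rw [hz] at I
  have hc' := (tc c).2 ⟨1, T.ap_one hc⟩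
  obtain ⟨a1, a2, a3⟩ := nbr h I hA hc' L hsz (by omega) hu
  obtain rfl : m = m' := by omega
  obtain rfl : l = l' := by
    have := Nat.eq_of_mul_eq_mul_left (by omega) (a2.trans hm.2.2.symm)
    omega
  obtain ⟨y, a4, a5⟩ := exists_fixed hp hP hk
  exact ⟨rfl, q, I, a3, y, a4, search h I hA ha hc' a3 hT Lb e (hb.le a4) a5⟩

end H14.R3
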