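import Mathlib
import Cfsg.Agent.H14.R3d
import Cfsg.Agent.H27.MG5

/-!
More tools for models (namespace `H14.R3`): `cbOk`/`cen_le` (a bound for the order of a centraliser from a chain of orbits),
`brOk`/`hom_br` (a homomorphism from an invariant incidence relation), `mdl_comap`, `qs_of_hom`, `relIndex_two`.
-/

set_option autoImplicit false

namespace H14.R3
open H13 H14.PK H14.PK.TS H27.MG H27.PKx MulAction Finset

variable {G H : Type*} [Group G] [Group H] {w n v m : ℕ} {S : TS G w n} {S' : TS H v m}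

/-- the number of points with a property -/
noncomputable def cntB (n : ℕ) (p : ℕ → Bool) : ℕ := cntL n (fun i => Bool.rec 0 1 (p i)) 1

theorem cntB_eq (p : ℕ → Bool) : cntB n p = {i | i < n ∧ p i = true}.ncard := by
  rw [cntB, cntL_eq, ← Set.ncard_coe_finset]
  exact congrArg _ (Set.ext fun i => by cases h : p i <;> simp [h])

/-- the masks are the orbits of the levels -/
noncomputable def cbOk (w n : ℕ) (Ms : List ℕ) (lv : List (ℕ × ℕ × List ℕ)) : List ℕ → Bool :=
  List.rec (fun _ => true) (fun l _ ih bs => band (band (Nat.blt l.1 n) (allL (H14.PK.fixL w bs) (sel w n Ms l.2.2)))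
    (band (labOk w n 1 l.2.1 l.2.1 (sel w n Ms l.2.2) [l.1]) (ih (l.1 :: bs)))) lv

/-- the product of the sizes of the masks -/
noncomputable def cbN (n : ℕ) (lv : List (ℕ × ℕ × List ℕ)) : ℕ := List.rec 1 (fun l _ ih => Nat.mul (cntB n (bt l.2.1)) ih) lv

/-- the product of the numbers of possible images of the base points -/
noncomputable def cbB (w n A : ℕ) (lv : List (ℕ × ℕ × List ℕ)) : List ℕ → ℕ :=
  List.rec (fun _ => 1) (fun l _ ih bs => Nat.mul (Bool.rec (cntB n fun i => band (bt l.2.1 i)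
    (bn (bx (Nat.beq (get w A i) i) (Nat.beq (get w A l.1) l.1)))) 1 (anyL (fun p => Nat.beq (get w A p) l.1) bs)) (ih (l.1 :: bs))) lv

theorem cb_aux {A : ℕ} (hA : S.In ⊤ A) {Ms : List ℕ} (hM : ∀ t ∈ Ms, S.In ⊤ t) {lv : List (ℕ × ℕ × List ℕ)} {bs : List ℕ}
    (e : cbOk w n Ms lv bs = true) (hb : ∀ b ∈ bs, b < n) {K : Subgroup G} (hK : ∀ g, g ∈ K ↔ ∀ b ∈ bs, S.ap g b = b) :
    cbN n lv ≤ Nat.card K ∧ (Nat.card K ≤ cbN n lv → Nat.card ↥(K ⊓ Subgroup.centralizer {S.el A}) ≤ cbB w n A lv bs) := by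
  have := S.finite
  induction lv generalizing bs K with
  | nil => exact ⟨Nat.card_pos, (Subgroup.card_le_of_le inf_le_left).trans⟩
  | cons l lv ih =>
    have e : band (band (Nat.blt l.1 n) (allL (H14.PK.fixL w bs) (sel w n Ms l.2.2)))
      (band (labOk w n 1 l.2.1 l.2.1 (sel w n Ms l.2.2) [l.1]) (cbOk w n Ms lv (l.1 :: bs))) = true := e
    simp only [band_eq_true, Nat.blt_eq, allL_iff, H14.PK.fixL, Nat.beq_eq] at e
    obtain ⟨⟨e1, e2⟩, e3, e4⟩ := e
    have g1 := sel_in hM l.2.2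
    obtain ⟨a, -, -⟩ := one_of e3 (fun t ht => (g1 t ht).cl ht) rfl
    have a1 : {i | i < n ∧ bt l.2.1 i = true} ⊆ {j | ∃ g ∈ K, S.ap g l.1 = j} := fun i hi =>
      ((a i).1 (mem_msk.2 hi)).imp fun g c => ⟨cl_le' (fun t ht => (hK _).2 fun b hb => ((g1 t ht).ap_el b).trans (e2 t ht b hb)) c.1, c.2⟩
    have f : {j | ∃ g ∈ K, S.ap g l.1 = j}.Finite := (Set.finite_lt_nat n).subset (by rintro _ ⟨g, -, rfl⟩; exact S.ap_lt g e1)
    have a2 := Set.ncard_le_ncard a1 f
    obtain ⟨b1, b2⟩ := ih e4 (List.forall_mem_cons.2 ⟨e1, hb⟩) (K := S.st l.1 ⊓ K) fun g => by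
      rw [List.forall_mem_cons, Subgroup.mem_inf, mem_st e1, hK]
    have a3 := ncard_orb (T := S) K e1
    have a4 : 0 < {i | i < n ∧ bt l.2.1 i = true}.ncard := (Set.ncard_pos (f.subset a1)).2
      ⟨l.1, mem_msk.1 ((a _).2 ⟨1, one_mem _, S.ap_one e1⟩)⟩
    have a5 : cbN n (l :: lv) = {i | i < n ∧ bt l.2.1 i = true}.ncard * cbN n lv := congrArg (· * _) (cntB_eq _)
    rw [a5, ← a3]
    refine ⟨Nat.mul_le_mul a2 b1, fun c => ?_⟩
    have a6 := Set.eq_of_subset_of_ncard_le a1 (Nat.le_of_mul_le_mul_right (c.trans (Nat.mul_le_mul_left _ b1)) Nat.card_pos) f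
    have k : ∀ g ∈ Subgroup.centralizer {S.el A}, ∀ i < n, get w A (S.ap g i) = S.ap g (get w A i) := fun g hg i hi => by
      rw [← hA.ap_el, ← hA.ap_el, ← S.ap_mul _ _ hi, ← S.ap_mul _ _ hi, Subgroup.mem_centralizer_singleton_iff.1 hg]
    rw [← ncard_orb (T := S) _ e1, ← inf_assoc]
    refine Nat.mul_le_mul ?_ (b2 (Nat.le_of_mul_le_mul_left ((Nat.mul_le_mul_right _ a2).trans c) a4))
    cases d : anyL (fun p => Nat.beq (get w A p) l.1) bs
    · refine (Set.ncard_le_ncard ?_ ((Set.finite_lt_nat n).subset fun _ h => h.1)).trans (cntB_eq _).ge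
      rintro _ ⟨g, hg, rfl⟩
      refine ⟨S.ap_lt g e1, band_eq_true.2 ⟨(a6.ge ⟨g, hg.1, rfl⟩).2, ?_⟩⟩
      rw [bn_iff, bx_iff, not_not, Nat.beq_eq, Nat.beq_eq, k g hg.2 _ e1]
      exact ⟨S.ap_inj g (hA.ap_el _ ▸ S.ap_lt _ e1) e1, congrArg _⟩
    · obtain ⟨p, hp, d⟩ := anyL_iff.1 d
      refine (Set.ncard_le_ncard (t := {l.1}) ?_).trans (Set.ncard_singleton _).le
      rintro _ ⟨g, hg, rfl⟩
      rw [← Nat.eq_of_beq_eq_true d, ← k g hg.2 p (hb p hp), (hK g).1 hg.1 p hp]
      rfl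

theorem cen_le {Ls bs : List ℕ} {N : ℕ} (M : Mdl S Ls bs N) {A B : ℕ} (hA : S.In ⊤ A) {pr : List (List ℕ)} {lv : List (ℕ × ℕ × List ℕ)}
    (e : band (slpK w n pr Ls fun Ms => cbOk w n Ms lv []) (band (Nat.ble N (cbN n lv)) (Nat.ble (force A fun A => cbB w n A lv []) B)) = true) :
    Nat.card (Subgroup.centralizer {S.el A}) ≤ B := by
  simp only [band_eq_true, Nat.ble_eq, force_eq] at e
  obtain ⟨Ms, a, b⟩ := slpK_spec e.1 M.mem
  have := (cb_aux hA a b (by simp) (K := ⊤) (by simp)).2 (by rw [Subgroup.card_top, M.card]; exact e.2.1)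
  rw [top_inf_eq] at this
  exact this.trans e.2.2

/-- the triples permute the rows of `A` (sets of blocks of the second points), and the rows separate the base -/
noncomputable def brOk (w n v m u k A B : ℕ) (bs : List ℕ) (Ps : List (ℕ × ℕ × ℕ)) : Bool := force A fun A => force B fun B =>
  band (allL (fun p => force p.1 fun U => force p.2.1 fun T => force p.2.2 fun V =>
    band (allLt (fun x => Nat.beq (get u B (get v T x)) (get u V (get u B x))) m) (allLt (fun i => force (get k A i) fun r =>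
      force (get k A (get w U i)) fun r' => allLt (fun j => bor (bn (bt r j)) (bt r' (get u V j))) k) n)) Ps)
    (allL (fun b => force (get k A b) fun r => allLt (fun i => bor (Nat.beq i b) (force (get k A i) fun r' =>
      bn (allLt (fun x => force (get u B x) fun j => bor (bn (bt r j)) (bt r' j)) m))) n) bs)

theorem hom_br {u k A B : ℕ} {bs : List ℕ} {Ps : List (ℕ × ℕ × ℕ)} (hb : S.Base bs)
    (h : ∀ t ∈ Ps.map Prod.fst, S.In ⊤ t) (h' : ∀ t ∈ Ps.map (·.2.1), S'.In ⊤ t) (e : brOk w n v m u k A B bs Ps = true)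
    (hG : S.cl (Ps.map Prod.fst) = ⊤) (hH : S'.cl (Ps.map (·.2.1)) = ⊤) :
    ∃ φ : H →* G, Function.Surjective φ ∧ ∀ p ∈ Ps, φ (S'.el p.2.1) = S.el p.1 := by
  simp only [brOk, force_eq, band_eq_true, allLt_iff, allL_iff, bor_eq_true, bn_iff, Nat.beq_eq] at e
  let D : Submonoid (H × G) :=
    { carrier := {y | ∀ i < n, ∀ x < m, bt (get k A i) (get u B x) = true → bt (get k A (S.ap y.2 i)) (get u B (S'.ap y.1 x)) = true}
      one_mem' := fun i hi x hx c => by rwa [Prod.fst_one, Prod.snd_one, S.ap_one hi, S'.ap_one hx]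
      mul_mem' := fun {a b} ha hb i hi x hx c => by
        rw [Prod.fst_mul, Prod.snd_mul, S.ap_mul _ _ hi, S'.ap_mul _ _ hx]
        exact ha _ (S.ap_lt _ hi) _ (S'.ap_lt _ hx) (hb i hi x hx c) }
  have := S.finite
  have := S'.finite
  set E := Subgroup.closure ((fun p => (S'.el p.2.1, S.el p.1)) '' {p | p ∈ Ps}) with hE
  have h3 : E.toSubmonoid ≤ D := by
    rw [Subgroup.closure_toSubmonoid_of_finite, Submonoid.closure_le]
    rintro _ ⟨p, hp, rfl⟩ i hi x hx c
    rw [(h _ (List.mem_map_of_mem hp)).ap_el, (h' _ (List.mem_map_of_mem hp)).ap_el, (e.1 p hp).1 x hx]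
    exact ((e.1 p hp).2 i hi _ (lt_of_not_ge fun d => by
      rw [bt_eq, Nat.testBit_lt_two_pow ((get_lt _ _ _).trans_le (Nat.pow_le_pow_right two_pos d))] at c
      cases c)).resolve_left (not_not.2 c)
  obtain ⟨φ, a, b⟩ := exists_hom_of_graph E (K := ⊤) (by
    rw [← hH, TS.cl, MonoidHom.map_closure, Set.image_image]
    congr 1; ext x
    simp only [Set.mem_image, Set.mem_ofPred_eq, List.mem_map, exists_exists_and_eq_and]; rfl) (by
    rw [Subgroup.card_top]
    refine Nat.card_le_card_of_injective ((MonoidHom.fst H G).comp E.subtype) ((injective_iff_map_eq_one _).2 fun x c =>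
      Subtype.ext (Prod.ext c (hb.2 _ fun b y => (e.2 b y _ (S.ap_lt _ (hb.1 b y))).resolve_right fun a => a fun j hj =>
        or_iff_not_imp_left.2 fun d => ?_)))
    have := h3 x.2 b (hb.1 b y) j hj (not_not.1 d)
    rwa [show x.1.1 = 1 from c, S'.ap_one hj] at this)
  refine ⟨φ.comp (Subgroup.topEquiv (G := H)).symm.toMonoidHom,
    (MonoidHom.range_eq_top.1 (a.trans ?_)).comp (Subgroup.topEquiv (G := H)).symm.surjective,
    fun p hp => b _ (Subgroup.subset_closure ⟨p, hp, rfl⟩) trivial⟩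
  rw [← hG, TS.cl, MonoidHom.map_closure, Set.image_image]
  congr 1; ext x
  simp only [Set.mem_image, Set.mem_ofPred_eq, List.mem_map, exists_exists_and_eq_and]; rfl

theorem mdl_comap {Ls bs : List ℕ} {N : ℕ} (M : Mdl S Ls bs N) (e : H ≃* G) :
    ∃ T : TS H w n, Mdl T Ls bs N ∧ ∀ t, S.In ⊤ t → e (T.el t) = S.el t := by
  have a : ∀ t, S.In ⊤ t → (S.comap e.toMonoidHom e.injective).In ⊤ t := fun t ht =>
    in_comap.2 ((Subgroup.map_top_of_surjective e.toMonoidHom e.surjective).symm ▸ ht)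
  have b : ∀ t, S.In ⊤ t → e ((S.comap e.toMonoidHom e.injective).el t) = S.el t := fun t ht =>
    S.tb_inj ((a t ht).tb_el.trans ht.tb_el.symm)
  refine ⟨_, ⟨fun t ht => a t (M.mem t ht), Subgroup.map_injective (f := e.toMonoidHom) e.injective ?_,
    ⟨M.base.1, fun g c => e.injective ((M.base.2 _ c).trans (map_one e).symm)⟩, (Nat.card_congr e.toEquiv).trans M.card⟩, b⟩
  rw [Subgroup.map_top_of_surjective _ e.surjective, ← M.cl, TS.cl, TS.cl, MonoidHom.map_closure, Set.image_image]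
  congr 1
  exact Set.image_congr fun t ht => b t (M.mem t ht)

theorem qs_of_hom [IsSimpleGroup H] (φ : G →* H) (hs : Function.Surjective φ) (hc : φ.ker ≤ Subgroup.center G) (hp : commutator G = ⊤) :
    Cfsg.IsQuasisimple G := by
  have a : Subgroup.center G = φ.ker := by
    refine le_antisymm ?_ hc
    rcases ((inferInstance : (Subgroup.center G).Normal).map φ hs).eq_bot_or_eq_top with c | c
    · exact (Subgroup.map_eq_bot_iff _).1 c
    · obtain ⟨x, hx⟩ := exists_ne (1 : H)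
      obtain ⟨x, rfl⟩ := hs x
      refine absurd ((show commutator G ≤ φ.ker from Subgroup.commutator_le.2 fun a _ b _ => ?_) (hp.ge trivial)) hx
      obtain ⟨y, p, q⟩ := c.ge (Subgroup.mem_top (φ a))
      rw [MonoidHom.mem_ker, map_commutatorElement, ← q, ← map_commutatorElement,
        commutatorElement_eq_one_iff_mul_comm.2 (Subgroup.mem_center_iff.1 p b).symm, map_one]
  exact ⟨⟨hp⟩, ((QuotientGroup.quotientMulEquivOfEq a).trans (QuotientGroup.quotientKerEquivOfSurjective φ hs)).isSimpleGroup⟩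

theorem relIndex_two {y d : G} (hy : orderOf y = 3) (hd : d * y * d⁻¹ = y⁻¹) :
    (Subgroup.centralizer (Subgroup.zpowers y : Set G)).relIndex (Subgroup.normalizer (Subgroup.zpowers y : Set G)) = 2 := by
  have c : Nat.card (Subgroup.zpowers y) = 3 := (Nat.card_zpowers y).trans hy
  have : Finite (Subgroup.zpowers y) := Nat.finite_of_card_ne_zero (by omega)
  have a := Subgroup.card_dvd_of_injective _ (QuotientGroup.kerLift_injective (Subgroup.zpowers y).normalizerMonoidHom)
  rw [Subgroup.normalizerMonoidHom_ker, ← Subgroup.index, ← Subgroup.relIndex, IsCyclic.card_mulAut, c] at a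
  refine ((Nat.dvd_prime Nat.prime_two).1 a).resolve_left fun e => ?_
  have b : d ∈ Subgroup.normalizer (Subgroup.zpowers y : Set G) := Subgroup.mem_normalizer_fintype (by
    rintro _ ⟨k, rfl⟩
    exact ⟨-k, by simp only [← conj_zpow, hd, inv_zpow']⟩)
  have f := Subgroup.relIndex_eq_one.1 e b y (Subgroup.mem_zpowers y)
  rw [← f, mul_inv_cancel_right, eq_inv_iff_mul_eq_one, ← pow_two, ← orderOf_dvd_iff_pow_eq_one, hy] at hd
  omega

end H14.R3
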