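import Mathlib
import Cfsg.Agent.H14.CKit
import Cfsg.Agent.H27.Pt

/-!
Tables for subgroups acting on numbered points (namespace `H14.LTS`): `exists_ts`, `in_tab`, `base_of_rank`.
-/

set_option autoImplicit false

namespace H14.LTS
open H14.PK H14.PK.TS Cfsg

section
variable {G α : Type*} [Group G] [MulAction G α] {P : H13.Pts α} {W : ℕ} {gen : ℕ → G} {nets : List H13.Net} {K : Subgroup G}

theorem exists_ts (Y : H13.Sys P W gen nets) {O : Set α} (hO : P.set = O) (inv : ∀ g ∈ K, ∀ y ∈ O, g • y ∈ O)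
    (hf : H13.Faith P K) : ∃ S : TS K W P.n, ∀ g : K, ∀ i < P.n, (g : G) • P.pt i = P.pt (S.ap g i) := by
  subst hO
  exact exists_act (G := K) P.pt Y.hw Y.hn' P.inj (fun g i hi =>
    let ⟨j, a, b⟩ := inv g g.2 _ ⟨i, hi, rfl⟩; ⟨j, a, b.symm⟩) fun g h => Subtype.ext (hf g g.2 h)

theorem tb_tab (Y : H13.Sys P W gen nets) {S : TS K W P.n} (hS : ∀ g : K, ∀ i < P.n, (g : G) • P.pt i = P.pt (S.ap g i))
    {u : List ℕ} (h : H13.evalW gen u ∈ K) : S.tb ⟨_, h⟩ = H13.tabW W P.n nets u :=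
  S.tb_eq_of_act P.inj hS (H13.lt_of_get Y.hw fun i hi => (Y.small_apW u (H13.small_idv Y.hw Y.hn) i).2 hi)
    fun i hi => Y.rep_tabW u i hi

theorem in_tab (Y : H13.Sys P W gen nets) (hg : ∀ l, gen l ∈ K) {S : TS K W P.n}
    (hS : ∀ g : K, ∀ i < P.n, (g : G) • P.pt i = P.pt (S.ap g i)) (us : List (List ℕ)) :
    ∀ t ∈ us.map (H13.tabW W P.n nets), S.In ⊤ t :=
  List.forall_mem_map.2 fun _ _ => ⟨_, trivial, tb_tab Y hS (H13.evalW_mem fun l _ => hg l)⟩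

end

/-- the points `c.1` are the vectors `vN c.2` -/
noncomputable def ptOk (n : ℕ) (X : List ℕ) (L : List (ℕ × ℕ)) : Bool := forceL X fun X =>
  H13.allL (fun c => band (Nat.blt c.1 n) (allLt 24 fun j => Nat.beq (H13.get 16 (H13.nthN X j) c.1) (H13.get 5 c.2 j))) L

theorem ptOk_spec {n : ℕ} {X : List ℕ} (h : VecsOk 16 n X) {L : List (ℕ × ℕ)} (e : ptOk n X L = true) :
    ∀ c ∈ L, c.1 < n ∧ ((mkPts h).pt c.1 : V) = vN c.2 := fun c hc => by
  rw [ptOk, forceL_eq] at e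
  obtain ⟨a, b⟩ := (band_iff _ _).1 (H13.allL_iff.1 e c hc)
  rw [Nat.blt_eq] at a
  refine ⟨a, (mkPts_coe h a).trans (funext fun p => ?_)⟩
  rw [vec, vN, ← H13.nthN_eq, Nat.eq_of_beq_eq_true ((allLt_iff _ _).1 b _ (idx_lt p))]

theorem base_of_rank {n w : ℕ} {X : List ℕ} (h : VecsOk 16 n X) {K : Subgroup Co0} {S : TS K w n}
    (hS : ∀ g : K, ∀ i < n, (g : Co0) • (mkPts h).pt i = (mkPts h).pt (S.ap g i)) {us C : List ℕ} (hK : ∀ g ∈ K, Fixes g us)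
    {L : List (ℕ × ℕ)} (e : band (ptOk n X L) (rankOk C (us ++ L.map Prod.snd)) = true) : S.Base (L.map Prod.fst) := by
  obtain ⟨a, b⟩ := (band_iff _ _).1 e
  have c := ptOk_spec h a
  refine ⟨List.forall_mem_map.2 fun x hx => (c x hx).1, fun g hg => Subtype.ext (eq_one_of_fixes ?_ b)⟩
  refine List.forall_mem_append.2 ⟨hK g g.2, List.forall_mem_map.2 fun x hx => ⟨_, (c x hx).2, ?_⟩⟩
  rw [hS g _ (c x hx).1, hg _ (List.mem_map_of_mem hx)]

end H14.LTS
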