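import Mathlib
import Cfsg.Agent.H14.LTS
import Cfsg.Agent.H14.XS
import Cfsg.Agent.H14.CB
import Cfsg.Agent.H14.PK4
import Cfsg.Agent.H22.FStar
import Cfsg.Agent.H27.HomB

/-!
Bounds for centralisers in `Co0` (`H14.cntQ`, `cbdOk`, `card_le_of_cbd`, `cen_eq`), tables for generated subgroups (`ts_cl`), and
involution centralisers with a large extraspecial subgroup (`H14.XS.type_of`, `xs_spec`).
-/

set_option autoImplicit false

namespace H14

open Finset Cfsg MulAction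

variable {Ms : List (List ℕ)} {gen : ℕ → Co0}

/-- at most `c` minimal vectors have the inner products with `us` and the profile of `vN v` -/
noncomputable def cntQ (X : List ℕ) (Ms : List (List ℕ)) (qs : List (Ex × ℕ)) (us : List ℕ) (v c : ℕ) : Bool :=
  forceL (mapL (fun u => (dotInt (vN u) (vN v) + 1024).toNat) us) fun ds => forceL (arr1 v) fun L =>
    band (band (vecsOk 16 1 L) (H13.allL (fun c => Nat.ble c.2 2048) (us.zip ds))) (band (normOk 16 1 L 32)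
      (band (Nat.beq (condF 16 1 L (us.zip ds)) (H13.rep 16 1)) (band (qF 16 1 L Ms qs fun F => Nat.beq F (H13.rep 16 1))
        (qF 19 196560 X Ms qs fun F => Nat.ble (H13.cnt 19 (Nat.land (condF 19 196560 X (us.zip ds)) F)) c))))

theorem cntQ_spec (hM : ∀ l, IsM (gen l) (nthM Ms l)) {K : Subgroup Co0} {qs : List (Ex × ℕ)}
    (hq : ∀ k ∈ K, ∀ q ∈ qs, k * q.1.ev gen = q.1.ev gen * k) {us : List ℕ} (h : ∀ k ∈ K, Fixes k us) {v c : ℕ}
    (e : cntQ minX Ms qs us v c = true) :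
    ∃ x : leechLattice, (x : V) = vN v ∧ Nat.card K ≤ c * Nat.card ↥(K ⊓ stabilizer Co0 x) := by
  simp only [cntQ, band_iff, forceL_eq, H13.allL_iff, Nat.ble_eq] at e
  generalize mapL _ us = ds at e
  obtain ⟨⟨h0, h1⟩, h2, h3, h4, h5⟩ := e
  have h0 := vecsOk_spec h0
  obtain ⟨F, hF, h4⟩ := qF_spec h0 hM h4
  obtain ⟨G, hG, h5⟩ := qF_spec minOk hM h5
  have := ncard_fl minOk (q := fun x => Cond (us.zip ds) x ∧ QCond gen qs (toL x))
    ((condF_spec (by norm_num) minOk.arr h1).and hG)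
  rw [min_set] at this
  simp only [toL_coe] at this
  refine ⟨(mkPts h0).pt 0, (mkPts_coe h0 Nat.one_pos).trans (vec_arr1 v), ?_⟩
  rw [card_eq_mul_stab K ((mkPts h0).pt 0) {y | ∃ g ∈ K, g • (mkPts h0).pt 0 = y} (fun g hg => ⟨g, hg, rfl⟩) fun _ h => h]
  refine Nat.mul_le_mul_right _ (le_trans ?_ (this.le.trans (Nat.le_of_ble_eq_true h5)))
  refine Set.ncard_le_ncard ?_ ((finite_norm 32).subset fun _ h => h.1)
  rintro _ ⟨g, hg, rfl⟩
  exact ⟨(co_norm _ _).trans (norm_of_normOk h0 h2 Nat.one_pos), Fixes.cond (fun u hu => by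
    obtain ⟨c, hc, rfl⟩ := List.mem_map.1 hu
    exact h g hg _ (List.of_mem_zip hc).1) (all_cond h0 h1 h3 Nat.one_pos), QCond.smul (hq g hg) (hF.all (by norm_num) h4 0 Nat.one_pos)⟩

/-- steps `(l, ns, v, c)`: for `l < m` the generator `l` maps the last vector to the new vector `v`, otherwise there are at most `c`
possible images of `v`; at the end the vectors span the space -/
noncomputable def cbdOk (Ms : List (List ℕ)) (m : ℕ) (qe : List Ex) (C : List ℕ) (st : List (ℕ × List ℕ × ℕ × ℕ))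
    (us : List ℕ) : Bool :=
  forceL minX fun X => List.rec (motive := fun _ => List ℕ → Bool) (rankOk C)
    (fun s _ ih us => band (bif' (Nat.blt s.1 m) (band (band (Nat.blt 0 us.length) (Nat.blt 0 s.2.2.2))
      (mapOk (nthM Ms s.1) (H13.nthN us 0) s.2.2.1)) (cntQ X Ms (qe.zip s.2.1) us s.2.2.1 s.2.2.2)) (ih (s.2.2.1 :: us))) st us

theorem card_le_of_cbd (hM : ∀ l, IsM (gen l) (nthM Ms l)) {K : Subgroup Co0} {m : ℕ} (hk : ∀ k ∈ K, ∀ l < m, k * gen l = gen l * k)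
    {qe : List Ex} (hq : ∀ k ∈ K, ∀ q ∈ qe, k * q.ev gen = q.ev gen * k) {C : List ℕ} {st : List (ℕ × List ℕ × ℕ × ℕ)} {us : List ℕ}
    (h : ∀ k ∈ K, Fixes k us) (e : cbdOk Ms m qe C st us = true) : Nat.card K ≤ (st.map (·.2.2.2)).prod := by
  rw [cbdOk, forceL_eq] at e
  induction st generalizing us K with
  | nil => exact (Subgroup.card_eq_one.2 (eq_bot_iff.2 fun k a => eq_one_of_fixes (h k a) e)).le
  | cons s st ih =>
    obtain ⟨h1, e⟩ := (band_iff _ _).1 e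
    rw [bif'_eq] at h1
    rw [List.map_cons, List.prod_cons]
    split_ifs at h1 with a
    · simp only [band_iff, Nat.blt_eq, H13.nthN_eq] at h1 a
      refine (ih hk hq (fun k c => List.forall_mem_cons.2 ⟨?_, h k c⟩) e).trans (Nat.le_mul_of_pos_left _ h1.1.2)
      obtain ⟨x, b, d⟩ := h k c _ (List.getElem_mem h1.1.1)
      rw [List.getD_eq_getElem _ _ h1.1.1] at h1
      exact ⟨gen s.1 • x, (hM s.1).map h1.2 b, by rw [← mul_smul, hk k c _ a, mul_smul, d]⟩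
    · obtain ⟨x, b, d⟩ := cntQ_spec hM (fun k c q hq' => hq k c _ (List.of_mem_zip hq').1) h h1
      exact d.trans (Nat.mul_le_mul_left _ (ih (K := K ⊓ stabilizer Co0 x) (fun k c => hk k c.1) (fun k c => hq k c.1)
        (fun k c => List.forall_mem_cons.2 ⟨⟨x, b, c.2⟩, h k c.1⟩) e))

/-- the centraliser of the first generator -/
theorem cen_le (hM : H13.allL matOk Ms = true) {ks : List ℕ} {C : List ℕ} {st : List (ℕ × List ℕ × ℕ × ℕ)}
    (e : cbdOk Ms 1 (ks.map fun k => Ex.g 0 ^ k) C st [] = true) :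
    Nat.card (Subgroup.centralizer {genM Ms 0}) ≤ (st.map (·.2.2.2)).prod :=
  card_le_of_cbd (isM_genM hM) (fun k a l hl => by rw [Nat.lt_one_iff.1 hl]; exact Subgroup.mem_centralizer_singleton_iff.1 a)
    (fun k a => List.forall_mem_map.2 fun j _ => (Commute.pow_right (Subgroup.mem_centralizer_singleton_iff.1 a) j).eq)
    (fun _ _ => List.forall_mem_nil _) e

open H14.PK H14.LTS in
theorem ts_cl {n : ℕ} {X : List ℕ} (h : VecsOk 16 n X) (hM : H13.allL matOk Ms = true) {nets : List H13.Net} {C : List ℕ} {L : List (ℕ × ℕ)}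
    (e : band (sysOk 16 n X Ms nets) (band (ptOk n X L) (rankOk C ([] ++ L.map Prod.snd))) = true) :
    ∃ S : TS (clM Ms) 16 n, S.Base (L.map Prod.fst) ∧
      ∀ u, S.In ⊤ (H13.tabW 16 n nets u) ∧ (S.el (H13.tabW 16 n nets u) : Co0) = H13.evalW (genM Ms) u := by
  obtain ⟨e1, e2⟩ := (band_iff _ _).1 e
  have Y := sys_of_ok h hM e1
  obtain ⟨a, b⟩ := (band_iff _ _).1 e2
  have c := ptOk_spec h a
  obtain ⟨S, hS⟩ := exists_ts Y rfl (K := clM Ms)
    (fun g hg y hy => Y.smul_mem_set (clM_le (fun M hM' => by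
      obtain ⟨i, hi, rfl⟩ := List.getElem_of_mem hM'
      exact Subgroup.subset_closure ⟨i, by rw [genM, List.getD_eq_getElem _ _ (by rwa [List.length_map]), List.getElem_map]⟩) hg) hy)
    fun g _ hg => eq_one_of_fixes (List.forall_mem_map.2 fun x hx => ⟨_, (c x hx).2, hg _ (c x hx).1⟩) b
  refine ⟨S, base_of_rank h hS (us := []) (fun _ _ => List.forall_mem_nil _) e2, fun u => ?_⟩
  have d : _ = H13.tabW 16 n nets u := tb_tab Y hS (u := u) (H13.evalW_mem fun l _ => genM_mem mem_clM l)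
  exact ⟨⟨_, trivial, d⟩, congrArg Subtype.val ((congrArg S.el d.symm).trans (S.el_tb _))⟩

namespace XS
open H13 H14.PK H14.PK.TS H27.MG Subgroup
open scoped commutatorElement

variable {G H A : Type*} [Group G] [Group H] [Group A]

/-- the data of a large extraspecial subgroup -/
structure XD (t : H) (Q : Subgroup H) (k : ℕ) : Prop where
  aes : H04.AES 2 Q t
  cen : ∀ x ∈ Q, (∀ y ∈ Q, y * x = x * y) → x ∈ zpowers t
  nrm : Q.Normal
  act : ∃ a : H, ∃ y ∈ Q, ⁅a, y⁆ ∉ zpowers t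
  big : 2 ^ (k + 2) ≤ Nat.card Q

theorem type_of [Finite G] [IsSimpleGroup A] (hA : ¬ IsPGroup 2 A) {t : H} {Q : Subgroup H} {k : ℕ} (X : XD t Q k) (π : H →* G)
    (hr : π.range = centralizer {π t}) (hQ : ∀ x ∈ Q, π x = 1 → x = 1) (ψ : H →* A) (hs : ψ.range = ⊤) (k0 : IsPGroup 2 π.ker)
    (hc : Nat.card (centralizer {π t}) ≤ 2 ^ (k + 2) * Nat.card A) :
    orderOf (π t) = 2 ∧ ∃ (R : Subgroup (centralizer ({π t} : Set G))) (_ : R.Normal), generalizedFittingSubgroup (centralizer {π t}) = R ∧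
      IsExtraspecial 2 R ∧ Nat.card R = 2 ^ (k + 2) ∧ Nonempty (centralizer ({π t} : Set G) ⧸ R ≃* A) ∧
      ∀ x ∈ Q, ∃ h : π x ∈ centralizer {π t}, (⟨π x, h⟩ : centralizer ({π t} : Set G)) ∈ R := by
  have := X.nrm
  have k3 : ∀ N : Subgroup H, N.Normal → IsPGroup 2 N → N ≤ ψ.ker := fun N h1 h2 => (Subgroup.map_eq_bot_iff _).1
    ((h1.map ψ (MonoidHom.range_eq_top.1 hs)).eq_bot_or_eq_top.resolve_right fun c => hA (by
      have := h2.map ψ
      rw [c] at this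
      exact this.of_equiv topEquiv))
  have k1 := k3 _ inferInstance k0
  have k2 := k3 _ this X.aes.isPGroup
  let ρ : H →* centralizer ({π t} : Set G) := π.codRestrict _ fun x => hr.le ⟨x, rfl⟩
  have s : Function.Surjective ρ := fun ⟨x, hx⟩ => let ⟨y, e⟩ := hr.ge hx; ⟨y, Subtype.ext e⟩
  have i : ∀ x ∈ Q, ∀ y ∈ Q, ρ x = ρ y → x = y := fun x a y b e => eq_of_mul_inv_eq_one (hQ _ (mul_mem a (inv_mem b)) (by
    rw [map_mul, map_inv, show π x = π y from congrArg Subtype.val e, mul_inv_cancel]))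
  let e : Q ≃* Q.map ρ := MulEquiv.ofBijective (ρ.subgroupMap Q)
    ⟨fun x y c => Subtype.ext (i _ x.2 _ y.2 (congrArg Subtype.val c)), ρ.subgroupMap_surjective Q⟩
  let φ := ρ.liftOfSurjective s ⟨ψ, fun x hx => k1 (congrArg Subtype.val hx)⟩
  have hφ : ∀ x, φ (ρ x) = ψ x := fun x => ρ.liftOfRightInverse_comp_apply _ _ _ x
  have sφ : Function.Surjective φ := fun a => let ⟨x, b⟩ := hs.ge (mem_top a); ⟨_, (hφ x).trans b⟩
  have fA := Finite.of_surjective φ sφ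
  have fQ := Finite.of_equiv _ e.symm.toEquiv
  have n := X.nrm.map ρ s
  have c1 := φ.ker.card_mul_index
  rw [index_ker, MonoidHom.range_eq_top.2 sφ, card_top] at c1
  have l : Q.map ρ ≤ φ.ker := by rintro _ ⟨x, a, rfl⟩; exact (hφ x).trans (k2 a)
  have c2 : Nat.card φ.ker ≤ 2 ^ (k + 2) := Nat.le_of_mul_le_mul_right (c1.le.trans hc) Nat.card_pos
  have c3 := X.big.trans (Nat.card_congr e.toEquiv).le
  have kq := eq_of_le_of_card_ge l (c2.trans c3)
  have ex : IsExtraspecial 2 (Q.map ρ) := by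
    have h := X.aes.subgroup.map e.toMonoidHom e.injective
    rw [map_top_of_surjective e.toMonoidHom e.surjective] at h
    refine H04.isExtraspecial_of_aes_top h (fun x hx => ?_) fun hc => ?_
    · obtain ⟨x, rfl⟩ := e.surjective x
      obtain ⟨j, hj⟩ := X.cen x x.2 fun y hy => congrArg Subtype.val (e.injective (a₁ := ⟨y, hy⟩ * x) (a₂ := x * ⟨y, hy⟩) (by
        rw [map_mul, map_mul, mem_center_iff.1 hx]))
      exact ⟨j, by rw [show x = (⟨t, X.aes.mem⟩ : Q) ^ j from Subtype.ext hj.symm, map_zpow]; rfl⟩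
    · have : Finite (zpowers t) := Nat.finite_of_card_ne_zero (by rw [Nat.card_zpowers, X.aes.ord]; omega)
      have := X.big.trans (card_le_of_le fun x hx => X.cen x hx fun y hy => congrArg Subtype.val
        (e.injective (a₁ := ⟨y, hy⟩ * ⟨x, hx⟩) (a₂ := ⟨x, hx⟩ * ⟨y, hy⟩) (by rw [map_mul, map_mul, hc.is_comm.comm])))
      rw [Nat.card_zpowers, X.aes.ord, pow_succ, pow_succ] at this
      have := Nat.pos_of_ne_zero (pow_ne_zero k two_ne_zero)
      omega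
  have pc : pCore 2 (centralizer ({π t} : Set G)) = Q.map ρ := by
    refine le_antisymm (sSup_le fun N ⟨h1, h2⟩ => ?_) (le_sSup ⟨n, ex.1.1⟩)
    rw [kq, ← Subgroup.map_eq_bot_iff]
    refine (h1.map φ sφ).eq_bot_or_eq_top.resolve_right fun c => hA ?_
    have := h2.map φ
    rw [c] at this
    exact this.of_equiv topEquiv
  refine ⟨?_, Q.map ρ, n, ?_, ex, le_antisymm (kq ▸ c2) c3,
    ⟨(QuotientGroup.quotientMulEquivOfEq kq).trans (QuotientGroup.quotientKerEquivOfSurjective φ sφ)⟩, fun x hx => ⟨_, x, hx, rfl⟩⟩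
  · refine orderOf_eq_prime (by rw [← map_pow, ← X.aes.ord, pow_orderOf_eq_one, map_one]) fun c => ?_
    have := X.aes.ord
    rw [hQ t X.aes.mem c, orderOf_one] at this
    omega
  rw [← pc, H22.fstar_eq_pCore_iff, pc]
  refine le_trans ((Subgroup.map_eq_bot_iff _).1 ?_) kq.ge
  refine ((inferInstance : (centralizer (Q.map ρ : Set (centralizer ({π t} : Set G)))).Normal).map φ sφ).eq_bot_or_eq_top.resolve_right
    fun c => ?_
  obtain ⟨a, y, hy, b⟩ := X.act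
  obtain ⟨u, hu, d⟩ := c.ge (mem_top (φ (ρ a)))
  obtain ⟨v, hv, f⟩ : u⁻¹ * ρ a ∈ Q.map ρ := kq.ge (by rw [MonoidHom.mem_ker, map_mul, map_inv, d, inv_mul_cancel])
  refine b ((congrArg (· ∈ zpowers t) (i _ (zpowers_le.2 X.aes.mem (X.aes.comm _ hv _ hy)) _
    (mul_mem (this.conj_mem _ hy a) (inv_mem hy)) ?_)).mp (X.aes.comm _ hv _ hy))
  rw [map_commutatorElement, map_mul, map_mul, map_mul, map_inv, map_inv, show ρ a = u * ρ v by rw [f, mul_inv_cancel_left],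
    show u * ρ v * ρ y * (u * ρ v)⁻¹ = u * ρ (v * y * v⁻¹) * u⁻¹ by rw [map_mul, map_mul, map_inv]; group,
    ← hu _ ⟨_, this.conj_mem _ hy v, rfl⟩, mul_inv_cancel_right, map_mul, map_mul, map_inv, commutatorElement_def]

variable {w n : ℕ} {S : TS H w n} {bs Ts : List ℕ}

theorem xs_spec (hb : S.Base bs) (h : ∀ t ∈ Ts, S.In ⊤ t) {L : List (ℕ × List ℕ)} {as : List (ℕ × List (List ℕ))}
    (e : xsOk w n bs Ts L as = true) (hK : S.cl (as.map fun a => nd (idv w n) Ts a.1) = ⊤) {k : ℕ} (hk : L.length = k + 1) :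
    ∃ Q, XD (gn S Ts 0) Q k ∧ (∀ l ∈ L.map Prod.fst, gn S Ts l ∈ Q) ∧
      ∀ K : Subgroup H, (∀ l ∈ 0 :: L.map Prod.fst, gn S Ts l ∈ K) → Q ≤ K := by
  have := S.finite
  simp only [xsOk, band_eq_true, bor_eq_true, allL_iff, anyL_iff, bn_iff, eqP_iff hb h, evalW_cons, evalW_nil, evalW_append,
    mul_one, memL_iff] at e
  obtain ⟨⟨⟨e1, e2⟩, e3⟩, ⟨e4, e5⟩, a, a1, p, p1, e6, e7⟩ := e
  set g := gn S Ts
  set t := g 0
  have ht : orderOf t = 2 := orderOf_eq_prime (by rw [sq, e1]) e2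
  let L' := L.map fun p => (g p.1, evalW g p.2)
  have k : ∀ {x}, x ∈ L'.map Prod.fst ↔ ∃ p ∈ L, g p.1 = x := by simp [L']
  have c : ∀ x y : H, ⁅x, y⁆ ∈ zpowers t ↔ x * y = y * x ∨ x * y = t * (y * x) := fun x y => by
    rw [H15.mem_two ht, commutatorElement_eq_one_iff_mul_comm, commutatorElement_def, mul_inv_eq_iff_eq_mul,
      mul_inv_eq_iff_eq_mul, mul_assoc]
  have aes := aes_of_gens ht (s := {x | x ∈ L'.map Prod.fst}) (fun x hx => by obtain ⟨p, a, rfl⟩ := k.1 hx; exact (e3 p a).1.1)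
    (fun x hx y hy => by
      obtain ⟨p, a, rfl⟩ := k.1 hx
      obtain ⟨q, b, rfl⟩ := k.1 hy
      exact (c _ _).2 ((e3 p a).2.1 q b))
    fun x hx => by obtain ⟨p, a, rfl⟩ := k.1 hx; rw [H15.mem_two ht, sq]; exact (e3 p a).1.2
  set Q := closure (insert t {x | x ∈ L'.map Prod.fst}) with hQd
  have m : ∀ l ∈ 0 :: L.map Prod.fst, g l ∈ Q := List.forall_mem_cons.2 ⟨aes.mem, List.forall_mem_map.2 fun p hp =>
    subset_closure (Set.mem_insert_of_mem _ (k.2 ⟨p, hp, rfl⟩))⟩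
  have hQ : ∀ p ∈ L', p.1 ∈ Q ∧ p.2 ∈ Q := List.forall_mem_map.2 fun p hp =>
    ⟨m _ (List.mem_cons_of_mem _ (List.mem_map_of_mem hp)), evalW_mem fun l hl => m _ (List.mem_cons_of_mem _ ((e3 p hp).2.2 l hl))⟩
  obtain ⟨b1, b2⟩ := tri_spec aes (tri_of (g := g) (fun a u => by
    rw [eqP_iff hb h, evalW_cons, evalW_append, evalW_cons, evalW_nil, mul_one]; rfl) e4) hQ
  rw [List.length_map, hk] at b1
  have n1 : S.cl (as.map fun a => nd (idv w n) Ts a.1) ≤ normalizer (Q : Set H) :=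
    cl_le' (List.forall_mem_map.2 fun a ha => mem_normalizer_fintype fun x hx =>
      (closure_le (Q.comap (MulAut.conj (g a.1)).toMonoidHom)).2 (by
        rintro y (rfl | hy)
        · change g a.1 * t * (g a.1)⁻¹ ∈ Q
          rw [(e5 a ha).1, mul_inv_cancel_right]; exact aes.mem
        · obtain ⟨p, b, rfl⟩ := k.1 hy
          obtain ⟨u, -, c, d⟩ := (e5 a ha).2 p b
          change g a.1 * g p.1 * (g a.1)⁻¹ ∈ Q
          rw [c, mul_inv_cancel_right]; exact evalW_mem fun l hl => m l (d l hl)) hx)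
  refine ⟨Q, ⟨aes, fun x hx hc => b2 x hx fun p hp => (hc _ (hQ p hp).2).symm, normalizer_eq_top_iff.1 (top_le_iff.1 (hK ▸ n1)),
    ⟨g a.1, g p.1, m _ (List.mem_cons_of_mem _ (List.mem_map_of_mem p1)), by rw [c]; exact not_or.2 ⟨e6, e7⟩⟩, b1⟩,
    fun l hl => m l (List.mem_cons_of_mem _ hl), fun K hK => (closure_le K).2 ?_⟩
  rintro y (rfl | hy)
  · exact hK 0 List.mem_cons_self
  · obtain ⟨p, b, rfl⟩ := k.1 hy
    exact hK _ (List.mem_cons_of_mem _ (List.mem_map_of_mem b))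

theorem hom_top {v m N M : ℕ} {S' : TS A v m} {Us : List ℕ} {pr pr' : List (List ℕ)} {lv : List H14.RK.SL} {lw lw' : Ch}
    (hb : S.Base bs) (h : ∀ t ∈ Ts, S.In ⊤ t) (h' : ∀ t ∈ Us, S'.In ⊤ t) (hM : Nat.card A = M) (hN : Nat.card H ≤ N)
    (e : homB w n v m N M bs Ts Us lv pr pr' lw lw' = true) :
    S.cl ((H14.RK.gsOf lv).map (nd (idv w n) Ts)) = ⊤ ∧ Nat.card H = N ∧
      ∃ φ : H →* A, φ.range = ⊤ ∧ ∀ i ∈ H14.RK.gsOf lv, φ (gn S Ts i) = gn S' Us i := by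
  have := S.finite
  obtain ⟨a, φ, b, c⟩ := hom_ss hb h h' hM rfl e
  have d := eq_top_of_le_card _ (hN.trans a.ge)
  refine ⟨d, by rw [← a, d, card_top], φ.comp ((MonoidHom.id H).codRestrict _ fun x => d.ge (mem_top x)),
    eq_top_iff.2 fun x _ => ?_, fun i hi => c i hi _⟩
  obtain ⟨y, rfl⟩ := b.ge (mem_top x)
  exact ⟨y, rfl⟩

/-- the large extraspecial hypothesis -/
def XT {G : Type*} [Group G] (z : G) (k : ℕ) (A : Type*) [Group A] : Prop :=
  orderOf z = 2 ∧ ∃ (Q : Subgroup (centralizer ({z} : Set G))) (_ : Q.Normal), generalizedFittingSubgroup (centralizer ({z} : Set G)) = Q ∧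
    IsExtraspecial 2 Q ∧ Nat.card Q = 2 ^ k ∧ Nonempty (centralizer ({z} : Set G) ⧸ Q ≃* A) ∧
    ∃ g : G, (∃ hq : g * z * g⁻¹ ∈ centralizer ({z} : Set G), (⟨g * z * g⁻¹, hq⟩ : centralizer ({z} : Set G)) ∈ Q) ∧ g * z * g⁻¹ ≠ z

theorem xt_of [Finite G] [IsSimpleGroup A] {v m N M k : ℕ} {S' : TS A v m} {Ts' Us : List ℕ} {pr pr' : List (List ℕ)}
    {lv : List H14.RK.SL} {lw lw' : Ch} {L : List (ℕ × List ℕ)} {as : List (ℕ × List (List ℕ))} (hb : S.Base bs) (h : ∀ t ∈ Ts, S.In ⊤ t)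
    (h1 : ∀ t ∈ Ts', S.In ⊤ t) (h' : ∀ t ∈ Us, S'.In ⊤ t) (hM : Nat.card A = M) (h3 : 3 ∣ M) (hN : Nat.card H ≤ N)
    (e : homB w n v m N M bs Ts' Us lv pr pr' lw lw' = true) (e' : xsOk w n bs Ts L as = true)
    (e2 : (as.map fun a => nd (idv w n) Ts a.1) = (H14.RK.gsOf lv).map (nd (idv w n) Ts')) (hk : L.length = k + 1) (π : H →* G)
    (hr : π.range = centralizer {π (gn S Ts 0)}) (k0 : IsPGroup 2 π.ker) (hc : N = Nat.card π.ker * (2 ^ (k + 2) * M))
    (K : Subgroup H) (hK : ∀ l ∈ 0 :: L.map Prod.fst, gn S Ts l ∈ K) (hQ : ∀ x ∈ K, π x = 1 → x = 1) {l : ℕ} (hl : l ∈ L.map Prod.fst)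
    (c : IsConj (π (gn S Ts 0)) (π (gn S Ts l))) (d : gn S Ts l ≠ gn S Ts 0) : XT (π (gn S Ts 0)) (k + 2) A := by
  have := S.finite
  have := S'.finite
  obtain ⟨a1, a2, φ, a3, -⟩ := hom_top hb h1 h' hM hN e
  obtain ⟨Q, X, b1, b2⟩ := xs_spec hb h e' (e2 ▸ a1) hk
  have b3 := b2 K hK
  obtain ⟨c1, R, n, c2, c3, c4, c5, c6⟩ := type_of (fun p => by
    obtain ⟨j, hj⟩ := p.exists_card_eq
    exact absurd (Nat.prime_three.dvd_of_dvd_pow (m := 2) (n := j) (by rwa [← hj, hM])) (by norm_num)) X π hr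
    (fun x hx => hQ x (b3 hx)) φ a3 k0 (Nat.le_of_mul_le_mul_left (c := Nat.card π.ker) (by
      rw [← hr, ← index_ker, card_mul_index, a2, hM, hc]) Nat.card_pos)
  obtain ⟨g, hg⟩ := isConj_iff.1 c
  refine ⟨c1, R, n, c2, c3, c4, c5, g, ?_, fun f => d (eq_of_mul_inv_eq_one (hQ _ (b3 (mul_mem (b1 l hl) (inv_mem X.aes.mem))) ?_))⟩
  · simp only [hg]; exact c6 _ (b1 l hl)
  · rw [map_mul, map_inv, ← hg, f, mul_inv_cancel]

theorem xt_sub [IsSimpleGroup A] {v m M k : ℕ} {S' : TS A v m} {Ts' Us : List ℕ} {pr pr' : List (List ℕ)}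
    {lv : List H14.RK.SL} {lw lw' : Ch} {L : List (ℕ × List ℕ)} {as : List (ℕ × List (List ℕ))} (hb : S.Base bs)
    (h : ∀ t ∈ Ts, S.In (centralizer {gn S Ts 0}) t) (h1 : ∀ t ∈ Ts', S.In (centralizer {gn S Ts 0}) t) (h' : ∀ t ∈ Us, S'.In ⊤ t)
    (hM : Nat.card A = M) (h3 : 3 ∣ M) (hN : Nat.card (centralizer {gn S Ts 0}) ≤ 2 ^ (k + 2) * M)
    (e : homB w n v m (2 ^ (k + 2) * M) M bs Ts' Us lv pr pr' lw lw' = true) (e' : xsOk w n bs Ts L as = true)
    (e2 : (as.map fun a => nd (idv w n) Ts a.1) = (H14.RK.gsOf lv).map (nd (idv w n) Ts')) (hk : L.length = k + 1)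
    {l c : ℕ} (hl : l ∈ L.map Prod.fst) (hc : S.In ⊤ c)
    (d : band (Nat.beq (tm w n c (nd (idv w n) Ts 0)) (tm w n (nd (idv w n) Ts l) c))
      (bn (Nat.beq (nd (idv w n) Ts l) (nd (idv w n) Ts 0))) = true) : XT (gn S Ts 0) (k + 2) A := by
  have := S.finite
  have a : ∀ l, S.In (centralizer {gn S Ts 0}) (nd (idv w n) Ts l) := nd_prop In.one h
  have b : ∀ l, (centralizer {gn S Ts 0}).subtype (gn (S.sub _) Ts l) = gn S Ts l := fun l => (a l).coe_el
  obtain ⟨d1, d2⟩ := band_eq_true.1 d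
  have := xt_of (hb.sub _) (fun t ht => (h t ht).sub) (fun t ht => (h1 t ht).sub) h' hM h3 hN e e' e2 hk (Subgroup.subtype _)
    (by rw [b, range_subtype]) (by rw [ker_subtype]; exact IsPGroup.of_bot) (by rw [ker_subtype, card_bot, one_mul]) ⊤ (fun _ _ => trivial)
    (fun x _ hx => Subtype.ext hx) hl (by rw [b, b]; exact isConj_iff.2 ⟨_, hc.conj_eq (a 0) (a l) d1⟩)
    fun f => bn_iff.1 d2 (Nat.beq_eq ▸ ((a l).sub.eq_iff (a 0).sub).1 f)
  rwa [b] at this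

end XS

end H14
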