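import Mathlib
import Cfsg.Agent.H14.McL
import Cfsg.Agent.H14.HS

/-!
Transport of the standard configurations to arbitrary vectors: `H14.conj_smul_eq`, `ncard_of_iff`, `conf275`, `conf100`, `conf2025`,
`conf11178` (with a prescribed point: `conf275'` ...), `stab_GM`, `stab_GH`, `equiv_GM`, `equiv_GH`, `orbit_transport`.
-/

namespace H14

open Finset Cfsg MulAction
open scoped Pointwise

theorem conj_smul_eq {G α : Type*} [Group G] [MulAction G α] {g k : G} {y y' : α} (h : k • g • y = g • y') :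
    (g⁻¹ * k * g) • y = y' := by
  rw [mul_smul, mul_smul, h, inv_smul_smul]

theorem ncard_of_iff {G α : Type*} [Group G] [MulAction G α] (g : G) {S T : Set α} (h : ∀ x, x ∈ S ↔ g • x ∈ T) :
    S.ncard = T.ncard := by
  rw [← Set.ncard_smul_set g⁻¹ T]
  congr 1; ext x
  rw [h, Set.mem_smul_set_iff_inv_smul_mem, inv_inv]

theorem orbit_transport {G α : Type*} [Group G] [MulAction G α] {H K : Subgroup G} (g : G)
    (h : ∀ k, k ∈ H ↔ g * k * g⁻¹ ∈ K) (y z : α) : z ∈ orbit H (g⁻¹ • y) ↔ g • z ∈ orbit K y := by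
  rw [orbit_conj (K := K) g⁻¹ (by simpa using h), Set.mem_smul_set_iff_inv_smul_mem, inv_inv]

theorem mem_stab_of_smul {G α : Type*} [Group G] [MulAction G α] {g : G} {x a : α} (h : g • x = a) (k : G) :
    k ∈ stabilizer G x ↔ g * k * g⁻¹ ∈ stabilizer G a := by
  subst h; rw [mem_stab_smul]; simp [mul_assoc]

theorem dot_of_smul {g : Co0} {u a : leechLattice} (h : g • u = a) (x : leechLattice) :
    dotInt (u : V) x = dotInt (a : V) (g • x : leechLattice) := by rw [← h, co_dot]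

theorem stab_GM : stabilizer Co0 (-Spor.leechU) ⊓ stabilizer Co0 (Spor.leechV + Spor.leechU) = GM := by
  ext g
  simp only [stab_neg, Subgroup.mem_inf, mem_stabilizer_iff, smul_add]
  exact ⟨fun ⟨a, b⟩ => ⟨by simpa [a] using b, a⟩, fun ⟨a, b⟩ => ⟨b, by rw [a, b]⟩⟩

theorem stab_GH : stabilizer Co0 Spor.leechV ⊓ stabilizer Co0 (-(Spor.leechV + Spor.leechU')) = GH := by
  ext g
  simp only [stab_neg, Subgroup.mem_inf, mem_stabilizer_iff, smul_add]
  exact ⟨fun ⟨a, b⟩ => ⟨a, by simpa [a] using b⟩, fun ⟨a, b⟩ => ⟨a, by rw [a, b]⟩⟩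

theorem equiv_GM {v w : leechLattice} (hv : sqNorm (v : V) = 32) (hw : sqNorm (w : V) = 32) (h : dotInt (v : V) w = -8) :
    Nonempty (↥(stabilizer Co0 v ⊓ stabilizer Co0 w) ≃* GM) := by
  obtain ⟨g, e1, e2⟩ := pair8_to hv hw h
  rw [← stab_GM, ← e2, ← e1]
  exact (stab2_equiv g v w).map MulEquiv.symm

theorem equiv_GH {v w : leechLattice} (hv : sqNorm (v : V) = 48) (hw : sqNorm (w : V) = 48) (h : dotInt (v : V) w = -32) :
    Nonempty (↥(stabilizer Co0 v ⊓ stabilizer Co0 w) ≃* GH) := by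
  obtain ⟨g, e1, e2⟩ := pair32_to hv hw h
  rw [← stab_GH, ← e2, ← e1]
  exact (stab2_equiv g v w).map MulEquiv.symm

theorem conf275 {u v : leechLattice} (hu : sqNorm (u : V) = 48) (hv : sqNorm (v : V) = 32 ∧ sqNorm ((u - v) : V) = 32) :
    ∃ g : Co0, g • u = Spor.leechV ∧ g • v = -Spor.leechU ∧ ∀ x : leechLattice,
      (sqNorm (x : V) = 32 ∧ sqNorm ((u - x) : V) = 32 ∧ dotInt (v : V) x = 16) ↔ g • x ∈ O275 := by
  obtain ⟨g, e1, e2⟩ := pair24_to hu hv.1 (by have := hv.2; rw [sqNorm_sub] at this; omega)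
  refine ⟨g, e1, e2, fun x => ?_⟩
  rw [O275, Set.mem_ofPred_eq, co_norm, sqNorm_sub, dot_of_smul e1, dot_of_smul e2, AddSubgroup.coe_neg, neg_dotInt]
  omega

theorem conf275' {u v x : leechLattice} (hu : sqNorm (u : V) = 48) (hv : sqNorm (v : V) = 32 ∧ sqNorm ((u - v) : V) = 32)
    (hx : sqNorm (x : V) = 32 ∧ sqNorm ((u - x) : V) = 32 ∧ dotInt (v : V) x = 16) :
    ∃ g : Co0, g • u = Spor.leechV ∧ g • v = -Spor.leechU ∧ g • x = x275 ∧ ∀ x : leechLattice,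
      (sqNorm (x : V) = 32 ∧ sqNorm ((u - x) : V) = 32 ∧ dotInt (v : V) x = 16) ↔ g • x ∈ O275 := by
  obtain ⟨g, e1, e2, h⟩ := conf275 hu hv
  obtain ⟨k, hk, e⟩ := trans275 _ ((h x).1 hx) _ x275_mem
  refine ⟨k * g, by rw [mul_smul, e1, hk.1], by rw [mul_smul, e2, smul_neg, hk.2], by rw [mul_smul, e], fun y => ?_⟩
  rw [h, mul_smul]
  exact ⟨inv275 k hk _, fun a => by simpa using inv275 _ (GM.inv_mem hk) _ a⟩

theorem conf100 {v w : leechLattice} (hv : sqNorm (v : V) = 48) (hw : sqNorm (w : V) = 48) (h : dotInt (v : V) w = -32) :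
    ∃ g : Co0, g • v = Spor.leechV ∧ g • w = -(Spor.leechV + Spor.leechU') ∧ ∀ x : leechLattice,
      (sqNorm (x : V) = 32 ∧ dotInt (v : V) x = 24 ∧ dotInt (w : V) x = -24) ↔ g • x ∈ O100 := by
  obtain ⟨g, e1, e2⟩ := pair32_to hv hw h
  refine ⟨g, e1, e2, fun x => ?_⟩
  rw [O100, Set.mem_ofPred_eq, co_norm, dot_of_smul e1, dot_of_smul e2, AddSubgroup.coe_neg, neg_dotInt,
    AddSubgroup.coe_add, add_dotInt]
  omega

theorem GH_fix {k : Co0} (hk : k ∈ GH) : k • -(Spor.leechV + Spor.leechU') = -(Spor.leechV + Spor.leechU') := by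
  rw [smul_neg, smul_add, hk.1, hk.2]

theorem GM_fix {k : Co0} (hk : k ∈ GM) : k • (Spor.leechV + Spor.leechU) = Spor.leechV + Spor.leechU := by
  rw [smul_add, hk.1, hk.2]

theorem conf100' {v w x : leechLattice} (hv : sqNorm (v : V) = 48) (hw : sqNorm (w : V) = 48) (h : dotInt (v : V) w = -32)
    (hx : sqNorm (x : V) = 32 ∧ dotInt (v : V) x = 24 ∧ dotInt (w : V) x = -24) :
    ∃ g : Co0, g • v = Spor.leechV ∧ g • w = -(Spor.leechV + Spor.leechU') ∧ g • x = x100 ∧ ∀ x : leechLattice,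
      (sqNorm (x : V) = 32 ∧ dotInt (v : V) x = 24 ∧ dotInt (w : V) x = -24) ↔ g • x ∈ O100 := by
  obtain ⟨g, e1, e2, h⟩ := conf100 hv hw h
  obtain ⟨k, hk, e⟩ := trans100 _ ((h x).1 hx) _ x100_mem
  refine ⟨k * g, by rw [mul_smul, e1, hk.1], by rw [mul_smul, e2, GH_fix hk], by rw [mul_smul, e], fun y => ?_⟩
  rw [h, mul_smul]
  exact ⟨inv100 k hk _, fun a => by simpa using inv100 _ (GH.inv_mem hk) _ a⟩

theorem conf2025 {v w : leechLattice} (hv : sqNorm (v : V) = 32) (hw : sqNorm (w : V) = 32) (h : dotInt (v : V) w = -8) :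
    ∃ g : Co0, g • v = -Spor.leechU ∧ g • w = Spor.leechV + Spor.leechU ∧ ∀ x : leechLattice,
      (sqNorm (x : V) = 32 ∧ dotInt (v : V) x = 0 ∧ dotInt (w : V) x = 16) ↔ g • x ∈ O2025 := by
  obtain ⟨g, e1, e2⟩ := pair8_to hv hw h
  refine ⟨g, e1, e2, fun x => ?_⟩
  rw [O2025, Set.mem_ofPred_eq, co_norm, dot_of_smul e1, dot_of_smul e2, AddSubgroup.coe_neg, neg_dotInt,
    AddSubgroup.coe_add, add_dotInt]
  omega

theorem conf2025' {v w x : leechLattice} (hv : sqNorm (v : V) = 32) (hw : sqNorm (w : V) = 32) (h : dotInt (v : V) w = -8)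
    (hx : sqNorm (x : V) = 32 ∧ dotInt (v : V) x = 0 ∧ dotInt (w : V) x = 16) :
    ∃ g : Co0, g • v = -Spor.leechU ∧ g • w = Spor.leechV + Spor.leechU ∧ g • x = x2025 ∧ ∀ x : leechLattice,
      (sqNorm (x : V) = 32 ∧ dotInt (v : V) x = 0 ∧ dotInt (w : V) x = 16) ↔ g • x ∈ O2025 := by
  obtain ⟨g, e1, e2, h⟩ := conf2025 hv hw h
  obtain ⟨k, hk, e⟩ := trans2025 _ ((h x).1 hx) _ x2025_mem
  refine ⟨k * g, by rw [mul_smul, e1, smul_neg, hk.2], by rw [mul_smul, e2, GM_fix hk], by rw [mul_smul, e], fun y => ?_⟩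
  rw [h, mul_smul]
  exact ⟨inv2025 k hk _, fun a => by simpa using inv2025 _ (GM.inv_mem hk) _ a⟩

theorem conf11178 {u : leechLattice} (hu : sqNorm (u : V) = 48) : ∃ g : Co0, g • u = Spor.leechV ∧ ∀ x : leechLattice,
    (sqNorm (x : V) = 32 ∧ dotInt (u : V) x = -16) ↔ g • x ∈ O11178 := by
  obtain ⟨g, e⟩ := t3_to_V u hu
  exact ⟨g, e, fun x => by rw [O11178, Set.mem_ofPred_eq, co_norm, dot_of_smul e]⟩

theorem conf11178' {u x : leechLattice} (hu : sqNorm (u : V) = 48) (hx : sqNorm (x : V) = 32 ∧ dotInt (u : V) x = -16) :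
    ∃ g : Co0, g • u = Spor.leechV ∧ g • x = Spor.leechU' ∧ ∀ x : leechLattice,
      (sqNorm (x : V) = 32 ∧ dotInt (u : V) x = -16) ↔ g • x ∈ O11178 := by
  obtain ⟨g, e, e2⟩ := pair16_to hu hx.1 hx.2
  exact ⟨g, e, e2, fun x => by rw [O11178, Set.mem_ofPred_eq, co_norm, dot_of_smul e]⟩

/-- an orbit described by an inner product, transported -/
theorem exists_orbit_card {H K : Subgroup Co0} {g : Co0} (h : ∀ k, k ∈ H ↔ g * k * g⁻¹ ∈ K) {x : leechLattice}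
    (hx : K ≤ stabilizer Co0 x) {Ω : Set leechLattice} (hinv : ∀ g ∈ K, ∀ y ∈ Ω, g • y ∈ Ω)
    (ht : ∀ y ∈ Ω, ∀ z ∈ Ω, dotInt (x : V) y = dotInt (x : V) z → ∃ g ∈ K, g • y = z) {d : ℤ} {c : ℕ}
    (hc : {y | y ∈ Ω ∧ dotInt (x : V) y = d}.ncard = c) (h0 : 0 < c) :
    ∃ y : leechLattice, g • y ∈ Ω ∧ (orbit H y).ncard = c ∧
      ∀ z, z ∈ orbit H y ↔ g • z ∈ Ω ∧ dotInt (x : V) (g • z : leechLattice) = d := by
  obtain ⟨y, hy, hd⟩ := Set.nonempty_of_ncard_ne_zero (hc ▸ h0.ne')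
  have key : ∀ z, z ∈ orbit H (g⁻¹ • y) ↔ g • z ∈ {y | y ∈ Ω ∧ dotInt (x : V) y = d} := fun z => by
    rw [orbit_transport g h, orbit_eq_dot hx hinv ht hy, hd]
  exact ⟨g⁻¹ • y, by rwa [smul_inv_smul], (ncard_of_iff g key).trans hc, key⟩

end H14
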