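import Cfsg.Agent.H03.FT2

/-!
# Groups of large Fischer type: orders of `N(A) ∩ C(z)` and `N(A) ∩ C(z) ∩ C(t)` (namespace `H14.FzC`): `cz`, `cN`, `ct`, `c19`
-/

set_option autoImplicit false
set_option linter.unusedSectionVars false
open Cfsg BG Subgroup H01.XS H01.XF
open H01.XT hiding Hy QS

namespace H14.FzC
universe u

theorem fx {α : Type*} [Finite α] (S : Set α) (f : α → α) (p : ℕ) [Fact p.Prime] (hf : ∀ x ∈ S, f x ∈ S)
    (hp : ∀ x ∈ S, f^[p] x = x) {o : α} (ho : o ∈ S) (h0 : f o = o) (h1 : ∀ x ∈ S, f x = x → x = o) :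
    Nat.card S % p = 1 % p := by
  classical
  have := Fintype.ofFinite S
  have m : Set.MapsTo f S S := hf
  let F : Function.End S := m.restrict f S S
  have e : F ^ p ^ 1 = 1 := funext fun x => Subtype.ext (by
    rw [pow_one]
    exact (m.coe_iterate_restrict x p).trans (hp _ x.2))
  have a := Equiv.Perm.card_fixedPoints_modEq e
  rw [Fintype.card_eq_one_iff.2 ⟨(⟨⟨o, ho⟩, Subtype.ext h0⟩ : Function.fixedPoints F), fun y =>
    Subtype.ext (Subtype.ext (h1 _ y.1.2 (congrArg Subtype.val y.2)))⟩] at a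
  rw [Nat.card_eq_fintype_card]; exact a

variable {G : Type u} [Group G] [Finite G] {z g t : G} {Q : Subgroup G}
  {V : Type u} [AddCommGroup V] [Module (ZMod 2) V] [Finite V] {Γ : Type u} [Group Γ] [Finite Γ]
  {T : Γ → V →+ V} {d x y : Γ} {M X S Y : Subgroup Γ} {β : V →+ V →+ ZMod 2} {q : V → ZMod 2} {a : V} {R B L : AddSubgroup V}
  {ν : G → V} {f : C_[z] →* Γ} {π : G → Γ}

theorem no7 (h : Hy T d M X β q a R) (i : x ∈ X) (j : x ∈ M) (y7 : y ^ 7 = 1) (y1 : y ≠ 1) (c : x * y = y * x) : x = 1 := by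
  have : Fact (Nat.Prime 7) := ⟨by norm_num⟩
  have : Fact (Nat.Prime 3) := ⟨by norm_num⟩
  have yM : y ∈ M := by
    have := pow_mem (sq_mem_of_index_two h.Mi y) 4
    rwa [← pow_mul, show 2 * 4 = 7 + 1 from rfl, pow_succ, y7, one_mul] at this
  have hY : ∀ v, T y (T y (T y (T y (T y (T y (T y v)))))) = v := fun v => by
    simp only [← h.mul]
    rw [show y * (y * (y * (y * (y * (y * y))))) = y ^ 7 by simp [pow_succ, mul_assoc], y7, h.one]
  obtain ⟨u, n⟩ := not_forall.1 (mt (h.fai y) y1)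
  have fp := fun v => (h.fpf h.ω3 hY (fun v => (h.cω yM v).symm) (h.qT _) (h.qT _) (h.hf u) n v).2
  let W : Set V := {w | ∃ v, v + T x v = w}
  have W0 : (0 : V) ∈ W := ⟨0, by simp⟩
  have a7 := fx W (T y) 7 (by
    rintro _ ⟨v, rfl⟩
    exact ⟨T y v, by rw [map_add, ← h.mul, ← h.mul, c]⟩) (fun v _ => hY v) W0 (map_zero _) fun v _ => fp v
  have a3 := fx W (T d) 3 (by
    rintro _ ⟨v, rfl⟩
    exact ⟨T d v, by rw [map_add, h.cω j]⟩) (fun v _ => h.ω3 v) W0 (map_zero _) fun v _ e => by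
      have := h.hf v
      rw [e, e] at this; exact lc this
  let φ : V → ZMod 2 × ZMod 2 := fun v => (β a v, β a (T d v))
  have key : ∀ v w, φ v = φ w → v + T x v + (w + T x w) ∈ H01.XF.NN (T d) a := fun v w e => by
    have e1 : β a (v + w) = 0 := by rw [map_add, show β a v = β a w from (Prod.ext_iff.1 e).1]; exact CharTwo.add_self_eq_zero _
    have e2 : β a (T d (v + w)) = 0 := by 
      rw [map_add, map_add, show β a (T d v) = β a (T d w) from (Prod.ext_iff.1 e).2]; exact CharTwo.add_self_eq_zero _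
    have := h.main.2.2.2 _ (h.Xp x i _ e1) (by rw [map_add, ← h.cω j]; exact h.Xp x i _ e2)
    convert this using 1
    rw [map_add]; abel
  have c16 : Nat.card W ≤ 16 := by
    have a2 : Nat.card (H01.XF.NN (T d) a) ≤ _ := card_ex_le (U := ex ⊥ a) (v := T d a)
    have a1 := card_ex_le (U := (⊥ : AddSubgroup V)) (v := a)
    rw [AddSubgroup.card_bot] at a1
    have hv : ∀ w : W, ∃ v, v + T x v = w := fun w => w.2
    choose v hv using hv
    have := Nat.card_le_card_of_injective (fun w : W => ((φ (v w), ⟨_, key _ _ (Function.invFun_eq ⟨v w, rfl⟩).symm⟩) :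
      (ZMod 2 × ZMod 2) × H01.XF.NN (T d) a)) fun w w' e => by
        have e1 := (Prod.ext_iff.1 e).1
        have e2 := congrArg Subtype.val (Prod.ext_iff.1 e).2
        simp only at e1 e2
        rw [e1, hv, hv] at e2
        exact Subtype.ext (add_right_cancel e2)
    rw [Nat.card_prod, Nat.card_prod, Nat.card_zmod] at this
    omega
  have c1 : Nat.card W = 1 := by omega
  have := (Nat.card_eq_one_iff_unique.1 c1).1
  exact h.fai x fun v => lc (congrArg Subtype.val (Subsingleton.elim (⟨_, v, rfl⟩ : W) ⟨0, W0⟩))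

theorem kf (s : Br z Q f π ν T d M β q) : f.ker = Q.subgroupOf C_[z] := Subgroup.ext fun x => by
  rw [MonoidHom.mem_ker, s.pf, s.ker _ x.2, mem_subgroupOf]

theorem cz (s : Br z Q f π ν T d M β q) : Nat.card C_[z] = 2 ^ 21 * 3 ^ 7 * 5 * 7 := by
  have fs : Function.Surjective f := fun k => by
    obtain ⟨x, j, e⟩ := s.sur k
    exact ⟨⟨x, j⟩, (s.pf _).trans e⟩
  have := f.ker.card_mul_index
  rw [index_ker, MonoidHom.range_eq_top.2 fs, card_top, s.gm.cΓ, kf s,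
    Nat.card_congr (subgroupOfEquivOfLe s.md.lx.le).toEquiv, s.card] at this
  omega

theorem cN (s : Br z Q f π ν T d M β q) (i0 : g * z * g⁻¹ ∈ Q) (n0 : g * z * g⁻¹ ≠ z)
    (k : Pk T d M β q (ν (g * z * g⁻¹)) (s.md.push (cj g Q)) S L B Y)
    (oc : ∀ x ∈ M, ∀ y ∈ M, x * x = 1 → y * y = 1 → x ≠ 1 → y ≠ 1 → ∃ g, g * x * g⁻¹ = y) :
    Nat.card (N_(C_(s.md.pull B)) ⊓ centralizer {z} : Subgroup G) ∣ 2 ^ 21 * 3 ^ 7 * 5 := by
  have : Fact (Nat.Prime 7) := ⟨by norm_num⟩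
  have h := s.pt g i0 n0
  obtain ⟨-, -, -, e4⟩ := H20.XhE.ea s (H03.FT.pp s i0 n0) ((card_cj _ _).trans s.card) k
  refine Nat.Coprime.dvd_of_dvd_mul_right (Nat.Coprime.symm ((Nat.Prime.coprime_iff_not_dvd this.out).2 fun o => ?_))
    (cz s ▸ card_dvd_of_le inf_le_right)
  obtain ⟨⟨y, yy⟩, o7⟩ := exists_prime_orderOf_dvd_card' 7 o
  rw [orderOf_mk] at o7
  obtain ⟨yN, yz⟩ := mem_inf.1 yy
  obtain ⟨c, hc⟩ : ∃ c, c = f ⟨y, yz⟩ := ⟨_, rfl⟩
  have c7 : c ^ 7 = 1 := by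
    rw [hc, ← map_pow, show (⟨y, yz⟩ : C_[z]) ^ 7 = 1 from Subtype.ext (o7 ▸ pow_orderOf_eq_one y), map_one]
  have c1 : c ≠ 1 := fun e => by
    have := Subgroup.orderOf_dvd_natCard Q ((s.ker y yz).1 ((s.pf ⟨y, yz⟩).symm.trans (hc ▸ e)))
    rw [o7, s.card] at this
    omega
  have it : ∀ n u, (fun u => c * u * c⁻¹)^[n] u = c ^ n * u * (c ^ n)⁻¹ := fun n u => by
    induction n with
    | zero => simp
    | succ n ih => rw [Function.iterate_succ_apply', ih, pow_succ']; group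
  obtain ⟨u, uY, uc, u1⟩ : ∃ u ∈ Y, c * u * c⁻¹ = u ∧ u ≠ 1 := by
    by_contra! n
    have := fx (Y : Set Γ) (fun u => c * u * c⁻¹) 7 (fun u m => by
      obtain ⟨w, wA, rfl⟩ := e4.ge m
      exact e4.le ⟨⟨y, yz⟩ * w * ⟨y, yz⟩⁻¹, (mem_normalizer_iff.1 yN w.1).1 wA, by rw [map_mul, map_mul, map_inv, hc]⟩)
      (fun u _ => by rw [it, c7]; simp) (one_mem Y) (by simp) n
    rw [SetLike.coe_sort_coe, k.cY] at this
    omega
  obtain ⟨x0, a1, a2, a3⟩ := h.ex2 {1} (by simp)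
  have x1 : x0 ≠ 1 := by simpa using a3
  obtain ⟨r, er⟩ := oc u (k.YM uY) x0 a2 (k.Y2 _ uY) (h.X2 _ a1) u1 x1
  refine x1 (no7 (y := r * c * r⁻¹) h a1 a2 (by rw [conj_pow, c7]; simp) (by simpa using c1) ?_)
  rw [← er, conj_mul, conj_mul, mul_inv_eq_iff_eq_mul.1 uc]

theorem ct (s : Br z Q f π ν T d M β q) (i0 : g * z * g⁻¹ ∈ Q) (n0 : g * z * g⁻¹ ≠ z) (tQ : t ∈ Q) (t2 : t * t = 1)
    (t1 : t ≠ 1) (tz : ¬ IsConj z t) : Nat.card (C_[z] ⊓ C_[t] : Subgroup G) = 2 ^ 19 * 405 := by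
  have h := s.pt g i0 n0
  have l := s.md.lx
  have n : ν t ≠ 0 := fun e => ((s.md.ker t tQ).1 e).elim t1 fun e => tz (e ▸ IsConj.refl _)
  have cS := (h.cards n ((s.sq t tQ).2 t2) (by
    rintro ⟨γ, e⟩
    obtain ⟨c, cz, rfl⟩ := s.sur γ
    obtain ⟨k, -, ek, -⟩ := s.adj cz i0 tQ t2 n e
    exact tz (isConj_iff.2 ⟨k * g, by rw [← ek]; group⟩))).1
  have e1 : (C_[t].subgroupOf C_[z]).map f = h.S (ν t) := le_antisymm (by
    rintro _ ⟨c, m, rfl⟩
    show T (f c) (ν t) = ν t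
    rw [s.pf, s.act _ c.2 t tQ, show c.1 * t = t * c.1 from mem_cent1.1 m, mul_inv_cancel_right]) fun γ m => by
      obtain ⟨c, cz, rfl⟩ := s.sur γ
      obtain ⟨k, kz, ek, e⟩ := s.adj cz tQ tQ t2 n m
      exact ⟨⟨k, kz⟩, mem_cent1.2 (mul_inv_eq_iff_eq_mul.1 ek), (s.pf _).trans e⟩
  have e2 : Nat.card (C_[t] ⊓ Q : Subgroup G) * 2 = 8192 := by
    obtain ⟨e, eQ, ne⟩ : ∃ e ∈ Q, e * t ≠ t * e := by
      by_contra! o
      exact n ((s.md.ker t tQ).2 (l.cz o))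
    have := card_inf_mul_relIndex C_[t] Q
    rw [s.card] at this
    rw [← this]
    congr 1
    refine (relIndex_eq_two_iff.2 ⟨e, eQ, fun b bQ => ?_⟩).symm
    rw [mem_cent1, mem_cent1]
    have ez := (l.cm eQ tQ).resolve_left ne
    rcases l.cm bQ tQ with o | o
    · refine .inr ⟨o, fun o' => ne ?_⟩
      rw [← mul_assoc, ← o, mul_assoc, mul_assoc] at o'
      exact mul_left_cancel o'
    · refine .inl ⟨?_, fun o' => l.z1 ?_⟩
      · calc _ = b * z * t * e := by rw [mul_assoc, ez]; group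
          _ = z * (b * t) * e := by rw [mem_cent1.1 (l.le bQ)]; group
          _ = _ := by rw [o, ← mul_assoc z, ← mul_assoc z, l.zz]; group
      · rw [o', mul_assoc] at o
        exact (right_eq_mul.1 o)
  have e3 := card_inf_mul_relIndex f.ker (C_[t].subgroupOf C_[z])
  have e4 : ∀ K : Subgroup G, Nat.card (K.subgroupOf C_[z]) = Nat.card (C_[z] ⊓ K : Subgroup G) := fun K => by
    rw [← inf_subgroupOf_left]; exact Nat.card_congr (subgroupOfEquivOfLe inf_le_left).toEquiv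
  rw [relIndex_ker, e1, cS, kf s, e4, show Q.subgroupOf C_[z] ⊓ C_[t].subgroupOf C_[z] = (C_[t] ⊓ Q).subgroupOf C_[z] from
    Subgroup.ext fun _ => and_comm, Nat.card_congr (subgroupOfEquivOfLe (inf_le_right.trans l.le)).toEquiv] at e3
  omega

theorem c19 (s : Br z Q f π ν T d M β q) (i0 : g * z * g⁻¹ ∈ Q) (n0 : g * z * g⁻¹ ≠ z)
    (k : Pk T d M β q (ν (g * z * g⁻¹)) (s.md.push (cj g Q)) S L B Y)
    (SY : ∀ X : Subgroup G, C_(s.md.pull B) ≤ X → 2 ^ 19 ∣ Nat.card X → 2 ^ 19 ∣ Nat.card (N_(C_(s.md.pull B)) ⊓ X : Subgroup G)) :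
    ∀ t ∈ {t | t ∈ C_(s.md.pull B) ∧ t ≠ 1 ∧ ¬ IsConj z t}, t ∈ s.md.pull B →
      2 ^ 19 ∣ Nat.card (N_(C_(s.md.pull B)) ⊓ centralizer {z} ⊓ centralizer {t} : Subgroup G) ∧
      ¬ 2 ^ 20 ∣ Nat.card (N_(C_(s.md.pull B)) ⊓ centralizer {z} ⊓ centralizer {t} : Subgroup G) := by
  rintro t ⟨-, t1, tz⟩ tB
  have c := ct s i0 n0 tB.1 ((s.sq t tB.1).1 (k.qB _ tB.2)) t1 tz
  have zB : z ∈ s.md.pull B := ⟨s.md.lx.aes.mem, s.md.zz ▸ B.zero_mem⟩
  rw [inf_assoc]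
  refine ⟨SY _ (le_inf (fun x o => cent_le_cent1 zB o) fun x o => cent_le_cent1 tB o) (c ▸ Dvd.intro _ rfl), fun o => ?_⟩
  have := o.trans (card_dvd_of_le inf_le_right)
  rw [c] at this
  omega

end H14.FzC
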