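import Mathlib
import Cfsg.Prelude.Def_SporadicCombinatorics
import Cfsg.Agent.H14.Sharp

/-! Monomial automorphisms of a linear code: `H14.MV`, `H14.MP`, `H14.card_MV`; sharpness from an order count. -/

namespace H14

open Cfsg MulAction

section

variable {α F : Type*} [Field F] {C : Submodule F (α → F)} {σ τ : Equiv.Perm α} {c d : α → Fˣ}

variable (C) in
/-- monomial maps preserving `C` -/
def MV (σ : Equiv.Perm α) (c : α → Fˣ) : Prop := ∀ x ∈ C, monomialMap σ c x ∈ C

theorem mm_mul (x : α → F) :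
    monomialMap σ c (monomialMap τ d x) = monomialMap (σ * τ) (fun i => c i * d (σ.symm i)) x := by
  funext i; simp [monomialMap, mul_assoc, Equiv.Perm.mul_def]

theorem mm_inv (x : α → F) : monomialMap σ⁻¹ (fun i => (c (σ i))⁻¹) (monomialMap σ c x) = x := by
  funext i; simp [monomialMap, Equiv.Perm.inv_def]

theorem MV.mul (h : MV C σ c) (h' : MV C τ d) : MV C (σ * τ) fun i => c i * d (σ.symm i) :=
  fun x hx => mm_mul (F := F) x ▸ h _ (h' x hx)

theorem MV.smul (h : MV C σ c) (u : Fˣ) : MV C σ fun i => u * c i := fun x hx => by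
  convert C.smul_mem (u : F) (h x hx) using 1
  funext i; simp [monomialMap, mul_assoc]

theorem MV.of_span {s : Set (α → F)} (e : C = Submodule.span F s) (h : ∀ x ∈ s, monomialMap σ c x ∈ C) : MV C σ c := by
  intro x hx
  rw [e] at hx
  induction hx using Submodule.span_induction with
  | mem x hx => exact h x hx
  | zero => convert C.zero_mem using 1; funext i; simp [monomialMap]
  | add x y _ _ a b => convert C.add_mem a b using 1; funext i; simp [monomialMap, mul_add]
  | smul r x _ a => convert C.smul_mem r a using 1; funext i; simp [monomialMap, mul_left_comm]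

variable [Finite α] [Finite F]

theorem MV.inv (h : MV C σ c) : MV C σ⁻¹ fun i => (c (σ i))⁻¹ := fun y hy => by
  obtain ⟨x, e⟩ := (Finite.injective_iff_surjective (f := fun x : C => (⟨_, h x x.2⟩ : C))).1
    (fun x y e => Subtype.ext (by rw [← mm_inv (σ := σ) (c := c) x.1, Subtype.mk.inj e, mm_inv])) ⟨y, hy⟩
  rw [← Subtype.mk.inj e, mm_inv]; exact x.2

variable (C) in
/-- the permutation parts -/
def MP : Subgroup (Equiv.Perm α) where
  carrier := {σ | ∃ c, MV C σ c}
  mul_mem' := fun ⟨_, a⟩ ⟨_, b⟩ => ⟨_, a.mul b⟩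
  one_mem' := ⟨1, fun x hx => by convert hx using 1; funext i; exact one_mul _⟩
  inv_mem' := fun ⟨_, a⟩ => ⟨_, a.inv⟩

theorem card_MV (p : α) (h : ∀ c, MV C 1 c → ∀ i j, c i = c j) :
    Nat.card {f : Equiv.Perm α × (α → Fˣ) // MV C f.1 f.2} = Nat.card (MP C) * Nat.card Fˣ := by
  rw [← Nat.card_prod]
  refine Nat.card_congr (Equiv.ofBijective (fun f => (⟨f.1.1, _, f.2⟩, f.1.2 p)) ⟨?_, ?_⟩)
  · rintro ⟨⟨σ, c⟩, a⟩ ⟨⟨τ, d⟩, b⟩ e
    obtain ⟨e1, e2⟩ := Prod.ext_iff.1 e
    obtain rfl : σ = τ := Subtype.ext_iff.1 e1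
    have k := a.mul b.inv
    rw [mul_inv_cancel] at k
    refine Subtype.ext (Prod.ext rfl (funext fun i => ?_))
    have := h _ k i p
    simp only [Equiv.apply_symm_apply] at this e2
    rwa [e2, mul_inv_cancel, mul_inv_eq_one] at this
  · rintro ⟨⟨σ, c, a⟩, u⟩
    exact ⟨⟨(σ, _), a.smul (u * (c p)⁻¹)⟩, Prod.ext rfl (by simp)⟩

end

theorem sharp_of_card {G α : Type*} [Group G] [MulAction G α] [Fintype α] {k : ℕ} (x : Fin k ↪ α) (h : stabilizer G x = ⊥)
    (e : Nat.card G = (Fintype.card α).descFactorial k) : Sharp G α k := by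
  classical
  have b : Function.Bijective fun g : G => g • x := by
    refine (Nat.bijective_iff_injective_and_card _).2 ⟨fun g g' c => ?_, by simp [e]⟩
    have : g'⁻¹ * g ∈ stabilizer G x := by rw [mem_stabilizer_iff, mul_smul, show g • x = g' • x from c, inv_smul_smul]
    rwa [h, Subgroup.mem_bot, inv_mul_eq_one, eq_comm] at this
  refine ⟨⟨fun y z => ?_⟩, fun y => ?_⟩
  · obtain ⟨g, rfl⟩ := b.2 y
    obtain ⟨g', rfl⟩ := b.2 z
    exact ⟨g' * g⁻¹, by simp [mul_smul]⟩
  · obtain ⟨g, rfl⟩ := b.2 y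
    rw [stabilizer_smul_eq_stabilizer_map_conj, h, Subgroup.map_bot]

end H14
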