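import Mathlib
import Cfsg.Agent.H14.Mono
import Cfsg.Agent.H14.PK4

/-! The hexacode: transfer to the concrete field `H14.PK.F4`. -/

namespace H14.Hexa

open Cfsg Finset PK PK.F4

/-- the word with given information symbols -/
def wd (a : F4 × F4 × F4) : Fin 6 → F4 :=
  ![a.1, a.2.1, a.2.2, a.1 + a.2.1 + a.2.2, v * a.1 + w * a.2.1 + a.2.2, w * a.1 + v * a.2.1 + a.2.2]

/-- the parity checks -/
def Q (y : Fin 6 → F4) : Prop := y 3 = y 0 + y 1 + y 2 ∧ y 4 = v * y 0 + w * y 1 + y 2 ∧ y 5 = w * y 0 + v * y 1 + y 2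

instance (y : Fin 6 → F4) : Decidable (Q y) := by unfold Q; infer_instance

theorem Q_iff {y : Fin 6 → F4} : Q y ↔ ∃ a, y = wd a := by
  refine ⟨fun h => ⟨(y 0, y 1, y 2), funext fun i => ?_⟩, by rintro ⟨a, rfl⟩; exact ⟨rfl, rfl, rfl⟩⟩
  fin_cases i
  exacts [rfl, rfl, rfl, h.1, h.2.1, h.2.2]

theorem wd_inj : Function.Injective wd := fun _ _ e => Prod.ext (congrFun e 0) (Prod.ext (congrFun e 1) (congrFun e 2))

variable {F : Type*} [Field F] {ω : F}

theorem exists_e [Fintype F] (hF : Fintype.card F = 4) (hω : ω ^ 2 + ω + 1 = 0) : ∃ e : F4 ≃+* F, e w = ω ∧ e v = ω ^ 2 := by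
  have h2 : (2 : F) = 0 := by
    have : (2 : F) ^ 2 = 0 := by have := FiniteField.cast_card_eq_zero F; rw [hF] at this; rw [← this]; norm_num
    exact pow_eq_zero_iff two_ne_zero |>.1 this
  let f : F4 → F := fun x => match x with | o => 0 | i => 1 | w => ω | v => ω ^ 2
  let g : F4 →+* F :=
    { toFun := f
      map_one' := rfl
      map_zero' := rfl
      map_mul' := fun x y => by
        cases x <;> cases y
        · change (0 : F) = 0 * 0; grind
        · change (0 : F) = 0 * 1; grind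
        · change (0 : F) = 0 * ω; grind
        · change (0 : F) = 0 * ω ^ 2; grind
        · change (0 : F) = 1 * 0; grind
        · change (1 : F) = 1 * 1; grind
        · change (ω : F) = 1 * ω; grind
        · change (ω ^ 2 : F) = 1 * ω ^ 2; grind
        · change (0 : F) = ω * 0; grind
        · change (ω : F) = ω * 1; grind
        · change (ω ^ 2 : F) = ω * ω; grind
        · change (1 : F) = ω * ω ^ 2; grind
        · change (0 : F) = ω ^ 2 * 0; grind
        · change (ω ^ 2 : F) = ω ^ 2 * 1; grind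
        · change (1 : F) = ω ^ 2 * ω; grind
        · change (ω : F) = ω ^ 2 * ω ^ 2; grind
      map_add' := fun x y => by
        cases x <;> cases y
        · change (0 : F) = 0 + 0; grind
        · change (1 : F) = 0 + 1; grind
        · change (ω : F) = 0 + ω; grind
        · change (ω ^ 2 : F) = 0 + ω ^ 2; grind
        · change (1 : F) = 1 + 0; grind
        · change (0 : F) = 1 + 1; grind
        · change (ω ^ 2 : F) = 1 + ω; grind
        · change (ω : F) = 1 + ω ^ 2; grind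
        · change (ω : F) = ω + 0; grind
        · change (ω ^ 2 : F) = ω + 1; grind
        · change (0 : F) = ω + ω; grind
        · change (1 : F) = ω + ω ^ 2; grind
        · change (ω ^ 2 : F) = ω ^ 2 + 0; grind
        · change (ω : F) = ω ^ 2 + 1; grind
        · change (1 : F) = ω ^ 2 + ω; grind
        · change (0 : F) = ω ^ 2 + ω ^ 2; grind }
  exact ⟨RingEquiv.ofBijective g ((Fintype.bijective_iff_injective_and_card _).2 ⟨g.injective, hF.symm⟩), rfl, rfl⟩

variable {e : F4 ≃+* F} (he : e w = ω ∧ e v = ω ^ 2)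
include he

theorem mem_e {y : Fin 6 → F4} : e ∘ y ∈ hexacode F ω ↔ Q y := by
  have k : ∀ a b c, e a • ![ω, ω ^ 2, ω ^ 2, ω, ω ^ 2, ω] + e b • ![ω ^ 2, ω, ω, ω ^ 2, ω ^ 2, ω] +
      e c • ![ω ^ 2, ω, ω ^ 2, ω, ω, ω ^ 2] = e ∘ fun i => a * ![w, v, v, w, v, w] i + b * ![v, w, w, v, v, w] i +
      c * ![v, w, v, w, w, v] i := fun a b c => by
    funext i; fin_cases i <;> simp [he.1, he.2]
  rw [hexacode, Submodule.mem_span_triple]
  constructor
  · rintro ⟨a, b, c, h⟩
    obtain ⟨a, rfl⟩ := e.surjective a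
    obtain ⟨b, rfl⟩ := e.surjective b
    obtain ⟨c, rfl⟩ := e.surjective c
    rw [← e.injective.comp_left ((k a b c).symm.trans h)]
    clear h; revert a b c; decide +kernel
  · intro h
    obtain ⟨t, rfl⟩ := Q_iff.1 h
    obtain ⟨a, b, c, h⟩ := (by decide +kernel : ∀ t, ∃ a b c, ∀ i, a * ![w, v, v, w, v, w] i + b * ![v, w, w, v, v, w] i +
      c * ![v, w, v, w, w, v] i = wd t i) t
    exact ⟨_, _, _, (k a b c).trans (congrArg _ (funext h))⟩

theorem mem_iff {x : Fin 6 → F} : x ∈ hexacode F ω ↔ ∃ a, x = e ∘ wd a := by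
  obtain ⟨y, rfl⟩ := e.surjective.comp_left x
  simp only [mem_e he, Q_iff, e.injective.comp_left.eq_iff]

theorem ncard_eq [DecidableEq F] (k : ℕ) :
    {x | x ∈ hexacode F ω ∧ #{i | x i ≠ 0} = k}.ncard = #{a | #{i | wd a i ≠ 0} = k} := by
  rw [← Set.ncard_coe_finset, ← Set.ncard_image_of_injective _ (e.injective.comp_left.comp wd_inj)]
  congr 1; ext x
  simp only [mem_iff he, Set.mem_ofPred_eq, coe_filter, mem_univ, true_and, Set.mem_image]
  exact ⟨by rintro ⟨⟨a, rfl⟩, h⟩; exact ⟨a, by simpa using h, rfl⟩, by rintro ⟨a, h, rfl⟩; exact ⟨⟨a, rfl⟩, by simpa using h⟩⟩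

theorem MV_iff {σ : Equiv.Perm (Fin 6)} {c : Fin 6 → Fˣ} :
    MV (hexacode F ω) σ c ↔ ∀ a, Q fun i => e.symm (c i) * wd a (σ.symm i) := by
  have k : ∀ a, monomialMap σ c (e ∘ wd a) = e ∘ fun i => e.symm (c i) * wd a (σ.symm i) := fun a => by
    funext i; simp [monomialMap]
  refine ⟨fun h a => (mem_e he).1 (k a ▸ h _ ((mem_iff he).2 ⟨a, rfl⟩)), fun h x hx => ?_⟩
  obtain ⟨a, rfl⟩ := (mem_iff he).1 hx
  exact k a ▸ (mem_e he).2 (h a)

theorem MV_dec {σ : Equiv.Perm (Fin 6)} {c : Fin 6 → Fˣ} (h : MV (hexacode F ω) σ c) {P : (Fin 6 → F4) → Prop}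
    (k : ∀ d0 d1 d2 d3 d4 d5 : F4, d0 ≠ 0 → d1 ≠ 0 → d2 ≠ 0 → d3 ≠ 0 → d4 ≠ 0 → d5 ≠ 0 →
      (∀ a ∈ [(i, o, o), (o, i, o), (o, o, i)], Q fun j => ![d0, d1, d2, d3, d4, d5] j * wd a (σ.symm j)) →
      P ![d0, d1, d2, d3, d4, d5]) : P fun j => e.symm (c j) := by
  have n : ∀ j, e.symm (c j) ≠ 0 := fun j => by simp
  have q : (fun j => e.symm (c j)) = ![e.symm (c 0), e.symm (c 1), e.symm (c 2), e.symm (c 3), e.symm (c 4), e.symm (c 5)] := by
    funext j; fin_cases j <;> rfl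
  rw [q]
  exact k _ _ _ _ _ _ (n _) (n _) (n _) (n _) (n _) (n _) fun a _ => q ▸ (MV_iff he).1 h a

theorem diag (c : Fin 6 → Fˣ) (h : MV (hexacode F ω) 1 c) (i j : Fin 6) : c i = c j :=
  have := MV_dec he h (P := fun d => ∀ i, d i = d 0) (by decide +kernel)
  Units.ext (e.symm.injective ((this i).trans (this j).symm))

theorem mem_MP [Finite F] {σ : Equiv.Perm (Fin 6)} (d : Fin 6 → F4) (h : (∀ j, d j ≠ 0) ∧ ∀ a, Q fun j => d j * wd a (σ.symm j)) :
    σ ∈ MP (hexacode F ω) :=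
  ⟨fun j => Units.mk0 (e (d j)) (by simpa using h.1 j), (MV_iff he).2 (by simpa using h.2)⟩

omit he in
theorem gen6 : PK.genOk 3 6 [nat_lit 0x2c611, nat_lit 0xd8d0]
  [[], [1, 2, 1], [0, 3], [4, 4, 1, 1], [0, 1], [0, 0], [3, 2], [8, 5], [9, 0], [9, 9], [11, 0], [12, 0], [13, 0]]
  [(0, [nat_lit 0x2c688, nat_lit 0x2c611, nat_lit 0x2c642, nat_lit 0xd883, nat_lit 0x11ac4, nat_lit 0x1a305]),
  (1, [nat_lit 0x2c688, nat_lit 0xd8d0, nat_lit 0x15858, nat_lit 0x19aa0, nat_lit 0x222e8]),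
  (3, [nat_lit 0x2c688, nat_lit 0x1ab08, nat_lit 0x1c548, nat_lit 0x2a8c8]),
  (2, [nat_lit 0x2c688, nat_lit 0x15708, nat_lit 0x22748])] 360 = true := by decide +kernel

omit he in
theorem card_alt : Nat.card (alternatingGroup (Fin 6)) = 360 := by
  rw [nat_card_alternatingGroup, Nat.card_fin]; rfl

theorem MP_eq [Finite F] : MP (hexacode F ω) = alternatingGroup (Fin 6) := by
  have a : alternatingGroup (Fin 6) ≤ MP (hexacode F ω) := by
    rw [← TS.cl_eq (S := permTS 3 6 (by norm_num)) card_alt ?_ gen6]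
    · refine TS.cl_le ?_
      simp only [List.forall_mem_cons]
      exact ⟨⟨c[0, 1, 2], mem_MP he ![i, i, i, i, v, w] (by decide +kernel), permTS_tb (by norm_num) (by decide +kernel)⟩,
        ⟨c[1, 2, 3, 4, 5], mem_MP he ![i, v, w, v, i, w] (by decide +kernel), permTS_tb (by norm_num) (by decide +kernel)⟩, by simp⟩
    · simp only [List.forall_mem_cons]
      exact ⟨⟨c[0, 1, 2], Equiv.Perm.mem_alternatingGroup.2 (by decide +kernel), permTS_tb (by norm_num) (by decide +kernel)⟩,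
        ⟨c[1, 2, 3, 4, 5], Equiv.Perm.mem_alternatingGroup.2 (by decide +kernel), permTS_tb (by norm_num) (by decide +kernel)⟩, by simp⟩
  refine le_antisymm (fun σ h => by_contra fun n => ?_) a
  have : σ⁻¹ * Equiv.swap 0 1 ∈ alternatingGroup (Fin 6) := by
    rw [Equiv.Perm.mem_alternatingGroup] at n ⊢
    simp [(Int.units_eq_one_or _).resolve_left n]
  obtain ⟨c, k⟩ := mul_mem h (a this)
  rw [mul_inv_cancel_left] at k
  exact MV_dec he k (P := fun _ => False) (by decide +kernel)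

end H14.Hexa
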