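import Cfsg.Agent.H23.K0
import Cfsg.Agent.H26.JE
import Cfsg.Agent.H01.XS5

/-! Part F of S5567 (namespace `H14.KF`). -/

set_option autoImplicit false
open Cfsg BG Subgroup H01.XS Cfsg.Agent.H06.J Cfsg.Agent.H23.K H26.JE

namespace H14.KF
universe u

theorem f : FStmt.{u} := by
  intro G _ _ z Q V _ _ _ Γ _ _ f π ν T d M β q s K Y B A δ cx c2 hS _
  have m := s.md
  have lx := m.lx
  have ea : H20.FtW.EA A := cx.A2
  have BA : ∀ x ∈ Q, ν x ∈ B → x ∈ A := fun x i j => (c2.e3.ge (show x ∈ s.md.pull B from ⟨i, j⟩)).1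
  have zA : z ∈ A := BA z lx.aes.mem (s.md.zz ▸ B.zero_mem)
  have p1 : ∀ x ∈ Q, π x = 1 := fun x i => (s.ker x (lx.le i)).2 i
  have hG : pResidual 2 G = ⊤ := by
    have : Fact (Nat.Prime 3) := ⟨by norm_num⟩
    have δ1 : δ ≠ 1 := fun e => by
      have : ∀ v : V, v = 0 := fun v => by
        have := s.gm.hf v
        rwa [← cx.δd, e, p1 1 (one_mem _), s.gm.one, s.gm.one, m.two, zero_add] at this
      have : Subsingleton V := ⟨fun a b => (this a).trans (this b).symm⟩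
      have := (Nat.card_of_subsingleton (0 : V)).symm.trans s.gm.card
      omega
    rcases (inferInstance : (normalClosure ({δ} : Set G)).Normal).eq_bot_or_eq_top with e | e
    · exact absurd (mem_bot.1 (e.le (subset_normalClosure rfl))) δ1
    · refine eq_top_iff.2 (e.ge.trans (closure_mono fun x i => ?_))
      obtain ⟨_, e', k⟩ := Group.mem_conjugatesOfSet_iff.1 i
      rw [Set.mem_singleton_iff.1 e'] at k
      obtain ⟨r, rfl⟩ := isConj_iff.1 k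
      show Nat.Coprime (orderOf _) 2
      rw [show r * δ * r⁻¹ = MulAut.conj r δ from rfl, MulEquiv.orderOf_eq, orderOf_eq_prime cx.δ3 δ1]
      norm_num
  have fs : Function.Surjective f := fun k => by
    obtain ⟨x, j, e⟩ := s.sur k
    exact ⟨⟨x, j⟩, (s.pf _).trans e⟩
  obtain ⟨g, xQ, xz⟩ := lx.fused (K := (M.comap f).map C_[z].subtype) hG (by rw [s.card]; omega) (map_subtype_le _)
    (by rw [relIndex, subgroupOf, comap_map_eq_self_of_injective (subtype_injective _), index_comap_of_surjective _ fs, s.gm.Mi])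
    fun x i => ⟨⟨x, lx.le i⟩, show f _ ∈ M by rw [s.pf, p1 x i]; exact one_mem _, rfl⟩
  by_contra! n
  have wc : ∀ t ∈ A, IsConj z t → t = z := fun t i j => by
    obtain ⟨k, rfl⟩ := isConj_iff.1 j
    obtain ⟨r, a, b⟩ := H20.FtW.fus cx.u ea cx.cA zA i
    exact b.symm.trans (n r a)
  have cc : ∀ x k : G, IsConj x (k * x * k⁻¹) := fun x k => isConj_iff.2 ⟨k, rfl⟩
  have key : ∀ t ∈ C_[z], t * t = 1 → π t ∈ M → IsConj z (t * z) → t = 1 ∨ IsConj z t := fun t tz t2 tM j => by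
    obtain ⟨γ, -, o⟩ := cx.hk.oc _ tM (by rw [← mul s t tz t tz, t2, p1 1 (one_mem _)])
    obtain ⟨k, kz, rfl⟩ := s.sur γ
    have tz' := mul_mem (mul_mem kz tz) (inv_mem kz)
    rw [← inv s k kz, ← mul s k kz t tz, ← mul s _ (mul_mem kz tz) _ (inv_mem kz)] at o
    have j' : IsConj z (k * t * k⁻¹ * z) := j.trans (isConj_iff.2 ⟨k, by rw [← conj_mul, mem_cent1.1 kz, mul_inv_cancel_right]⟩)
    have c0 := cc t k
    have c1 : k * t * k⁻¹ = 1 → t = 1 := conj_eq_one_iff.1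
    generalize k * t * k⁻¹ = r at *
    by_cases c : r ∈ C_(s.md.pull B)
    · exact .inl (c1 (mul_eq_right.1 (wc _ (mul_mem (cx.mA r tz' o c) zA) j')))
    · obtain ⟨b, c⟩ := not_forall.1 (mt mem_cent.2 c)
      obtain ⟨bB, c⟩ := Classical.not_imp.1 c
      have e := (s.act r tz' b bB.1).symm.trans ((cx.pj.mB _).1 bB.2 _ o)
      have e := (m.eq (lx.cE tz' bB.1) bB.1 e).resolve_left fun e => c (mul_inv_eq_iff_eq_mul.1 e).symm
      refine .inr ((j'.trans (isConj_iff.2 ⟨b, ?_⟩)).trans c0.symm)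
      calc _ = (z * b) * r * b⁻¹ := by rw [mem_cent1.1 tz', ← mul_assoc b, mem_cent1.1 (lx.le bB.1)]
        _ = _ := by rw [← e]; group
  obtain ⟨x, hx⟩ : ∃ x, x = g * z * g⁻¹ := ⟨_, rfl⟩
  have zx : z = g⁻¹ * x * g := by rw [hx]; group
  have x2 : x * x = 1 := by rw [hx, conj_mul, lx.zz]; group
  have cx0 : IsConj z x := hx ▸ cc z g
  rw [← hx] at xQ xz
  have vB : ν x ∉ B := fun o => xz (wc x (BA x xQ o) cx0)
  have xN : x ∈ N_(A) := (c2.mN x (lx.le xQ)).2 fun v i => by rwa [p1 x xQ, s.gm.one]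
  have xa : ∀ a ∈ A, x * a * x⁻¹ ∈ A := fun a i => (mem_normalizer_iff.1 xN a).1 i
  have wA : ∀ a ∈ A, a * (x * a * x⁻¹) ∈ A := fun a i => mul_mem i (xa a i)
  have wx : ∀ a ∈ A, a * (x * a * x⁻¹) * x = a * x * a⁻¹ := fun a i => by
    rw [inv_eq_of_mul_eq_one_right (ea a i)]; group
  have wz : ∀ a ∈ A, g⁻¹ * (a * (x * a * x⁻¹)) * g ∈ C_[z] := fun a i => mem_cent1.2 (by
    have : a * (x * a * x⁻¹) * x = x * (a * (x * a * x⁻¹)) := by
      calc _ = (x * x) * a * x * a := by rw [x2]; group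
        _ = (x * x) * a * x⁻¹ * a := by rw [inv_eq_of_mul_eq_one_right x2]
        _ = x * (x * a * x⁻¹ * a) := by group
        _ = _ := by rw [ea.comm i (xa a i)]
    calc _ = g⁻¹ * (a * (x * a * x⁻¹) * x) * g := by rw [zx]; group
      _ = _ := by rw [this, zx]; group)
  have fin : ∀ a ∈ A, π (g⁻¹ * (a * (x * a * x⁻¹)) * g) ∈ M → T (π a) (ν x) = ν x := fun a i o => by
    have w : a * (x * a * x⁻¹) = 1 ∨ a * (x * a * x⁻¹) = z := by
      have sq : ∀ w : G, g⁻¹ * w * g * (g⁻¹ * w * g) = g⁻¹ * (w * w) * g := fun w => by group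
      refine (key _ (wz a i) (by rw [sq, ea _ (wA a i)]; group) o
        ((cx0.trans (cc x a)).trans (isConj_iff.2 ⟨g⁻¹, by rw [← wx a i, zx]; group⟩))).imp
        (fun e => ?_) fun e => wc _ (wA a i) (e.trans (isConj_iff.2 ⟨g, by group⟩))
      exact conj_eq_one_iff.1 (show g⁻¹ * _ * g⁻¹⁻¹ = 1 by rwa [inv_inv])
    rw [s.act a (cx.Az i) x xQ, ← wx a i]
    rcases w with w | w <;> rw [w]
    · rw [one_mul]
    · exact m.zm xQ
  obtain ⟨y0, h0⟩ : ∃ y0, ∀ y ∈ Y, T y (ν x) = ν x → y = 1 ∨ y = y0 := by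
    by_cases c : ∃ y ∈ Y, y ≠ 1 ∧ T y (ν x) = ν x
    · obtain ⟨y0, a1, a2, a3⟩ := c
      exact ⟨y0, fun y i e => by_contra fun k => vB (cx.pi.two y i y0 a1 (fun e => k (.inl e)) a2 (fun e => k (.inr e)) _ e a3)⟩
    · exact ⟨1, fun y i e => .inl (by_contra fun k => c ⟨y, i, k, e⟩)⟩
  obtain ⟨y, yY, b1, b2, -⟩ := ex4 cx.hk.hx.cY 1 y0 1 1
  obtain ⟨y', yY', b3, b4, b5, b6⟩ := ex4 cx.hk.hx.cY 1 y0 y⁻¹ (y⁻¹ * y0)
  obtain ⟨a, aA, -, rfl⟩ := c2.YA y yY
  obtain ⟨a', aA', -, rfl⟩ := c2.YA y' yY'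
  have k1 := mt (fin a aA) fun e => (h0 _ yY e).elim b1 b2
  have k2 := mt (fin a' aA') fun e => (h0 _ yY' e).elim b3 b4
  refine mt (fin _ (mul_mem aA aA')) (fun e => ?_) ?_
  · rw [mul s _ (cx.Az aA) _ (cx.Az aA')] at e
    exact (h0 _ (mul_mem yY yY') e).elim (fun e => b5 (eq_inv_of_mul_eq_one_right e)) fun e => b6 (eq_inv_mul_of_mul_eq e)
  · have : g⁻¹ * (a * a' * (x * (a * a') * x⁻¹)) * g = g⁻¹ * (a * (x * a * x⁻¹)) * g * (g⁻¹ * (a' * (x * a' * x⁻¹)) * g) := by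
      calc _ = g⁻¹ * (a * (a' * (x * a * x⁻¹)) * (x * a' * x⁻¹)) * g := by group
        _ = _ := by rw [ea.comm aA' (xa a aA)]; group
    rw [this, mul s _ (wz a aA) _ (wz a' aA')]
    exact (mul_mem_iff_of_index_two s.gm.Mi).2 (iff_of_false k1 k2)

end H14.KF
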