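import Cfsg.Agent.H23.K0

/-! Part J2 of S5567 (namespace `H14.KJ2`). -/

set_option autoImplicit false
open Cfsg BG Subgroup H01.XS Cfsg.Agent.H06.J Cfsg.Agent.H23.K

namespace H14.KJ2
universe u

theorem j2 : J2Stmt.{u} := by
  intro G _ _ z Q V _ _ _ Γ _ _ f π ν T d M β q s K Y B A δ cx c2 hc l lz lN ld _ l2 ⟨a, aA, la⟩
  have m := s.md
  have lx := m.lx
  have ea : H20.FtW.EA A := cx.A2
  have zA : z ∈ A := (c2.e3.ge (show z ∈ s.md.pull B from ⟨lx.aes.mem, s.md.zz ▸ B.zero_mem⟩)).1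
  have δN : δ ∈ N_(A) := (c2.mN δ cx.δz).2 fun v i => cx.δd ▸ cx.pj.Bω v i
  have cj : ∀ g ∈ N_(A), ∀ x ∈ A, g * x * g⁻¹ ∈ A := fun g i x j => (mem_normalizer_iff.1 i x).1 j
  have ld' : l * δ⁻¹ * l⁻¹ = δ := by rw [← conj_inv, ld, inv_inv]
  have lQ : l * l ∈ Q := (s.ker _ (mul_mem lz lz)).1 (by
    rw [← l2, ← s.pf ⟨l, lz⟩, ← map_mul]; exact (s.pf (⟨l, lz⟩ * ⟨l, lz⟩)).symm)
  have c1 : δ * (l * l) * δ⁻¹ = l * l := by
    have : l * l * δ * (l * l)⁻¹ = δ := by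
      rw [show l * l * δ * (l * l)⁻¹ = l * (l * δ * l⁻¹) * l⁻¹ by group, ld, ld']
    calc _ = (l * l * δ * (l * l)⁻¹) * (l * l) * δ⁻¹ := by rw [this]
      _ = _ := by group
  have n0 : ν (l * l) = 0 := by
    have a1 := s.act δ cx.δz _ lQ
    rw [c1, cx.δd] at a1
    have := s.gm.hf (ν (l * l))
    rwa [a1, a1, m.two, zero_add] at this
  refine ((m.ker _ lQ).1 n0).resolve_right fun e => ?_
  have δz : δ * z = z * δ := mem_cent1.1 cx.δz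
  have d2 : δ * δ = δ⁻¹ := eq_inv_of_mul_eq_one_left (by rw [← cx.δ3, pow_three, mul_assoc])
  have e0 : l * a * l⁻¹ = a * z := by
    have h1 : l * a * l⁻¹ * (z * a) = 1 := by rw [← e, ← la]; group
    have h2 : a * z * (z * a) = 1 := by rw [mul_assoc, ← mul_assoc z, lx.zz, one_mul, ea a aA]
    exact mul_right_cancel (h1.trans h2.symm)
  have m1 := cj δ δN a aA
  have m2 := cj _ (inv_mem δN) a aA
  have e1 : l * (δ * a * δ⁻¹) * l⁻¹ = δ⁻¹ * a * δ⁻¹⁻¹ * z := by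
    calc _ = (l * δ * l⁻¹) * (l * a * l⁻¹) * (l * δ⁻¹ * l⁻¹) := by group
      _ = δ⁻¹ * a * (z * δ) := by rw [ld, ld', e0]; group
      _ = _ := by rw [← δz]; group
  have e2 : l * (δ⁻¹ * a * δ⁻¹⁻¹) * l⁻¹ = δ * a * δ⁻¹ * z := by
    calc _ = (l * δ⁻¹ * l⁻¹) * (l * a * l⁻¹) * (l * δ * l⁻¹) := by group
      _ = δ * a * δ⁻¹ * (δ * z) * δ⁻¹ := by rw [ld, ld', e0]; group
      _ = _ := by rw [δz]; group
  have e3 : δ * (δ * a * δ⁻¹) * δ⁻¹ = δ⁻¹ * a * δ⁻¹⁻¹ := by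
    calc _ = (δ * δ) * a * (δ * δ)⁻¹ := by group
      _ = _ := by rw [d2]
  have e4 : δ * (δ⁻¹ * a * δ⁻¹⁻¹) * δ⁻¹ = a := by group
  generalize δ⁻¹ * a * δ⁻¹⁻¹ = a2 at *
  have e5 : δ * a * δ⁻¹ = δ * a * δ⁻¹ := rfl
  generalize h : δ * a * δ⁻¹ = a1 at m1 e1 e2 e3
  refine hc (a * a1 * a2) (mul_mem (mul_mem aA m1) m2) (mem_cent1.2 (mul_inv_eq_iff_eq_mul.1 ?_).symm) l lN ?_
  · rw [← conj_mul, ← conj_mul, h, e3, e4, ea.comm (mul_mem m1 m2) aA, mul_assoc]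
  · rw [← conj_mul, ← conj_mul, e0, e1, e2]
    calc _ = a * (z * a2) * (z * a1) * z := by group
      _ = a * (a2 * z) * (z * a1) * z := by rw [ea.comm zA m2]
      _ = a * (a2 * (z * z) * a1) * z := by group
      _ = _ := by rw [lx.zz, mul_one, ea.comm m2 m1]; group

end H14.KJ2
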