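import Mathlib
import Cfsg.Agent.H14.RK2
import Cfsg.Agent.H13.Words

/-! Central covers of a simple group given by a presentation (`tlE`, `ccov_pres`). -/

namespace H14.RK

open H13 H14.PK Cfsg

/-- relators with tails -/
noncomputable def tlE (a z : ℕ) (rs : List (List ℕ)) : List ℕ → RL :=
  List.rec (fun _ => []) (fun r _ ih ts => List.rec ((shW a r, []) :: ih [])
    (fun t ts _ => (shW a r, H15.pw [z] t) :: ih ts) ts) rs

theorem Rel.tlE {G : Type*} [Group G] {g : ℕ → G} {a z : ℕ} {rs : List (List ℕ)} {ts : List ℕ} (h : Rel g (tlE a z rs ts)) :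
    ∀ r ∈ rs, ∃ t : ℕ, evalW (fun i => g (a + i)) r = g z ^ t := by
  induction rs generalizing ts with
  | nil => simp
  | cons r rs ih =>
    obtain _ | ⟨t, ts⟩ := ts
    · exact List.forall_mem_cons.2 ⟨⟨0, (evalW_shW a r).symm.trans ((h _ List.mem_cons_self).trans (by simp))⟩,
        ih fun e he => h e (List.mem_cons_of_mem _ he)⟩
    · exact List.forall_mem_cons.2 ⟨⟨t, (evalW_shW a r).symm.trans ((h _ List.mem_cons_self).trans (by simp [H15.evalW_pw]))⟩,
        ih fun e he => h e (List.mem_cons_of_mem _ he)⟩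

theorem ccov_pres {H K : Type} [Group H] [Group K] [Finite H] [IsSimpleGroup K] {g : ℕ → H} {L : List ℕ} {a z m n x y : ℕ}
    (hg : ∀ i, g i ∈ cl g L) (hz : Rel g (H15.mapR (fun i => ([i, z], [z, i])) L)) (ho : orderOf (g z) = m) {gen : ℕ → K}
    {rs : List (List ℕ)} {ts : List ℕ}
    (hp : ∀ (Q : Type) [Group Q] (q : ℕ → Q), Rels q rs → (∀ l, n ≤ l → q l = 1) → ∃ ψ : K →* Q, ∀ l, ψ (gen l) = q l)
    (h1 : ∀ l, n ≤ l → g (a + l) = 1) (R : Rel g (tlE a z rs ts))
    (hs : ∀ i ∈ L, ∃ u t, evalW g (shW a u) = evalW g (i :: H15.pw [z] t)) (hne : g x * g y ≠ g y * g x) :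
    ∃ σ : cl g L →* K, CCov σ (res _ g z) m := by
  have c : ∀ i, (res (cl g L) g i : H) = g i := fun i => coe_res (hg i)
  have cen : res (cl g L) g z ∈ Subgroup.center (cl g L) := Subgroup.mem_center_iff.2 fun w => Subtype.ext (by
    rw [Subgroup.coe_mul, Subgroup.coe_mul, c]
    refine Subgroup.mem_centralizer_singleton_iff.1 (cl_le (fun i hi => ?_) w.2)
    have := hz _ (H15.mapR_eq _ L ▸ List.mem_map_of_mem hi)
    rw [Subgroup.mem_centralizer_singleton_iff]
    simpa using this)
  have : (Subgroup.zpowers (res (cl g L) g z)).Normal := ⟨fun n hn w => by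
    rwa [Subgroup.mem_center_iff.1 (Subgroup.zpowers_le.2 cen hn) w, mul_inv_cancel_right]⟩
  let π := QuotientGroup.mk' (Subgroup.zpowers (res (cl g L) g z))
  have πz : π (res (cl g L) g z) = 1 := (QuotientGroup.eq_one_iff _).2 (Subgroup.mem_zpowers _)
  obtain ⟨ψ, hψ⟩ := hp _ (fun l => π (res (cl g L) g (a + l))) (fun r hr => by
    obtain ⟨t, e⟩ := R.tlE r hr
    rw [← H15.map_evalW', show evalW (fun l => res (cl g L) g (a + l)) r = res (cl g L) g z ^ t from Subtype.ext (by
      rw [← evalW_shW, coe_evalW_res fun i _ => hg i, evalW_shW, e, Subgroup.coe_pow, c]), map_pow, πz, one_pow])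
    fun l hl => by rw [show res (cl g L) g (a + l) = 1 from Subtype.ext ((c _).trans (h1 l hl)), map_one]
  have s : Function.Surjective ψ := fun w => by
    obtain ⟨w, rfl⟩ := QuotientGroup.mk'_surjective _ w
    refine ((closure_res (g := g) L).ge.trans ((Subgroup.closure_le (ψ.range.comap π)).2 ?_)) (Subgroup.mem_top w)
    rintro _ ⟨i, hi, rfl⟩
    obtain ⟨u, t, e⟩ := hs i hi
    refine ⟨evalW gen u, ?_⟩
    rw [H15.map_evalW', funext hψ, ← H15.map_evalW', ← evalW_shW, show evalW (res (cl g L) g) (shW a u) =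
      evalW (res (cl g L) g) (i :: H15.pw [z] t) from Subtype.ext (by
        rw [coe_evalW_res fun i _ => hg i, coe_evalW_res fun i _ => hg i, e])]
    simp [H15.evalW_pw, πz]
  have j : Function.Injective ψ := (MonoidHom.ker_eq_bot_iff _).1 ((ψ.normal_ker.eq_bot_or_eq_top).resolve_right fun k => hne (by
    obtain ⟨w, e⟩ := s (π (res (cl g L) g x))
    have := Subgroup.zpowers_le.2 cen ((QuotientGroup.eq_one_iff _).1 (e.symm.trans (k.ge (Subgroup.mem_top w))))
    simpa [c] using congrArg Subtype.val (Subgroup.mem_center_iff.1 this (res (cl g L) g y)).symm))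
  let e := MulEquiv.ofBijective ψ ⟨j, s⟩
  refine ⟨e.symm.toMonoidHom.comp π, inferInstance, e.symm.surjective.comp (QuotientGroup.mk'_surjective _), ?_, cen,
    by rw [← Subgroup.orderOf_coe, c, ho]⟩
  ext w
  simp [π]

end H14.RK
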