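import Mathlib
import Cfsg.Agent.H14.ON45
import Cfsg.Agent.H14.RK4

/-! The threefold cover of the O'Nan group: codes. -/

set_option autoImplicit false
set_option maxRecDepth 100000
set_option Elab.async false

namespace H14.ON45
open H13 H15 H14.RK Matrix Cfsg Cfsg.Spor

/-- the product of codes -/
noncomputable def mul : ℕ → ℕ → ℕ := skp (appP 7 2341 14 22 45 (22 * 45) 45) (sc 1)

/-- the central letter and the letters -/
noncomputable def Lz : List ℕ := sc 2 :: L

end H14.ON45
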