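import Mathlib
import Cfsg.Agent.H14.ON45P2
import Cfsg.Agent.H14.ON45P3
import Cfsg.Agent.H14.ON45P7
import Cfsg.Agent.H13.ON

/-! The threefold cover of the O'Nan group: `H14.ON45.cov`, `mult`. -/

set_option autoImplicit false
set_option maxRecDepth 100000
set_option Elab.async false

namespace H14.ON45
open H13 H15 H14.RK Matrix Cfsg Cfsg.Spor

/-- the semantics of the codes -/
noncomputable def S : Sem (Matrix (Fin 45) (Fin 45) (ZMod 7))ˣ mul (sc 1) (wfP 7 22 45 (22 * 45) 45) := V.sem wf1 mat1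

/-- the cover -/
noncomputable abbrev E : Subgroup (Matrix (Fin 45) (Fin 45) (ZMod 7))ˣ := cl (S.gen Lz) [1, 3, 4, 5, 6, 7, 8]

theorem nth (j : ℕ) : nthD (sc 1) Lz (j + 1) = lt j := by rw [nthD_eq]; rfl

theorem isU {ι : Type} [Fintype ι] [DecidableEq ι] {A B : Matrix ι ι (ZMod 7)} (h : B * A = 1) : ∃ g : (Matrix ι ι (ZMod 7))ˣ, g = A :=
  IsUnit.of_mul_eq_one _ (mul_eq_one_comm.1 h)

theorem okL (j : ℕ) : S.ok (lt j) := (isU (inv j)).elim fun _ h => (V.sem_of_eq wf1 mat1 (wf_lt j) h).1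

/-- words for the letters -/
noncomputable def es0 : List (ℕ × List ℕ) := Lz.zip [pw [2, 3, 4, 0] 5, [0], [0, 0, 0], [1], [2], [3], [4], [5], [6]]

theorem es0_ok : slpOk mul (sc 1) ([1, 3, 4, 5, 6, 7, 8].map (nthD (sc 1) Lz)) es0 = true ∧ mapR Prod.fst es0 = Lz := by decide +kernel

theorem okz : ∀ c ∈ Lz, (S.sub E).ok c := es0_ok.2 ▸ Sem.ok_of_slp _ (List.forall_mem_map.2 fun j hj => by
  refine ⟨?_, mem_cl (g := S.gen Lz) j hj⟩
  obtain ⟨j, rfl⟩ := Nat.exists_eq_succ_of_ne_zero (n := j) (by rintro rfl; simp at hj)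
  exact (nth j).symm ▸ okL j) es0_ok.1

theorem mem (i : ℕ) : S.gen Lz i ∈ E := (nthD_prop (S.sub E).ok_one okz i).2

/-- the test -/
noncomputable def fM (u v : List ℕ) : Bool := Nat.beq (prodW mul (sc 1) Lz u) (prodW mul (sc 1) Lz v)

theorem val (u : List ℕ) : S.ok (prodW mul (sc 1) Lz u) ∧ S.val (prodW mul (sc 1) Lz u) = evalW (S.gen Lz) u :=
  S.prodW_spec (fun c h => (okz c h).1) u

theorem snd : Snd (S.gen Lz) fM := fun u v h => by rw [← (val u).2, ← (val v).2, Nat.eq_of_beq_eq_true h]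

theorem ne {u v : List ℕ} (h : fM u v = false) : evalW (S.gen Lz) u ≠ evalW (S.gen Lz) v := fun e => by
  rw [fM, V.sem_inj wf1 mat1 (val u).1 (val v).1 ((val u).2.trans (e.trans (val v).2.symm)), Nat.beq_refl] at h
  exact absurd h (by decide)

theorem cov : ∃ σ : E →* Spor.ON, CCov σ (res _ (S.gen Lz) 0) 3 :=
  have := H13.ON.simple
  ccov_pres (a := 1) (n := 8) (x := 3) (y := 4) (gen := H13.ON.gen) (rs := [1, 0] :: [0, 1] :: H13.ON.rels)
    (ts := List.replicate 27 0 ++ [1, 1, 1]) mem ((chk_of (by decide +kernel)).rel snd)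
    (ord_one (ord_of [3] (snd _ _ (by decide +kernel)) (List.forall_mem_cons.2 ⟨ne (v := []) (by decide +kernel), List.forall_mem_nil _⟩) (by decide)))
    (fun _ _ q a b => by
      have hI : Inv q 3 := inv_of_rels b (by decide) a (by decide +kernel)
      have hR : Rels q (presW H13.ON.ix 3 H13.ON.gs ON.edges ON.extra) :=
        H13.ON.pres_eq ▸ fun r hr => a r (List.mem_cons_of_mem _ (List.mem_cons_of_mem _ hr))
      refine ⟨presHom hI H13.ON.hgs hR, fun l => ?_⟩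
      have h : ∀ x, presHom hI H13.ON.hgs hR (H13.ON.gen (H13.ON.ix x)) = q (H13.ON.ix x) := fun x => by rw [H13.ON.hg, presHom_of]
      rcases Nat.lt_or_ge l 8 with c | c
      · interval_cases l
        exacts [h .g, by
          rw [eq_inv_of_mul_eq_one_left (show H13.ON.gen 1 * H13.ON.gen 0 = 1 from H13.ON.hI 0), map_inv,
            eq_inv_of_mul_eq_one_left (show q 1 * q 0 = 1 from hI 0)]
          exact congrArg _ (h .g), h .a, h .b, h .c, h .d, h .e, h .f]
      · rw [H13.ON.one l c, map_one, b l c])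
    (fun l h => by rw [Sem.gen, add_comm, nth, lt_of_le l h, S.val_one]) ((chk_of (by decide +kernel)).rel snd)
    (fun i hi => ⟨[i - 1], 0, congrArg _ ((by decide +kernel : ∀ i ∈ [1, 3, 4, 5, 6, 7, 8], shW 1 [i - 1] = i :: pw [0] 0) i hi)⟩)
    (by simpa using ne (u := [3, 4]) (v := [4, 3]) (by decide +kernel))

theorem cardE : Nat.card E = 3 * 460815505920 := cov.elim fun _ C => C.card H13.ON.card_eq

theorem s2 : NoStem 2 E :=
  have h := Sem.ok_of_slp _ okz s2so
  s2ns (Sem.pcRel _ h (allLt_iff.1 s2r) (allL_iff.1 s2f)) (V.le_pc wf1 mat1 h s2vc s2lo) (by rw [cardE]; norm_num)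

theorem s3 : NoStem 3 E :=
  have h := Sem.ok_of_slp _ okz s3so
  s3ns (Sem.pcRel _ h (allLt_iff.1 s3r) (allL_iff.1 s3f)) (V.le_pc wf1 mat1 h s3vc s3lo) (by rw [cardE]; norm_num)

theorem s7 : NoStem 7 E :=
  have h := Sem.ok_of_slp _ okz s7so
  s7ns (Sem.pcRel _ h (allLt_iff.1 s7r) (allL_iff.1 s7f)) (V.le_pc wf1 mat1 h s7vc s7lo) (by rw [cardE]; norm_num)

theorem mult : HasCyclicSchurMultiplier Spor.ON 3 := by
  obtain ⟨σ, C⟩ := cov
  have := H13.ON.simple
  refine cov_mult C (C.perfect (perfect_of_simple (by rw [H13.ON.card_eq]; norm_num)) (closure_res _) (r := 4) (by norm_num) ?_)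
    H13.ON.card_eq [2, 3, 7] [] [5, 11, 19, 31] (by simpa using ⟨s2, s3, s7⟩) (by simp) 9 (by decide +kernel)
  rintro _ ⟨i, hi, rfl⟩
  refine Subtype.ext ?_
  rw [Subgroup.coe_pow, coe_res (mem i)]
  simpa [pow_succ, mul_assoc] using snd [i, i, i, i] [] (allL_iff.1 (by decide +kernel :
    allL (fun i => fM [i, i, i, i] []) [1, 3, 4, 5, 6, 7, 8] = true) i hi)

end H14.ON45
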