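import Mathlib
import Cfsg.Agent.H14.N11

/-! Orbits of subgroups of `M24` on points as masks. -/

namespace H14

open Cfsg Finset MulAction PK PK.TS
open scoped Pointwise

theorem exists_cj_le' {G : Type*} [Group G] [Finite G] {p k m : ℕ} {K H M : Subgroup G} (hp : p.Prime) (h1 : K ≤ M) (h2 : H ≤ M)
    (hK : Nat.card K = p ^ k) (hM : Nat.card M = p ^ k * m) (hm : ¬ p ∣ m) (hH : p ^ k ∣ Nat.card H) :
    ∃ g ∈ M, K ≤ H13.cj g H := by
  obtain ⟨g, e⟩ := exists_cj_le (K := K.subgroupOf M) (H := H.subgroupOf M) hp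
    ((Nat.card_congr (Subgroup.subgroupOfEquivOfLe h1).toEquiv).trans hK) hM hm
    ((Nat.card_congr (Subgroup.subgroupOfEquivOfLe h2).toEquiv).symm ▸ hH)
  exact ⟨g, g.2, fun x hx => e (x := ⟨x, h1 hx⟩) hx⟩

theorem cj_le_of_mem {G : Type*} [Group G] {H M : Subgroup G} {g : G} (hg : g ∈ M) (h : H ≤ M) : H13.cj g H ≤ M := fun x hx => by
  simpa [mul_assoc] using M.mul_mem (M.mul_mem hg (h hx)) (M.inv_mem hg)

theorem card_map_of_index {G : Type*} [Group G] [Finite G] {M : Subgroup G} {H : Subgroup M} {i c : ℕ} (h : H.index = i) (hi : 0 < i)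
    (e : Nat.card M = c * i) : Nat.card (H.map M.subtype) = c := by
  rw [Subgroup.card_map_of_injective M.subtype_injective]
  exact Nat.eq_of_mul_eq_mul_right hi (by rw [← e, ← h, H.card_mul_index])

variable {H : Subgroup M24}

theorem exists_orb (H : Subgroup M24) (p : GolayPt) : ∃ m < 2 ^ 24, H ≤ stabilizer M24 (toSet m) ∧ pc m ∣ Nat.card H ∧
    ∀ q, q ∈ toSet m ↔ ∃ h ∈ H, h • p = q := by
  obtain ⟨m, hm, e⟩ := exists_toSet (Set.toFinite (orbit H p)).toFinset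
  have a : ∀ q, q ∈ toSet m ↔ ∃ h ∈ H, h • p = q := fun q => by
    rw [← e, Set.Finite.mem_toFinset]; exact ⟨fun ⟨h, c⟩ => ⟨h, h.2, c⟩, fun ⟨h, c, d⟩ => ⟨⟨h, c⟩, d⟩⟩
  refine ⟨m, hm, fun h hh => eq_of_subset_of_card_le (fun q hq => ?_) (card_smul_finset ..).ge, ?_, a⟩
  · obtain ⟨r, c, rfl⟩ := mem_smul_finset.1 hq
    obtain ⟨k, d, rfl⟩ := (a r).1 c
    exact (a _).2 ⟨h * k, H.mul_mem hh d, mul_smul ..⟩
  · rw [← card_toSet hm, ← e, ← Set.ncard_eq_toFinset_card, ← index_stabilizer]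
    exact Subgroup.index_dvd_card _

theorem orb_split {m O : ℕ} (hO : O < 2 ^ 24) (h : H ≤ stabilizer M24 (toSet m))
    (ht : ∀ p ∈ toSet O, ∀ q ∈ toSet O, ∃ c ∈ H, (c : Equiv.Perm GolayPt) p = q) : m &&& O = O ∨ m &&& O = 0 := by
  have l : m &&& O < 2 ^ 24 := Nat.and_le_right.trans_lt hO
  by_cases c : ∃ p ∈ toSet O, p ∈ toSet m
  · obtain ⟨p, a, b⟩ := c
    refine .inl (toSet_inj l hO ((toSet_and _ _).trans (inter_eq_right.2 fun q hq => ?_)))
    obtain ⟨k, d, rfl⟩ := ht p a q hq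
    exact h d ▸ smul_mem_smul_finset (a := k) b
  · exact .inr (toSet_inj l (by norm_num) ((toSet_and _ _).trans ((eq_empty_iff_forall_notMem.2 fun p hp =>
      c ⟨p, (mem_inter.1 hp).2, (mem_inter.1 hp).1⟩).trans toSet_zero.symm)))

theorem and_eq_of_mem {m O : ℕ} {p : GolayPt} (h : m &&& O = O ∨ m &&& O = 0) (h1 : p ∈ toSet m) (h2 : p ∈ toSet O) :
    m &&& O = O := h.resolve_right fun c => by
  have := mem_inter.2 ⟨h1, h2⟩
  rw [← toSet_and, c, toSet_zero] at this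
  exact notMem_empty _ this

theorem and_pt_zero {m i : ℕ} (hi : i < 24) (h : pt i ∉ toSet m) : m &&& 2 ^ i = 0 := by
  rw [Nat.and_two_pow, ← bit_eq, Bool.eq_false_iff.2 fun c => h ((pt_mem_toSet hi).2 c)]; simp

end H14
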