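import Mathlib
import Cfsg.Agent.H14.Sextet

/-!
The punctured code of length 23: `H14.res s` (restriction of the indicator word of `s`), `mem_punct_iff`, `hammingNorm_res`,
`res_injOn`, `ncard_punct`.
-/

namespace H14

open Finset Cfsg
open scoped Pointwise symmDiff

def res (s : Finset GolayPt) : ZMod 23 → ZMod 2 := fun x => ind s (some x)

theorem mem_punct_iff (u : ZMod 23 → ZMod 2) :
    (∃ w ∈ golayCode, ∀ x : ZMod 23, u x = w (some x)) ↔ ∃ s ∈ Code, res s = u := by
  constructor
  · rintro ⟨w, hw, h⟩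
    exact ⟨_, support_mem_Code.2 hw, funext fun x => by rw [res, ind_support, h]⟩
  · rintro ⟨s, hs, rfl⟩
    exact ⟨_, mem_Code_iff_ind.1 hs, fun _ => rfl⟩

theorem hammingNorm_res (s : Finset GolayPt) : hammingNorm (res s) = (s.erase none).card := by
  rw [hammingNorm_eq_card, ← card_map ⟨some, Option.some_injective _⟩]
  congr 1; ext p
  rcases p with _ | x
  · simp
  · simp [mem_support₂, res, ind]

theorem res_add (s t : Finset GolayPt) : res (s ∆ t) = res s + res t := by
  ext x; simp [res, ind_symmDiff]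

theorem hammingDist_res (s t : Finset GolayPt) :
    hammingDist (res s) (res t) = ((s ∆ t).erase none).card := by
  rw [hammingDist_eq_hammingNorm, ← hammingNorm_res, res_add]
  congr 1; ext p
  simp only [Pi.add_apply, Pi.neg_apply, Pi.sub_apply]
  generalize res s p = a; generalize res t p = b
  revert a b; decide

theorem eq_of_erase_lt {s t : Finset GolayPt} (hs : s ∈ Code) (ht : t ∈ Code)
    (h : ((s ∆ t).erase none).card < 7) : s = t := by
  have := pred_card_le_card_erase (s := s ∆ t) (a := none)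
  exact Code_eq_of_symmDiff_lt (Code_symmDiff hs ht) (by omega)

theorem res_injOn : Set.InjOn res Code := fun s hs t ht h =>
  eq_of_erase_lt hs ht (by rw [← hammingDist_res, h, hammingDist_self]; norm_num)

theorem ncard_punct (Q : ℕ → Prop) (q : ℕ → Bool) (hq : ∀ n, q n = true ↔ Q n) :
    {u : ZMod 23 → ZMod 2 | u ∈ {u : ZMod 23 → ZMod 2 | ∃ w ∈ golayCode, ∀ x : ZMod 23, u x = w (some x)} ∧
      Q (hammingNorm u)}.ncard = cnt2 64 64 fun a => q (pc (Nat.land (cw a) 0x7fffff)) := by
  rw [← ncard_Code (fun s => Q (s.erase none).card) (fun c => q (pc (Nat.land c 0x7fffff))) (fun a ha => by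
    have : (toSet (cw a)).erase none = toSet (cw a) ∩ toSet 0x7fffff := by
      have : toSet 0x7fffff = univ.erase none := by decide +kernel
      rw [this]; ext p; simp [and_comm]
    rw [hq, this, card_inter_toSet _ (cw_lt ha)]; rfl),
    ← (res_injOn.mono (fun _ h => h.1)).ncard_image]
  congr 1; ext u
  simp only [Set.mem_ofPred_eq, mem_punct_iff, Set.mem_image]
  constructor
  · rintro ⟨⟨s, hs, rfl⟩, h⟩; exact ⟨s, ⟨hs, by rwa [← hammingNorm_res]⟩, rfl⟩
  · rintro ⟨s, ⟨hs, h⟩, rfl⟩; exact ⟨⟨s, hs, rfl⟩, by rwa [hammingNorm_res]⟩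

end H14
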