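import Mathlib
import Cfsg.Agent.H14.R3d

/-!
More steps of the recognition of a rank 3 group (namespace `H14.R3`).
* `mu_ne`, `core'` (the complete multipartite case is excluded), `twist` (renumbering by an outer automorphism), `orb_big`;
* `AutR`, `equiv_of_bound`, `aut2Ok`, `aut2` (a bound for the automorphism group from the orbitals of a point stabiliser).
-/

set_option autoImplicit false

namespace H14.R3
open H13 H14.PK H14.PK.TS H27.MG H27.PKx H14.XS MulAction Finset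

variable {H Ω : Type*} [Group H] [MulAction H Ω] {w n : ℕ} {T : TS H w n} {K : Subgroup H} {D : Finset ℕ} {lab rep sz : ℕ → ℕ} {s : ℕ}

theorem mu_ne [Fintype Ω] {Γ : SimpleGraph Ω} [DecidableRel Γ.Adj] {k d l m p : ℕ} (h : Γ.IsSRGWith (k + d + 2) k l m) (hp : p.Prime)
    (h1 : p ∣ d + 2) (h2 : ¬ p ∣ k + d + 2) (h3 : d + 1 < k) : m ≠ k := by
  classical
  rintro rfl
  have := Fact.mk hp
  have a := h.param_eq Γ (by omega)
  rw [mul_comm _ m] at a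
  have b := Nat.eq_of_mul_eq_mul_left (by omega) a
  have c := h.compl
  rw [show m + d + 2 - m - 1 = d + 1 by omega, show m + d + 2 - (2 * m - m) - 2 = d by omega,
    show m + d + 2 - (2 * m - l) = 0 by omega] at c
  exact h2 (srg_mu0 c h1)

theorem core' [Fintype Ω] {Γ : SimpleGraph Ω} [DecidableRel Γ.Adj] {N k l m : ℕ} (h : Γ.IsSRGWith N k l m) (hmk : m ≠ k) {a : Ω}
    (hA : ∀ (g : H) x y, Γ.Adj (g • x) (g • y) ↔ Γ.Adj x y) (ha : ∀ g : H, g • a = a) {z : Ω}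
    (hz : orbit H z = {y | y ≠ a ∧ ¬ Γ.Adj a y}) {c : ℕ} (hc : c < n) (tc : ∀ i, i ∈ D ↔ ∃ g, T.ap g c = i)
    (hs : ∀ g : H, g • z = z → T.ap g c = c) (hd : (orbit H z).ncard = D.card) (L : Lab T (T.st c) D lab rep s)
    (hsz : ∀ j < s, cntL n lab (j + 1) = sz j) {j : ℕ}
    (hu : ∀ X ∈ (range s).powerset, ∀ e < k, ∑ i ∈ X, sz i + e = k → k ∣ (N - k - 1) * e → X = {j})
    {l' m' : ℕ} (hm : sz j + m' = k ∧ l' + 1 < k ∧ k * (k - l' - 1) = (N - k - 1) * m') {Ts : List ℕ} (hT : ∀ t ∈ Ts, T.In ⊤ t)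
    {p : ℕ} (hp : p.Prime) {P : Subgroup H} (hP : IsPGroup p P) {lab' rep' : ℕ → ℕ} {s' : ℕ} (Lb : Lab T P D lab' rep' s')
    {v r : ℕ} {κ : ℤ} {J : List (List ℕ × ℤ)} {us : List (List ℕ)} {sols : List ℕ} {t : Tr}
    (e : srchOk w n v r k l' m' κ Ts lab lab' (j + 1) c s' J us sols t = true) {b : Ω} (hb : orbit H b = {y | Γ.Adj a y})
    (hk : ¬ p ∣ (orbit H b).ncard) : l = l' ∧ ∃ q, Idn T D {y | y ≠ a ∧ ¬ Γ.Adj a y} q ∧
      (∀ i < n, lab i = j + 1 ↔ i ∈ D ∧ Γ.Adj (q c) (q i)) ∧ ∃ y ∈ orbit H b, ∃ x ∈ sols, ∀ i ∈ D, Γ.Adj y (q i) ↔ bt x (lab' i) = true := by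
  classical
  obtain ⟨q, I, -⟩ := exists_idn hc tc hs hd
  rw [hz] at I
  have hc' := (tc c).2 ⟨1, T.ap_one hc⟩
  have a2 := h.param_eq Γ (h.card ▸ Fintype.card_pos_iff.2 ⟨a⟩)
  have b := I.bij.mapsTo hc'
  have e0 : {y | y ∈ {y | y ≠ a ∧ ¬ Γ.Adj a y} ∧ Γ.Adj (q c) y}.ncard + m = k := by
    rw [← h.of_not_adj b.1.symm b.2, ← h.regular.degree_eq (q c), ← SimpleGraph.card_neighborSet_eq_degree, ← Nat.card_eq_fintype_card,
      ← Nat.card_eq_fintype_card, Nat.card_coe_set_eq, Nat.card_coe_set_eq,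
      ← Set.ncard_inter_add_ncard_sdiff_eq_ncard (Γ.neighborSet (q c)) (Γ.neighborSet a), add_comm]
    congr 2
    · exact Set.inter_comm _ _
    · ext z
      exact ⟨fun e => ⟨e.2, e.1.2⟩, fun e => ⟨⟨fun d => b.2 (d ▸ e.1.symm), e.2⟩, e.1⟩⟩
  obtain ⟨a1, a3⟩ := cls I L hsz (Q := Γ.Adj (q c)) (j := j) (fun g hg y => by rw [← hA g (q c) y, ← I.eqv g c hc', hg hc])
    fun X hX x => hu X hX m (by omega) (x ▸ e0) ⟨_, a2.symm⟩
  obtain rfl : m = m' := by omega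
  obtain rfl : l = l' := by
    have := Nat.eq_of_mul_eq_mul_left (by omega) (a2.trans hm.2.2.symm)
    omega
  obtain ⟨y, a4, a5⟩ := exists_fixed hp hP hk
  exact ⟨rfl, q, I, a3, y, a4, search h I hA ha hc' a3 hT Lb e (hb.le a4) a5⟩

/-- `ρ` permutes the mask `M`, which contains the base, and intertwines the pairs -/
noncomputable def twOk (w n M ρ π : ℕ) (bs : List ℕ) (Ps : List (ℕ × ℕ)) : Bool := force M fun M => force ρ fun ρ => force π fun π =>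
  band (allL (bt M) bs) (allLt (fun i => bor (bn (bt M i)) (force (get w ρ i) fun x => force (get w π i) fun y =>
    band (band (band (Nat.blt x n) (bt M x)) (band (Nat.blt y n) (bt M y))) (band (band (Nat.beq (get w π x) i) (Nat.beq (get w ρ y) i))
      (allL (fun p => Nat.beq (get w ρ (get w p.2 i)) (get w p.1 x)) Ps)))) n)

theorem twist {M ρ π N : ℕ} {bs : List ℕ} {Ps : List (ℕ × ℕ)} (e : twOk w n M ρ π bs Ps = true) (hM : Mdl T (Ps.map Prod.fst) bs N)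
    (h : ∀ t ∈ Ps.map Prod.snd, T.In ⊤ t) {Z : Set Ω} {q : ℕ → Ω} (I : Idn T (msk n M) Z q) :
    ∃ U : TS H w n, (∀ t, T.In ⊤ t → U.In ⊤ t) ∧ (∀ g, ∃ g', U.tb g = T.tb g') ∧ Idn U (msk n M) Z (fun i => q (get w ρ i)) ∧
      ∀ i ∈ msk n M, get w ρ i ∈ msk n M := by
  have := T.finite
  rw [twOk, force_eq, force_eq, force_eq, band_eq_true] at e
  have a : ∀ i ∈ msk n M, (get w ρ i ∈ msk n M ∧ get w π i ∈ msk n M) ∧ (get w π (get w ρ i) = i ∧ get w ρ (get w π i) = i) ∧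
      ∀ p ∈ Ps, get w ρ (get w p.2 i) = get w p.1 (get w ρ i) := fun i hi => by
    have := (bor_eq_true.1 (allLt_iff.1 e.2 i (mem_msk.1 hi).1)).resolve_left (by simp [(mem_msk.1 hi).2])
    rw [force_eq, force_eq] at this
    simpa only [band_eq_true, Nat.blt_eq, Nat.beq_eq, allL_iff, mem_msk] using this
  have b : ∀ x ∈ bs, x ∈ msk n M := fun x hx => mem_msk.2 ⟨hM.base.1 x hx, allL_iff.1 e.1 x hx⟩
  let Q : H → H → Prop := fun g g' => ∀ i ∈ msk n M, get w ρ (T.ap g' i) = T.ap g (get w ρ i)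
  have q1 : ∀ {x y x' y'}, Q x x' → Q y y' → Q (x * y) (x' * y') := fun u v i hi => by
    rw [T.ap_mul _ _ (I.lt i hi), u _ (I.inv _ i hi), v i hi, T.ap_mul _ _ (I.lt _ (a i hi).1.1)]
  have q2 : ∀ {x y z}, Q x y → Q x z → y = z := fun u v => hM.base.ext fun i hi => by
    rw [← (a _ (I.inv _ i (b i hi))).2.1.1, u i (b i hi), ← v i (b i hi), (a _ (I.inv _ i (b i hi))).2.1.1]
  have q3 : ∀ g, ∃ g', Q g g' := fun g => by
    have hg : g ∈ (T.cl (Ps.map Prod.fst)).toSubmonoid := hM.cl ▸ trivial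
    rw [TS.cl, Subgroup.closure_toSubmonoid_of_finite] at hg
    induction hg using Submonoid.closure_induction with
    | mem x hx =>
      obtain ⟨t, ht, rfl⟩ := hx
      obtain ⟨p, hp, rfl⟩ := List.mem_map.1 ht
      exact ⟨T.el p.2, fun i hi => by rw [(hM.mem _ ht).ap_el, (h _ (List.mem_map_of_mem hp)).ap_el, (a i hi).2.2 p hp]⟩
    | one => exact ⟨1, fun i hi => by rw [T.ap_one (I.lt i hi), T.ap_one (I.lt _ (a i hi).1.1)]⟩
    | mul x y _ _ u v => exact let ⟨_, u⟩ := u; let ⟨_, v⟩ := v; ⟨_, q1 u v⟩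
  choose f hf using q3
  let α : H →* H := MonoidHom.mk' f fun x y => q2 (hf _) (q1 (hf x) (hf y))
  have c : Function.Injective α := (injective_iff_map_eq_one α).2 fun g hg => hM.base.2 g fun i hi => by
    have := hf g _ (a i (b i hi)).1.2
    rwa [show f g = 1 from hg, T.ap_one (I.lt _ (a i (b i hi)).1.2), (a i (b i hi)).2.1.2, eq_comm] at this
  refine ⟨T.comap α c, fun t ht => in_comap.2 ((Subgroup.map_top_of_surjective α (Finite.surjective_of_injective c)).symm ▸ ht),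
    fun g => ⟨_, rfl⟩, ⟨I.lt, fun g => I.inv (f g), fun g i hi => (congrArg q (hf g i hi)).trans (I.eqv g _ (a i hi).1.1),
      I.bij.comp (Set.InvOn.bijOn (f' := get w π) ⟨fun i hi => (a i hi).2.1.1, fun i hi => (a i hi).2.1.2⟩
        (fun i hi => (a i hi).1.1) fun i hi => (a i hi).1.2)⟩, fun i hi => (a i hi).1.1⟩

/-- the words give distinct images of the set `X` -/
noncomputable def bigOk (w n M X k : ℕ) (Ts ps : List ℕ) (us : List (List ℕ)) : Bool := force X fun X =>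
  band (band (Nat.blt k us.length) (allL (fun p => band (Nat.blt p n) (bt M p)) ps))
    (incK (fun u => keyF 2 (fun p => Bool.rec 0 1 (bt X (apV w n Ts u p))) ps) us 0)

theorem orb_big [Finite Ω] {M X k : ℕ} {Ts ps : List ℕ} {us : List (List ℕ)} (e : bigOk w n M X k Ts ps us = true)
    (hT : ∀ t ∈ Ts, T.In ⊤ t) {Γ : SimpleGraph Ω} (hA : ∀ (g : H) x y, Γ.Adj (g • x) (g • y) ↔ Γ.Adj x y) {Z : Set Ω} {q : ℕ → Ω}
    (I : Idn T (msk n M) Z q) {y : Ω} (h : ∀ i ∈ msk n M, Γ.Adj y (q i) ↔ bt X i = true) : k < (orbit H y).ncard := by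
  classical
  rw [bigOk, force_eq] at e
  simp only [band_eq_true, Nat.blt_eq, allL_iff] at e
  let f : List ℕ → Ω := fun u => (evalW (gn T Ts) u)⁻¹ • y
  have a : (us.map f).Nodup := by
    refine List.Nodup.of_map (fun z => keyF 2 (fun p => if Γ.Adj z (q p) then 1 else 0) ps) ?_
    rw [List.map_map]
    refine (List.map_congr_left fun u _ => ?_) ▸ (incK_spec e.2).1
    refine keyF_congr fun p hp => ?_
    have hp' := mem_msk.2 (e.1.2 p hp)
    rw [if_congr ((hA (evalW (gn T Ts) u) _ _).symm.trans (by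
      rw [smul_inv_smul, ← I.eqv _ p hp', h _ (I.inv _ p hp'), ← apV_spec hT u p (I.lt p hp')])) rfl rfl]
    cases bt X (apV w n Ts u p) <;> rfl
  refine e.1.1.trans_le ?_
  rw [← List.length_map f, ← List.toFinset_card_of_nodup a, ← Set.ncard_coe_finset]
  refine Set.ncard_le_ncard fun z hz => ?_
  obtain ⟨u, -, rfl⟩ := List.mem_map.1 (List.mem_toFinset.1 hz)
  exact mem_orbit _ _

section
variable {M : Type*} [Group M] {S : TS M w n} {j : ℕ}

/-- the automorphisms of the orbital relation -/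
def AutR (S : TS M w n) (lab : ℕ → ℕ) (j : ℕ) : Subgroup (Equiv.Perm (Fin n)) where
  carrier := {g | ∀ x < n, ∀ y < n, Rel S lab j ((SP w n S.hw S.hn).ap g x) ((SP w n S.hw S.hn).ap g y) ↔ Rel S lab j x y}
  one_mem' := fun x a y b => by rw [TS.ap_one _ a, TS.ap_one _ b]
  mul_mem' := fun p q x a y b => by rw [TS.ap_mul _ _ _ a, TS.ap_mul _ _ _ b, p _ (TS.ap_lt _ _ a) _ (TS.ap_lt _ _ b), q x a y b]
  inv_mem' := fun {g} p x a y b => by rw [← p _ (TS.ap_lt _ _ a) _ (TS.ap_lt _ _ b), TS.ap_ap_inv _ _ a, TS.ap_ap_inv _ _ b]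

/-- their tables -/
def AT (S : TS M w n) (lab : ℕ → ℕ) (j : ℕ) : TS (AutR S lab j) w n := (SP w n S.hw S.hn).sub _

theorem toP_mem (h0 : 0 < n) (g : M) : toP S g ∈ AutR S lab j := fun x a y b => by
  rw [ap, ap, tb_toP]
  exact rel_ap h0 g a b

theorem exists_AT (h0 : 0 < n) (g : M) : ∃ σ, ∀ i, (AT S lab j).ap σ i = S.ap g i :=
  ⟨⟨_, toP_mem h0 g⟩, fun i => congrArg (get w · i) (tb_toP S g)⟩

theorem equiv_of_bound [IsSimpleGroup M] {G Ω : Type*} [Group G] [MulAction G Ω] [FaithfulSMul G Ω] {Γ : SimpleGraph Ω}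
    (hA : ∀ (g : G) x y, Γ.Adj (g • x) (g • y) ↔ Γ.Adj x y) {Ψ : ℕ → Ω} (hΨ : Set.BijOn Ψ {i | i < n} Set.univ)
    (hR : ∀ x < n, ∀ y < n, Γ.Adj (Ψ x) (Ψ y) ↔ Rel S lab j x y) (hc : Nat.card G = Nat.card M) (h2 : 2 < Nat.card M)
    (h0 : 0 < n) (hs : Nat.card (AutR S lab j) ≤ 2 * Nat.card M) : Nonempty (G ≃* M) := by
  obtain ⟨U, hU⟩ := exists_act (G := G) Ψ S.hw S.hn (fun i hi j hj => hΨ.injOn hi hj)
    (fun g i _ => let ⟨j, a, b⟩ := hΨ.surjOn (Set.mem_univ (g • Ψ i)); ⟨j, a, b.symm⟩) fun g h => eq_of_smul_eq_smul (α := Ω) fun y => by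
      obtain ⟨i, a, rfl⟩ := hΨ.surjOn (Set.mem_univ y)
      rw [h i a, one_smul]
  have a1 : (toP U).range ≤ AutR S lab j := by
    rintro _ ⟨g, rfl⟩ x a y b
    rw [ap, ap, tb_toP, ← hR _ (U.ap_lt _ a) _ (U.ap_lt _ b), ← hU g x a, ← hU g y b, hA, hR x a y b]
  have a2 : (toP S).range ≤ AutR S lab j := by
    rintro _ ⟨g, rfl⟩
    exact toP_mem h0 g
  have e1 := (MonoidHom.ofInjective (toP_inj U)).trans (Subgroup.subgroupOfEquivOfLe a1).symm
  have e2 := (MonoidHom.ofInjective (toP_inj S)).trans (Subgroup.subgroupOfEquivOfLe a2).symm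
  have := e2.symm.isSimpleGroup
  have c2 := Nat.card_congr e2.toEquiv
  exact ⟨e1.trans ((MulEquiv.subgroupCongr (eq_of_index ((Nat.card_congr e1.toEquiv).symm.trans (hc.trans c2))
    (c2 ▸ hs) (c2 ▸ h2))).trans e2.symm)⟩

theorem rel_of_cl (h0 : 0 < n) {Ls : List ℕ} (h : ∀ t ∈ Ls, T.In ⊤ t) (hT : T.cl Ls = ⊤) (h' : ∀ t ∈ Ls, S.In ⊤ t) (g : H) :
    ∀ x < n, ∀ y < n, Rel S lab j (T.ap g x) (T.ap g y) ↔ Rel S lab j x y := by
  let Z : Subgroup H :=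
    { carrier := {g | S.In ⊤ (T.tb g)}
      one_mem' := by rw [Set.mem_ofPred_eq, T.tb_one]; exact In.one
      mul_mem' := fun a b => by rw [Set.mem_ofPred_eq, T.tb_mul]; exact In.mul a b
      inv_mem' := fun a => by rw [Set.mem_ofPred_eq, T.tb_inv]; exact In.inv a }
  obtain ⟨s, -, e⟩ := cl_le' (K := Z) (fun t ht => show S.In ⊤ _ by rw [(h t ht).tb_el]; exact h' t ht) (hT ▸ Subgroup.mem_top g)
  intro x hx y hy
  rw [ap, ap, ← e]
  exact rel_ap h0 s hx hy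

/-- an invariant of the point of a word -/
noncomputable def sgK (w n v r : ℕ) (Ls : List ℕ) (lab : ℕ → ℕ) (j R0 Rc : ℕ) (u : List ℕ) : ℕ := force (apV w n Ls u 0) fun x =>
  Nat.add (Nat.mul (popc v r (Nat.land (Nat.land (row n lab j (apV w n Ls u)) Rc) (Nat.xor (ones n) R0))) 4)
    (Nat.add (Bool.rec 0 2 (bt R0 x)) (Bool.rec 0 1 (bt Rc x)))

theorem sig_inv (h0 : 0 < n) (hl : ∀ g ∈ S.st 0, ∀ i < n, lab (S.ap g i) = lab i) {c : ℕ} (hc : c < n) {Ls : List ℕ}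
    (hL : ∀ t ∈ Ls, S.In ⊤ t) {lab' : ℕ → ℕ} {us : List (List ℕ)} {reps : List ℕ} (L : Lab S (S.st 0 ⊓ S.st c) D lab' (nd 0 reps) reps.length)
    (hD : ∀ i < n, i ∈ D) {R0 Rc v r : ℕ} (e0 : ∀ y < n, Rel S lab j 0 y ↔ bt R0 y = true) (ec : ∀ y < n, Rel S lab j c y ↔ bt Rc y = true)
    (hv : r + 1 < 2 ^ v) (hr : n ≤ v * r) (e1 : reps = us.map fun u => apV w n Ls u 0) (e : incK (sgK w n v r Ls lab j R0 Rc) us 0 = true) :
    ∀ g ∈ (AT S lab j).st 0 ⊓ (AT S lab j).st c, ∀ y < n, lab' ((AT S lab j).ap g y) = lab' y := by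
  classical
  let sg : ℕ → ℕ := fun y => {z | z < n ∧ (Rel S lab j y z ∧ Rel S lab j c z) ∧ ¬ Rel S lab j 0 z}.ncard * 4 +
    ((if Rel S lab j 0 y then 2 else 0) + if Rel S lab j c y then 1 else 0)
  have a : ∀ g ∈ (AT S lab j).st 0 ⊓ (AT S lab j).st c, ∀ y < n, sg ((AT S lab j).ap g y) = sg y := fun g hg y hy => by
    have k : ∀ x < n, ∀ y < n, Rel S lab j ((AT S lab j).ap g x) ((AT S lab j).ap g y) ↔ Rel S lab j x y := g.2
    have k0 := k 0 h0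
    have kc := k c hc
    rw [hg.1 h0] at k0
    rw [hg.2 hc] at kc
    simp only [sg]
    rw [if_congr (k0 y hy) rfl rfl, if_congr (kc y hy) rfl rfl]
    congr 2
    symm
    refine Set.BijOn.ncard_eq (f := (AT S lab j).ap g) ⟨fun z hz => ⟨TS.ap_lt _ _ hz.1, ?_⟩,
      fun _ p _ q => TS.ap_inj _ g p.1 q.1, fun z hz => ⟨_, ⟨TS.ap_lt _ g⁻¹ hz.1, ?_⟩, TS.ap_ap_inv _ _ hz.1⟩⟩
    · rw [k y hy z hz.1, k0 z hz.1, kc z hz.1]; exact hz.2
    · rw [← k y hy _ (TS.ap_lt _ g⁻¹ hz.1), ← k0 _ (TS.ap_lt _ g⁻¹ hz.1), ← kc _ (TS.ap_lt _ g⁻¹ hz.1), TS.ap_ap_inv _ _ hz.1]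
      exact hz.2
  have b : ∀ u, sgK w n v r Ls lab j R0 Rc u = sg (apV w n Ls u 0) := fun u => by
    have hx : apV w n Ls u 0 < n := apV_spec hL u 0 h0 ▸ S.ap_lt _ h0
    rw [sgK, force_eq, popc_eq hv]
    refine congrArg₂ (fun a b : ℕ => a * 4 + b) (congrArg Set.ncard (Set.ext fun z => ?_)) ?_
    · rw [Set.mem_ofPred_eq, Set.mem_ofPred_eq, Nat.land_eq, Nat.land_eq, Nat.xor_eq, Nat.testBit_and, Nat.testBit_and, Nat.testBit_xor,
        ones_eq, Nat.testBit_two_pow_sub_one, Bool.and_eq_true, Bool.and_eq_true, ← bt_eq, ← bt_eq, ← bt_eq]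
      exact ⟨fun ⟨_, ⟨p, q⟩, t⟩ => have hz := row_lt (apV_spec hL u) p
        ⟨hz, ⟨(rel_row h0 hl (apV_spec hL u) hz).1 p, (ec z hz).2 q⟩, fun d => by simp [hz, (e0 z hz).1 d] at t⟩,
        fun ⟨hz, ⟨p, q⟩, t⟩ => ⟨hz.trans_le hr, ⟨(rel_row h0 hl (apV_spec hL u) hz).2 p, (ec z hz).1 q⟩, by
          simpa [hz, e0 z hz] using t⟩⟩
    · rw [if_congr (e0 _ hx) rfl rfl, if_congr (ec _ hx) rfl rfl]
      cases bt R0 (apV w n Ls u 0) <;> cases bt Rc (apV w n Ls u 0) <;> rfl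
  have d : (reps.map sg).Nodup := by
    rw [e1, List.map_map]
    exact (List.map_congr_left fun u _ => b u) ▸ (incK_spec e).1
  have f : ∀ y < n, ∃ i, ∃ h : i < reps.length, lab' y = i + 1 ∧ sg y = sg reps[i] := fun y hy => by
    obtain ⟨i, p, q, x, t, rfl⟩ := L.conn y (hD y hy)
    obtain ⟨σ, hσ⟩ := exists_AT (lab := lab) (j := j) h0 x
    refine ⟨i, p, q, ?_⟩
    rw [← hσ, a σ ⟨fun _ => (hσ 0).trans (t.1 h0), fun _ => (hσ c).trans (t.2 hc)⟩ _ (L.rep_mem i p).1, nd_eq, List.getD_eq_getElem]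
  intro g hg y hy
  obtain ⟨i, p, q, t⟩ := f y hy
  obtain ⟨i', p', q', t'⟩ := f _ (TS.ap_lt _ g hy)
  rw [a g hg y hy, t] at t'
  have : i = i' := congrArg Fin.val (List.nodup_iff_injective_getElem.1 d (a₁ := ⟨i, by simpa using p⟩) (a₂ := ⟨i', by simpa using p'⟩)
    (by simpa using t'))
  rw [q, q', this]

/-- add the rows of the labels `js` -/
noncomputable def rowsJ (n : ℕ) (lab f : ℕ → ℕ) (k : List (ℕ × ℕ) → Bool) (js : List ℕ) : List (ℕ × ℕ) → Bool :=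
  List.rec k (fun j _ ih rows => force (row n lab j f) fun R => ih ((0, R) :: rows)) js

theorem rowsJ_spec {f : ℕ → ℕ} {k : List (ℕ × ℕ) → Bool} {js : List ℕ} {rows : List (ℕ × ℕ)} (e : rowsJ n lab f k js rows = true) :
    ∃ rows', k rows' = true ∧ ∀ p ∈ rows', p ∈ rows ∨ ∃ j, p.2 = row n lab j f := by
  induction js generalizing rows with
  | nil => exact ⟨rows, e, fun _ => .inl⟩
  | cons j js ih =>
    obtain ⟨r, a, b⟩ := ih ((force_eq _ _).symm.trans e :)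
    exact ⟨r, a, fun p hp => (b p hp).elim (fun c => (List.mem_cons.1 c).elim (fun d => .inr ⟨j, by rw [d]⟩) .inl) .inr⟩

/-- bounds for the orbits along a base -/
noncomputable def aut2Ok (w n v r : ℕ) (Ts : List ℕ) (lab : ℕ → ℕ) (js : List ℕ) (c : ℕ) (st : List (List ℕ × ℕ)) :
    List (ℕ × ℕ) → ℕ → Bool :=
  List.rec (fun rows F => allLt (fun x => bor (bt F x) (Nat.beq (cand n rows F x) (p2 x))) n)
    (fun s _ ih rows F => force (apV w n Ts s.1 c) fun x => band (band (bn (bt F x)) (Nat.ble (popc v r (cand n rows F x)) s.2))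
      (force (sb F x) fun F => rowsJ n lab (apV w n Ts s.1) (fun rows => ih rows F) js rows)) st

theorem aut2_aux (h0 : 0 < n) {c : ℕ} (hc : c < n) {lab' : ℕ → ℕ}
    (hl : ∀ g ∈ (AT S lab j).st 0 ⊓ (AT S lab j).st c, ∀ y < n, lab' ((AT S lab j).ap g y) = lab' y) {Ts js : List ℕ}
    (hT : ∀ t ∈ Ts, S.In (S.st 0) t) {v r : ℕ} (hv : r + 1 < 2 ^ v) (hr : n ≤ v * r) {st : List (List ℕ × ℕ)} {rows : List (ℕ × ℕ)} {F : ℕ}
    (e : aut2Ok w n v r Ts lab' js c st rows F = true) {K : Subgroup (AutR S lab j)} (hK : K ≤ (AT S lab j).st 0)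
    (hF : ∀ i, bt F i = true → i < n ∧ ∀ g ∈ K, (AT S lab j).ap g i = i)
    (hR : ∀ p ∈ rows, ∀ g ∈ K, ∀ y < n, bt p.2 ((AT S lab j).ap g y) = true ↔ bt p.2 y = true) :
    Nat.card K ≤ (st.map Prod.snd).prod := by
  set U := AT S lab j
  have k : ∀ {rows : List (ℕ × ℕ)} {F : ℕ} {K : Subgroup (AutR S lab j)}, (∀ i, bt F i = true → i < n ∧ ∀ g ∈ K, U.ap g i = i) →
      (∀ p ∈ rows, ∀ g ∈ K, ∀ y < n, bt p.2 (U.ap g y) = true ↔ bt p.2 y = true) → ∀ x < n, ¬ bt F x = true → ∀ g ∈ K,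
      (cand n rows F x).testBit (U.ap g x) = true := fun hF hR x hx a g hg =>
    bt_cand (U.ap_lt _ hx) (fun c => a (U.ap_inj g (hF _ c).1 hx ((hF _ c).2 g hg) ▸ c)) fun p hp => hR p hp g hg x hx
  induction st generalizing rows F K with
  | nil =>
    have e : allLt (fun x => bor (bt F x) (Nat.beq (cand n rows F x) (p2 x))) n = true := e
    refine (Subgroup.card_eq_one.2 (eq_bot_iff.2 fun g hg => U.faith g fun i hi => ?_)).le
    by_cases c : bt F i = true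
    · exact (hF i c).2 g hg
    · have := k hF hR i hi c g hg
      rw [Nat.eq_of_beq_eq_true ((bor_eq_true.1 (allLt_iff.1 e i hi)).resolve_left c), p2_eq, Nat.testBit_two_pow,
        decide_eq_true_eq] at this
      exact this.symm
  | cons s st ih =>
    have e : force (apV w n Ts s.1 c) (fun x => band (band (bn (bt F x)) (Nat.ble (popc v r (cand n rows F x)) s.2))
      (force (sb F x) fun F => rowsJ n lab' (apV w n Ts s.1) (fun rows => aut2Ok w n v r Ts lab' js c st rows F) js rows)) = true := e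
    rw [force_eq, force_eq, band_eq_true, band_eq_true, bn_iff, Nat.ble_eq, popc_eq hv] at e
    have hf := apV_spec hT s.1
    have hx : apV w n Ts s.1 c < n := hf c hc ▸ S.ap_lt _ hc
    obtain ⟨rows', b1, b2⟩ := rowsJ_spec e.2
    obtain ⟨σ, hσ⟩ := exists_AT (lab := lab) (j := j) h0 (evalW (gn S Ts) s.1)
    have hf' : ∀ i < n, apV w n Ts s.1 i = U.ap σ i := fun i hi => (hf i hi).trans (hσ i).symm
    have s0 : σ ∈ U.st 0 := fun _ => (hσ 0).trans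
      (evalW_mem (K := S.st 0) (fun l _ => (nd_prop In.one hT l).el_mem) h0)
    have a := ih b1 (K := U.st (apV w n Ts s.1 c) ⊓ K) (inf_le_right.trans hK)
      (fun i hi => (bt_sb.1 hi).elim (fun c => ⟨(hF i c).1, fun g hg => (hF i c).2 g hg.2⟩) fun c => by rw [c]; exact ⟨hx, fun g hg => hg.1 hx⟩)
      fun p hp g hg y hy => (b2 p hp).elim (fun d => hR p d g hg.2 y hy) fun ⟨i, d⟩ => by
        rw [d, bt_row_ap hf' hy, bt_row_ap hf' (U.ap_lt _ hy), ← hl (σ⁻¹ * g * σ) ⟨(U.st 0).mul_mem ((U.st 0).mul_mem ((U.st 0).inv_mem s0) (hK hg.2)) s0, fun _ => by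
          rw [U.ap_mul _ _ hc, ← hf' c hc, U.ap_mul _ _ hx, hg.1 hx, hf' c hc, U.ap_inv_ap _ hc]⟩ (U.ap σ⁻¹ y) (U.ap_lt _ hy),
          U.ap_mul _ _ (U.ap_lt _ hy), U.ap_ap_inv _ hy, U.ap_mul _ _ hy]
    rw [List.map_cons, List.prod_cons, ← ncard_orb (T := U) K hx]
    refine Nat.mul_le_mul (le_trans (Set.ncard_le_ncard ?_ ((Set.finite_lt_nat _).subset fun i hi => hi.1)) e.1.2) a
    rintro _ ⟨g, hg, rfl⟩
    exact ⟨(U.ap_lt _ hx).trans_le hr, k hF hR _ hx e.1.1 g hg⟩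

theorem aut2 (h0 : 0 < n) {c : ℕ} (hc : c < n) {lab' : ℕ → ℕ}
    (hl : ∀ g ∈ (AT S lab j).st 0 ⊓ (AT S lab j).st c, ∀ y < n, lab' ((AT S lab j).ap g y) = lab' y) {Ts js : List ℕ}
    (hT : ∀ t ∈ Ts, S.In (S.st 0) t) {v r R0 : ℕ} (e0 : ∀ y < n, Rel S lab j 0 y ↔ bt R0 y = true) (hv : r + 1 < 2 ^ v) (hr : n ≤ v * r)
    {st : List (List ℕ × ℕ)} (e : aut2Ok w n v r Ts lab' js c st [(0, R0)] (sb 0 0) = true) :
    Nat.card (AutR S lab j) ≤ n * (st.map Prod.snd).prod := by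
  rw [← Subgroup.card_top, ← ncard_orb (T := AT S lab j) ⊤ h0, inf_top_eq]
  refine Nat.mul_le_mul ((Set.ncard_le_ncard (t := Finset.range n) ?_).trans (by simp)) (aut2_aux h0 hc hl hT hv hr e le_rfl
    (fun i hi => by rw [(bt_sb.1 hi).resolve_left bt_zero]; exact ⟨h0, fun g hg => hg h0⟩) (List.forall_mem_singleton.2 fun g hg y hy => ?_))
  · rintro _ ⟨g, -, rfl⟩
    exact mem_coe.2 (mem_range.2 (TS.ap_lt _ g h0))
  · rw [← e0 y hy, ← e0 _ (TS.ap_lt _ g hy), ← g.2 0 h0 y hy]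
    exact iff_of_eq (congrArg (Rel S lab j · _) (hg h0).symm)

end

end H14.R3
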