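import Mathlib
import Cfsg.Agent.H14.R3e

/-!
The last step of the recognition of a rank 3 group when the neighbours form several orbits (namespace `H14.R3`): `cls'`, `finish'`,
`sepOk`, `aut3Ok`, `aut3`.
-/

set_option autoImplicit false

namespace H14.R3
open H13 H14.PK H14.PK.TS H27.MG H27.PKx H14.XS MulAction Finset

variable {H Ω : Type*} [Group H] [MulAction H Ω] {w n : ℕ} {T : TS H w n} {K : Subgroup H} {D : Finset ℕ} {lab rep sz : ℕ → ℕ} {s : ℕ}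

theorem cls' {Z : Set Ω} {pt : ℕ → Ω} (I : Idn T D Z pt) (L : Lab T K D lab rep s) (hsz : ∀ j < s, cntL n lab (j + 1) = sz j)
    {Q : Ω → Prop} (hQ : ∀ g ∈ K, ∀ y, Q (g • y) ↔ Q y) {Y : ℕ}
    (hu : ∀ X ∈ (range s).powerset, ∑ i ∈ X, sz i = {y | y ∈ Z ∧ Q y}.ncard → ∀ j < s, j ∈ X ↔ bt Y (j + 1) = true) :
    ∀ i ∈ D, Q (pt i) ↔ bt Y (lab i) = true := by
  classical
  have k : ∀ g ∈ K, ∀ i ∈ D, Q (pt (T.ap g i)) ↔ Q (pt i) := fun g hg i hi => by rw [I.eqv g i hi, hQ g hg]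
  have e := L.card (Q := fun i => Q (pt i)) k
  rw [I.card Q, sum_congr rfl fun i hi => if_congr Iff.rfl (hsz i (mem_range.1 hi)) rfl, ← sum_filter] at e
  intro i hi
  obtain ⟨y, p, q, -⟩ := L.conn i hi
  rw [L.iff_rep (Q := fun i => Q (pt i)) k hi, q, ← hu _ (mem_powerset.2 (filter_subset _ _)) e.symm y p, mem_filter, mem_range,
    and_iff_right p, Nat.add_sub_cancel]

theorem finish' [Finite Ω] {Γ : SimpleGraph Ω} {a : Ω} (hA : ∀ (g : H) x y, Γ.Adj (g • x) (g • y) ↔ Γ.Adj x y)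
    {R : ℕ → ℕ → Prop} (hR : ∀ g, ∀ x < n, ∀ y < n, R (T.ap g x) (T.ap g y) ↔ R x y) (hs : ∀ x < n, ∀ y < n, R x y → R y x) (h0 : 0 < n)
    {E : Finset ℕ} (hD : ∀ i < n, R 0 i ↔ i ∈ D) (hE : ∀ i < n, i ∈ E ↔ i ≠ 0 ∧ i ∉ D) (h1 : 0 ∉ D) {q : ℕ → Ω}
    (J : Idn T E {y | y ≠ a ∧ ¬ Γ.Adj a y} q) {c : ℕ} (hc : c ∈ E) (tc : ∀ i ∈ E, ∃ g, T.ap g c = i)
    (r3 : ∀ i ∈ E, Γ.Adj (q c) (q i) ↔ R c i) {β : ℕ} (hβ : β < n) (tb : ∀ i, i ∈ D ↔ ∃ g, T.ap g β = i) {b : Ω}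
    (hb : orbit H b = {y | Γ.Adj a y}) (hk : (orbit H b).ncard = D.card) (r2 : ∀ i ∈ E, Γ.Adj b (q i) ↔ R β i)
    (L : Lab T (T.st β) D lab rep s) (hsz : ∀ j < s, cntL n lab (j + 1) = sz j)
    (sep : ∀ j < s, rep j = β ∨ ∃ i ∈ E, ¬ (R (rep j) i ↔ R β i)) {Y : ℕ}
    (hu : ∀ X ∈ (range s).powerset, ∑ i ∈ X, sz i = (Γ.commonNeighbors a b).ncard → ∀ j < s, j ∈ X ↔ bt Y (j + 1) = true)
    (r1 : ∀ i ∈ D, bt Y (lab i) = true ↔ R β i) :
    ∃ Ψ : ℕ → Ω, Set.BijOn Ψ {i | i < n} Set.univ ∧ ∀ x < n, ∀ y < n, Γ.Adj (Ψ x) (Ψ y) ↔ R x y := by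
  obtain ⟨p, I, rfl⟩ := exists_idn hβ tb (c := b) (fun g hg => by
    have d := (tb _).2 ⟨g, rfl⟩
    have u : ∀ g ∈ T.st β, ∀ x ∈ D, (∀ i ∈ E, R (T.ap g x) i ↔ R β i) → ∀ i ∈ E, R x i ↔ R β i := fun g hg x hx h i hi => by
      rw [← hR g x (L.lt hx) i (J.lt i hi), h _ (J.inv g i hi), ← hR g β hβ i (J.lt i hi), hg hβ]
    obtain ⟨y, b1, -, x, b2, b3⟩ := L.conn _ d
    have v := u x b2 _ (L.rep_in b1) fun i hi => by
      rw [b3, ← T.ap_ap_inv g (J.lt i hi), hR g β hβ _ (T.ap_lt _ (J.lt i hi)), ← r2 _ (J.inv _ i hi),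
        ← r2 _ (J.inv _ _ (J.inv _ i hi)), J.eqv g _ (J.inv _ i hi), ← hA g b, hg]
    obtain e | ⟨i, hi, e⟩ := sep y b1
    · rw [← b3, e, b2 hβ]
    · exact absurd (v i hi) e) hk
  rw [hb] at I
  have hβ' := (tb _).2 ⟨1, T.ap_one hβ⟩
  have x := cls' I L hsz (Q := Γ.Adj (p β)) (fun g hg y => by rw [← hA g (p β) y, ← I.eqv g β hβ', hg hβ]) hu
  exact glue hA hR hs h0 hD hE h1 I J hβ' hc (fun i hi => (tb i).1 hi) tc (fun i hi => (x i hi).trans (r1 i hi)) r2 r3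

/-- each representative other than `β` has a row differing from `B` on the mask -/
noncomputable def sepOk (w n : ℕ) (Ls : List ℕ) (lab : ℕ → ℕ) (j M β B : ℕ) (reps : List ℕ) (us : List (List ℕ × ℕ)) : Bool :=
  allLt (fun i => bor (Nat.beq (nd 0 reps i) β) (force (nd ([], 0) us i).2 fun x => band (band (Nat.blt x n) (bt M x))
    (band (Nat.beq (apV w n Ls (nd ([], 0) us i).1 0) (nd 0 reps i)) (bx (bt (row n lab j (apV w n Ls (nd ([], 0) us i).1)) x) (bt B x)))))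
    reps.length

theorem sep_of {S : TS H w n} {j M β B : ℕ} (h0 : 0 < n) (hl : ∀ g ∈ S.st 0, ∀ i < n, lab (S.ap g i) = lab i) {Ls reps : List ℕ}
    (hL : ∀ t ∈ Ls, S.In ⊤ t) (hB : ∀ y < n, Rel S lab j β y ↔ bt B y = true) {us : List (List ℕ × ℕ)}
    (e : sepOk w n Ls lab j M β B reps us = true) :
    ∀ i < reps.length, nd 0 reps i = β ∨ ∃ x ∈ msk n M, ¬ (Rel S lab j (nd 0 reps i) x ↔ Rel S lab j β x) := fun i hi => by
  refine (bor_eq_true.1 (allLt_iff.1 e i hi)).imp Nat.eq_of_beq_eq_true fun a => ?_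
  rw [force_eq] at a
  simp only [band_eq_true, Nat.blt_eq, Nat.beq_eq, bx_iff] at a
  exact ⟨_, mem_msk.2 a.1, by rw [hB _ a.1.1, ← a.2.1, ← rel_row h0 hl (apV_spec hL _) a.1.1]; exact a.2.2⟩

/-- the values on `range n` increase -/
noncomputable def incN (key : ℕ → ℕ) (n : ℕ) : ℕ → Bool :=
  Nat.rec (fun _ => true) (fun i ih m => force (key i) fun k => band (Nat.blt k m) (ih k)) n

theorem incN_spec {key : ℕ → ℕ} {n m : ℕ} (e : incN key n m = true) : (∀ i < n, key i < m) ∧ ∀ j < n, ∀ i < j, key i < key j := by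
  induction n generalizing m with
  | zero => simp
  | succ n ih =>
    have e : force (key n) (fun k => band (Nat.blt k m) (incN key n k)) = true := e
    rw [force_eq, band_eq_true, Nat.blt_eq] at e
    obtain ⟨a, b⟩ := ih e.2
    exact ⟨fun i hi => (Nat.lt_succ_iff_lt_or_eq.1 hi).elim (fun c => (a i c).trans e.1) (· ▸ e.1),
      fun j hj => (Nat.lt_succ_iff_lt_or_eq.1 hj).elim (b j) (· ▸ a)⟩

/-- the column of a point as a number -/
noncomputable def keyR (rows : List (ℕ × ℕ)) (y : ℕ) : ℕ :=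
  List.rec 0 (fun p _ ih => Nat.add (Nat.mul ih 2) (Bool.rec 0 1 (bt p.2 y))) rows

/-- the rows separate the points -/
noncomputable def splOk (w n P : ℕ) (rows : List (ℕ × ℕ)) : Bool := force P fun P =>
  band (force (ti w n P) fun Q => allLt (fun y => force (get w Q y) fun i => band (Nat.blt i n) (Nat.beq (get w P i) y)) n)
    (incN (fun i => force (get w P i) (keyR rows)) n (p2 rows.length))

theorem spl_spec {P : ℕ} {rows : List (ℕ × ℕ)} {x y : ℕ} (e : splOk w n P rows = true) (hx : x < n) (hy : y < n)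
    (h : ∀ p ∈ rows, bt p.2 x = true ↔ bt p.2 y = true) : x = y := by
  have k : keyR rows x = keyR rows y := by
    clear e
    induction rows with
    | nil => rfl
    | cons p rows ih =>
      obtain ⟨a, b⟩ := List.forall_mem_cons.1 h
      exact congrArg₂ (fun u v => Nat.add (Nat.mul u 2) (Bool.rec 0 1 v)) (ih b) (Bool.eq_iff_iff.2 a)
  simp only [splOk, force_eq, band_eq_true, allLt_iff, Nat.blt_eq, Nat.beq_eq] at e
  obtain ⟨a, b⟩ := e.1 x hx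
  obtain ⟨c, d⟩ := e.1 y hy
  rw [← b, ← d] at k ⊢
  obtain t | t | t := lt_trichotomy (get w (ti w n P) x) (get w (ti w n P) y)
  · exact absurd k ((incN_spec e.2).2 _ c _ t).ne
  · rw [t]
  · exact absurd k ((incN_spec e.2).2 _ a _ t).ne'

section
variable {M : Type*} [Group M] {S : TS M w n} {j : ℕ}

/-- bounds for the orbits along a base -/
noncomputable def aut3Ok (w n v r : ℕ) (Ts : List ℕ) (lab : ℕ → ℕ) (js : List ℕ) (c P : ℕ) (st : List (List ℕ × ℕ)) :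
    List (ℕ × ℕ) → ℕ → Bool :=
  List.rec (fun rows _ => splOk w n P rows)
    (fun s _ ih rows F => force (apV w n Ts s.1 c) fun x => band (band (bn (bt F x)) (Nat.ble (popc v r (cand n rows F x)) s.2))
      (force (sb F x) fun F => rowsJ n lab (apV w n Ts s.1) (fun rows => ih rows F) js rows)) st

theorem aut3_aux (h0 : 0 < n) {c : ℕ} (hc : c < n) {lab' : ℕ → ℕ}
    (hl : ∀ g ∈ (AT S lab j).st 0 ⊓ (AT S lab j).st c, ∀ y < n, lab' ((AT S lab j).ap g y) = lab' y) {Ts js : List ℕ}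
    (hT : ∀ t ∈ Ts, S.In (S.st 0) t) {v r : ℕ} (hv : r + 1 < 2 ^ v) (hr : n ≤ v * r) {st : List (List ℕ × ℕ)} {rows : List (ℕ × ℕ)} {F P : ℕ}
    (e : aut3Ok w n v r Ts lab' js c P st rows F = true) {K : Subgroup (AutR S lab j)} (hK : K ≤ (AT S lab j).st 0)
    (hF : ∀ i, bt F i = true → i < n ∧ ∀ g ∈ K, (AT S lab j).ap g i = i)
    (hR : ∀ p ∈ rows, ∀ g ∈ K, ∀ y < n, bt p.2 ((AT S lab j).ap g y) = true ↔ bt p.2 y = true) :
    Nat.card K ≤ (st.map Prod.snd).prod := by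
  set U := AT S lab j
  have k : ∀ {rows : List (ℕ × ℕ)} {F : ℕ} {K : Subgroup (AutR S lab j)}, (∀ i, bt F i = true → i < n ∧ ∀ g ∈ K, U.ap g i = i) →
      (∀ p ∈ rows, ∀ g ∈ K, ∀ y < n, bt p.2 (U.ap g y) = true ↔ bt p.2 y = true) → ∀ x < n, ¬ bt F x = true → ∀ g ∈ K,
      (cand n rows F x).testBit (U.ap g x) = true := fun hF hR x hx a g hg =>
    bt_cand (U.ap_lt _ hx) (fun c => a (U.ap_inj g (hF _ c).1 hx ((hF _ c).2 g hg) ▸ c)) fun p hp => hR p hp g hg x hx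
  induction st generalizing rows F K with
  | nil =>
    exact (Subgroup.card_eq_one.2 (eq_bot_iff.2 fun g hg => U.faith g fun i hi =>
      spl_spec e (U.ap_lt g hi) hi fun p hp => hR p hp g hg i hi)).le
  | cons s st ih =>
    have e : force (apV w n Ts s.1 c) (fun x => band (band (bn (bt F x)) (Nat.ble (popc v r (cand n rows F x)) s.2))
      (force (sb F x) fun F => rowsJ n lab' (apV w n Ts s.1) (fun rows => aut3Ok w n v r Ts lab' js c P st rows F) js rows)) = true := e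
    rw [force_eq, force_eq, band_eq_true, band_eq_true, bn_iff, Nat.ble_eq, popc_eq hv] at e
    have hf := apV_spec hT s.1
    have hx : apV w n Ts s.1 c < n := hf c hc ▸ S.ap_lt _ hc
    obtain ⟨rows', b1, b2⟩ := rowsJ_spec e.2
    obtain ⟨σ, hσ⟩ := exists_AT (lab := lab) (j := j) h0 (evalW (gn S Ts) s.1)
    have hf' : ∀ i < n, apV w n Ts s.1 i = U.ap σ i := fun i hi => (hf i hi).trans (hσ i).symm
    have s0 : σ ∈ U.st 0 := fun _ => (hσ 0).trans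
      (evalW_mem (K := S.st 0) (fun l _ => (nd_prop In.one hT l).el_mem) h0)
    have a := ih b1 (K := U.st (apV w n Ts s.1 c) ⊓ K) (inf_le_right.trans hK)
      (fun i hi => (bt_sb.1 hi).elim (fun c => ⟨(hF i c).1, fun g hg => (hF i c).2 g hg.2⟩) fun c => by rw [c]; exact ⟨hx, fun g hg => hg.1 hx⟩)
      fun p hp g hg y hy => (b2 p hp).elim (fun d => hR p d g hg.2 y hy) fun ⟨i, d⟩ => by
        rw [d, bt_row_ap hf' hy, bt_row_ap hf' (U.ap_lt _ hy), ← hl (σ⁻¹ * g * σ) ⟨(U.st 0).mul_mem ((U.st 0).mul_mem ((U.st 0).inv_mem s0) (hK hg.2)) s0, fun _ => by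
          rw [U.ap_mul _ _ hc, ← hf' c hc, U.ap_mul _ _ hx, hg.1 hx, hf' c hc, U.ap_inv_ap _ hc]⟩ (U.ap σ⁻¹ y) (U.ap_lt _ hy),
          U.ap_mul _ _ (U.ap_lt _ hy), U.ap_ap_inv _ hy, U.ap_mul _ _ hy]
    rw [List.map_cons, List.prod_cons, ← ncard_orb (T := U) K hx]
    refine Nat.mul_le_mul (le_trans (Set.ncard_le_ncard ?_ ((Set.finite_lt_nat _).subset fun i hi => hi.1)) e.1.2) a
    rintro _ ⟨g, hg, rfl⟩
    exact ⟨(U.ap_lt _ hx).trans_le hr, k hF hR _ hx e.1.1 g hg⟩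

theorem aut3 (h0 : 0 < n) {c : ℕ} (hc : c < n) {lab' : ℕ → ℕ}
    (hl : ∀ g ∈ (AT S lab j).st 0 ⊓ (AT S lab j).st c, ∀ y < n, lab' ((AT S lab j).ap g y) = lab' y) {Ts js : List ℕ}
    (hT : ∀ t ∈ Ts, S.In (S.st 0) t) {v r R0 P : ℕ} (e0 : ∀ y < n, Rel S lab j 0 y ↔ bt R0 y = true) (hv : r + 1 < 2 ^ v) (hr : n ≤ v * r)
    {st : List (List ℕ × ℕ)} (e : aut3Ok w n v r Ts lab' js c P st [(0, R0)] (sb 0 0) = true) :
    Nat.card (AutR S lab j) ≤ n * (st.map Prod.snd).prod := by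
  rw [← Subgroup.card_top, ← ncard_orb (T := AT S lab j) ⊤ h0, inf_top_eq]
  refine Nat.mul_le_mul ((Set.ncard_le_ncard (t := Finset.range n) ?_).trans (by simp)) (aut3_aux h0 hc hl hT hv hr e le_rfl
    (fun i hi => by rw [(bt_sb.1 hi).resolve_left bt_zero]; exact ⟨h0, fun g hg => hg h0⟩) (List.forall_mem_singleton.2 fun g hg y hy => ?_))
  · rintro _ ⟨g, -, rfl⟩
    exact mem_coe.2 (mem_range.2 (TS.ap_lt _ g h0))
  · rw [← e0 y hy, ← e0 _ (TS.ap_lt _ g hy), ← g.2 0 h0 y hy]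
    exact iff_of_eq (congrArg (Rel S lab j · _) (hg h0).symm)

end

end H14.R3
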