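import Mathlib
import Cfsg.Agent.H14.RK
import Cfsg.Agent.H14.MKit

/-!
Relations between positive words in `Co0` (namespace `H14.RK`): the test `fE` by matrices (`sndE`), `le_cardE`, `noStemE`.
-/

namespace H14.RK

open H13 Cfsg

/-- a word as an expression -/
noncomputable def exW (u : List ℕ) : Ex :=
  List.rec (.pow (.g 0) 0) (fun l t e => List.rec (.g l) (fun _ _ _ => .mul (.g l) e) t) u

theorem ev_exW {G : Type*} [Group G] (g : ℕ → G) (u : List ℕ) : (exW u).ev g = evalW g u := by
  induction u with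
  | nil => exact pow_zero _
  | cons l t ih => cases t with
    | nil => exact (mul_one _).symm
    | cons a t => exact congrArg (g l * ·) ih

/-- test by matrices -/
noncomputable def fE (Ms : List (List ℕ)) (u v : List ℕ) : Bool := eqE Ms (exW u) (exW v)

variable {Ms : List (List ℕ)}

theorem sndE (hM : allL matOk Ms = true) : Snd (genM Ms) (fE Ms) := fun u v e => by
  rw [← ev_exW, ← ev_exW]; exact eqE_spec hM e

theorem rel_res_all {G : Type*} [Group G] {g : ℕ → G} {E : RL} {K : Subgroup G} (h : Rel g E) (hK : ∀ i, g i ∈ K) :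
    Rel (res K g) E := fun x hx => Subtype.ext (by rw [coe_evalW_res fun i _ => hK i, coe_evalW_res fun i _ => hK i, h x hx])

theorem card_res {G : Type*} [Group G] {g : ℕ → G} {K : Subgroup G} {s : Set ℕ} (hK : ∀ i ∈ s, g i ∈ K) :
    Nat.card (Subgroup.closure (res K g '' s)) = Nat.card (Subgroup.closure (g '' s)) := by
  rw [← Subgroup.card_map_of_injective K.subtype_injective, MonoidHom.map_closure, Set.image_image]
  exact congrArg (fun t => Nat.card (Subgroup.closure t)) (Set.image_congr fun i hi => coe_res (hK i hi))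

/-- check of a chain for some of the matrices -/
noncomputable def lowE (w n : ℕ) (X : List ℕ) (Ms vs : List (List ℕ)) (Ns : List Net) (lv : List Lvl) (N : ℕ) : Bool :=
  band (vecsOk w n X) (band (sys2Ok w n X Ms vs Ns) (band (chainOk w n Ns [] lv) (Nat.beq N (chainProd lv))))

theorem le_cardE (hM : allL matOk Ms = true) {a m N w n : ℕ} {X : List ℕ} {vs : List (List ℕ)} {Ns : List Net} {lv : List Lvl}
    (e : lowE w n X ((Ms.drop a).take m) vs Ns lv N = true) :
    N ≤ Nat.card (Subgroup.closure ((fun i => genM Ms (a + i)) '' Set.Iio m)) := by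
  simp only [lowE, band_iff, Nat.beq_eq] at e
  obtain ⟨e1, e2, e3, rfl⟩ := e
  refine (le_card_clM (sys2 (vecsOk_spec e1) (allL_iff.2 fun M h => allL_iff.1 hM M
    (List.mem_of_mem_drop (List.mem_of_mem_take h))) e2) e3).trans (Subgroup.card_le_of_le (clM_le fun M h => ?_))
  obtain ⟨i, hi, rfl⟩ := List.mem_take_iff_getElem.1 h
  simp only [List.length_drop, lt_min_iff] at hi
  refine Subgroup.subset_closure ⟨i, hi.1, ?_⟩
  simp only [List.getElem_drop]
  rw [genM_getD (by omega), List.getD_eq_getElem]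

theorem noStemE (hM : allL matOk Ms = true) {K : Subgroup Co0} (hK : ∀ M ∈ Ms, coM M ∈ K) {D : H15.PC} {Q : Prop}
    (ns : H15.PcRel D (res K (genM Ms)) → D.p ^ D.n ≤ Nat.card (Subgroup.closure (res K (genM Ms) '' Set.Iio D.n)) → Q)
    (c : Chk (fE Ms) (pcE D)) {w n : ℕ} {X : List ℕ} {vs : List (List ℕ)} {Ns : List Net} {lv : List Lvl}
    (e : lowE w n X ((Ms.drop 0).take D.n) vs Ns lv (D.p ^ D.n) = true) : Q :=
  ns (rel_res_all (c.rel (sndE hM)) (genM_mem hK)).pcRel
    (by rw [card_res fun i _ => genM_mem hK i]; simpa using le_cardE hM e)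

end H14.RK
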