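import Mathlib
import Cfsg.Agent.H14.RK2
import Cfsg.Agent.H14.RKC

/-!
Central covers of subgroups of `Co0` (namespace `H14.RK`): `Snd.res`, `top_res`, `le_card_res`; codes: `ok_ss`, `neS`.
-/

namespace H14.RK

open H13 Cfsg

theorem Snd.res {G : Type*} [Group G] {g : ℕ → G} {f : List ℕ → List ℕ → Bool} {K : Subgroup G} (h : Snd g f)
    (hK : ∀ i, g i ∈ K) : Snd (res K g) f := fun u v e =>
  Subtype.ext (by rw [coe_evalW_res fun i _ => hK i, coe_evalW_res fun i _ => hK i, h u v e])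

theorem top_res {A B : List ℕ} {R : List (List ℕ)} {K : Subgroup Co0} (hK : ∀ M ∈ A :: B :: R, coM M ∈ K) (h : K = clM [A, B]) :
    cl (res K (genM (A :: B :: R))) [0, 1] = ⊤ := by
  apply Subgroup.map_injective K.subtype_injective
  rw [map_cl, ← MonoidHom.range_eq_map, Subgroup.range_subtype]
  refine le_antisymm (cl_le fun i _ => Subtype.property _) (h.le.trans (clM_le ?_))
  simp only [List.mem_cons, List.not_mem_nil, or_false, forall_eq_or_imp, forall_eq]
  exact ⟨Subgroup.subset_closure ⟨0, by simp, coe_res (genM_mem hK 0)⟩, Subgroup.subset_closure ⟨1, by simp, coe_res (genM_mem hK 1)⟩⟩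

theorem le_card_res {Ms : List (List ℕ)} (hM : allL matOk Ms = true) {K : Subgroup Co0} (hK : ∀ M ∈ Ms, coM M ∈ K)
    {a m N w n : ℕ} {X : List ℕ} {vs : List (List ℕ)} {Ns : List Net} {lv : List Lvl}
    (e : lowE w n X ((Ms.drop a).take m) vs Ns lv N = true) :
    N ≤ Nat.card (Subgroup.closure ((fun i => res K (genM Ms) (a + i)) '' Set.Iio m)) :=
  (le_cardE hM e).trans (card_res (g := fun i => genM Ms (a + i)) (K := K) fun _ _ => genM_mem hK _).ge

variable {G : Type*} [Group G] {mul : ℕ → ℕ → ℕ} {one : ℕ} {wf : ℕ → Bool} {lc : List ℕ}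

/-- all the letters are codes of group elements -/
theorem ok_ss (S : H15.Sem G mul one wf) {lv : List SL} {ds : List (List ℕ × ℕ × List ℕ)} (h : allL wf lc = true)
    (h0 : ∀ i ∈ gsOf lv, S.ok (H15.nthD one lc i)) (c1 : Chk (fS mul one lc) (ssE lv)) (c2 : Chk (fS mul one lc) (defE ds []))
    (e : force (defM ds (ssM lv)) (fun M => H13.allLt (PK.bt M) lc.length) = true) : ∀ c ∈ lc, S.ok c :=
  ok_all S ((ok_defs S h c2).defM (ssM_prop (fun l hl => ok_defs S h (ssE_defs c1 l hl)) h0)) e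

theorem neS {R ι : Type*} [CommRing R] [Fintype ι] [DecidableEq ι] {n W : ℕ} {app : ℕ → ℕ → ℕ → ℕ → ℕ}
    {wfT : ℕ → ℕ → ℕ → Bool} (V : H15.VCod R ι n W app wfT) (h1 : wfT W n one = true) (h2 : V.mat one = 1)
    (h : ∀ c ∈ lc, (V.sem h1 h2).ok c) {u : List ℕ}
    (e : PK.bn (Nat.beq (H15.prodW (H15.skp (app W n) one) one lc u) one) = true) : evalW ((V.sem h1 h2).gen lc) u ≠ 1 :=
  fun c => PK.bn_iff.1 e (Nat.beq_eq ▸ V.sem_inj h1 h2 ((V.sem h1 h2).prodW_spec h u).1 (V.sem h1 h2).ok_one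
    (((V.sem h1 h2).prodW_spec h u).2.trans (c.trans (V.sem h1 h2).val_one.symm)))

end H14.RK
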