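import Mathlib

/-! Subgroups of `GL(2, p)` that are regular on the non-zero vectors: `H14.reg2`. -/

namespace H14

open Matrix MulAction
open scoped Pointwise

/-- the entries of a matrix -/
def ent4 {R : Type*} (M : Matrix (Fin 2) (Fin 2) R) : R × R × R × R := (M 0 0, M 0 1, M 1 0, M 1 1)

/-- a table of pairs of residues -/
def tb2 (p w T : ℕ) (a b : ZMod p) : ℕ := Nat.land (Nat.shiftRight T (Nat.mul w (Nat.add a.val (Nat.mul p b.val)))) (Nat.pred (Nat.shiftLeft 1 w))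

theorem reg2 {p : ℕ} [Fact p.Prime] (S : Set (GL (Fin 2) (ZMod p))) (L : List (ZMod p × ZMod p × ZMod p × ZMod p))
    (hS : ∀ A ∈ S, ent4 A.1 ∈ L) (hL : ∀ x ∈ L, ∃ A ∈ S, ent4 A.1 = x) (f g : ZMod p → ZMod p → ZMod p) (D : ZMod p → ZMod p → ℕ)
    (h0 : f 1 0 = 0 ∧ g 1 0 = 1)
    (h1 : ∀ x ∈ L, ∀ a b, f (x.1 * a + x.2.1 * b) (x.2.2.1 * a + x.2.2.2 * b) = x.1 * f a b + x.2.1 * g a b ∧
      g (x.1 * a + x.2.1 * b) (x.2.2.1 * a + x.2.2.2 * b) = x.2.2.1 * f a b + x.2.2.2 * g a b)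
    (h2 : ∀ a b, (a = 0 ∧ b = 0) ∨ (a = 1 ∧ b = 0) ∨ ∃ x ∈ L, D (x.1 * a + x.2.1 * b) (x.2.2.1 * a + x.2.2.2 * b) < D a b) :
    Nat.card (Subgroup.closure S) = p ^ 2 - 1 ∧ ∀ v w : Fin 2 → ZMod p, v ≠ 0 → w ≠ 0 →
      ∃! h : Subgroup.closure S, mulVec ((h : GL (Fin 2) (ZMod p)) : Matrix (Fin 2) (Fin 2) (ZMod p)) v = w := by
  have mv : ∀ (A : GL (Fin 2) (ZMod p)) (v : Fin 2 → ZMod p), (A • v) 0 = A.1 0 0 * v 0 + A.1 0 1 * v 1 ∧
      (A • v) 1 = A.1 1 0 * v 0 + A.1 1 1 * v 1 := fun A v => by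
    constructor <;> simp [Units.smul_def, mulVec, dotProduct, Fin.sum_univ_two]
  have st : Subgroup.closure S ≤ stabilizer _ {x : (Fin 2 → ZMod p) × (Fin 2 → ZMod p) | x.2 0 = f (x.1 0) (x.1 1) ∧
      x.2 1 = g (x.1 0) (x.1 1)} := (Subgroup.closure_le _).2 fun A hA => by
    refine (mem_stabilizer_set_iff_smul_set_subset (Set.toFinite _)).2 ?_
    rintro _ ⟨x, hx, rfl⟩
    have := h1 _ (hS A hA) (x.1 0) (x.1 1)
    simp only [Set.mem_ofPred_eq, Prod.smul_fst, Prod.smul_snd, mv, hx.1, hx.2]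
    exact ⟨this.1.symm, this.2.symm⟩
  let e : Fin 2 → ZMod p := ![1, 0]
  have inj : ∀ h k : Subgroup.closure S, h.1 • e = k.1 • e → h = k := fun h k c => by
    have a : ∀ h : Subgroup.closure S, h.1.1 0 1 = f (h.1.1 0 0) (h.1.1 1 0) ∧ h.1.1 1 1 = g (h.1.1 0 0) (h.1.1 1 0) := fun h => by
      have h' := (mem_stabilizer_set' (Set.toFinite _)).1 (st h.2)
      have := @h' (e, ![0, 1]) ⟨h0.1.symm, h0.2.symm⟩
      simpa [mv, e] using this
    have b0 : h.1.1 0 0 = k.1.1 0 0 := by simpa [mv, e] using congrFun c 0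
    have b1 : h.1.1 1 0 = k.1.1 1 0 := by simpa [mv, e] using congrFun c 1
    refine Subtype.ext (Units.ext (Matrix.ext fun i j => ?_))
    fin_cases i <;> fin_cases j
    exacts [b0, by simpa [← b0, ← b1] using (a h).1.trans (by rw [b0, b1, ← (a k).1]), b1,
      by simpa using (a h).2.trans (by rw [b0, b1, ← (a k).2])]
  have tr : ∀ n, ∀ v : Fin 2 → ZMod p, D (v 0) (v 1) = n → v ≠ 0 → ∃ h : Subgroup.closure S, h.1 • e = v := by
    intro n
    induction n using Nat.strong_induction_on with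
    | _ n ih =>
      intro v hn hv
      rcases h2 (v 0) (v 1) with c | c | ⟨x, hx, c⟩
      · exact absurd (funext fun i => by fin_cases i; exacts [c.1, c.2]) hv
      · exact ⟨1, (one_smul _ _).trans (funext fun i => by fin_cases i; exacts [c.1.symm, c.2.symm])⟩
      · obtain ⟨A, hA, rfl⟩ := hL x hx
        obtain ⟨h, d⟩ := ih _ (hn ▸ c) (A • v) (by rw [(mv A v).1, (mv A v).2]; rfl) (by rwa [Ne, smul_eq_zero_iff_eq])
        exact ⟨⟨A, Subgroup.subset_closure hA⟩⁻¹ * h, by rw [Subgroup.coe_mul, mul_smul, d]; exact inv_smul_smul A v⟩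
  have he : e ≠ 0 := fun c => one_ne_zero (congrFun c 0)
  constructor
  · rw [Nat.card_congr (Equiv.ofBijective (fun h : Subgroup.closure S => (⟨h.1 • e, by rwa [Ne, smul_eq_zero_iff_eq]⟩ :
      {v : Fin 2 → ZMod p // v ≠ 0})) ⟨fun h k c => inj h k (congrArg Subtype.val c), fun v =>
        (tr _ v rfl v.2).imp fun _ c => Subtype.ext c⟩), Nat.card_eq_fintype_card, Fintype.card_subtype_compl]
    simp
  · intro v w hv hw
    obtain ⟨h, rfl⟩ := tr _ v rfl hv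
    obtain ⟨k, rfl⟩ := tr _ w rfl hw
    refine ⟨k * h⁻¹, ?_, fun l c => eq_mul_inv_of_mul_eq (inj _ _ ?_)⟩
    · change (k * h⁻¹).1 • h.1 • e = _
      rw [← mul_smul, ← Subgroup.coe_mul, inv_mul_cancel_right]
    · rw [Subgroup.coe_mul, mul_smul]; exact c

end H14
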