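import Mathlib
import Cfsg.Agent.H14.RuQ

/-! Kernel checks for the recognition of the Rudvalis group as a rank 3 group: the tables and their orbits. -/

set_option autoImplicit false
set_option maxRecDepth 100000
set_option synthInstance.maxSize 2000

namespace H14.RuR
open H13 H14.PK H14.PK.TS H27.PKx H27.MG H14.R3 H14.XS MulAction Cfsg

theorem lo : lowOk 12 4060 35942400 pr1 (Ps.map Prod.fst) lv = true := by decide +kernel

theorem e1 : slpOk 12 4060 Ts pr (Ps.map Prod.fst) = true := by decide +kernel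

theorem e2 : slpOk 12 4060 (Ps.map Prod.fst) [[1, 1, 0, 0, 1, 1, 1, 0, 0], [2, 2, 2, 2, 1, 2, 1, 2, 2, 1]] Ls = true := by decide +kernel

theorem e3 : lowOk 12 4060 20480 [[1, 0, 1, 0, 0, 1, 1, 0, 1, 1, 1, 0], [1, 1, 1, 1, 1, 2, 2, 2, 1, 1, 1, 1], [0, 1, 1], [0, 0]] ks [(2306, [4, 5]), (3330, [3, 2]), (2307, [1]), (2308, [0])] = true := by decide +kernel

theorem e4 : H13.band (slpOk 11 1755 Fs [[2, 1, 0, 1, 3, 1, 0, 3], [0, 0, 4, 0, 0], [1, 5, 5, 5, 1, 5, 1], [0, 6, 1], [1, 2, 7], [3, 2, 3], [1, 1], [1, 2], [3, 4, 3], [1, 5], [6, 1], [4, 3, 3], [2, 2], [15, 14, 13, 15, 13, 15, 14, 13, 15, 15, 13, 12, 12, 16, 16, 8, 3, 2, 0], [16, 14, 16, 17, 15, 14, 16, 14, 16, 15, 14, 13, 13, 13, 11, 17, 17, 9, 5, 4]] H27.F42.Ls) (lowOk 11 1755 35942400 pr1 Fs [(0, [6, 7]), (1526, [5, 4]), (1, [3, 2]), (1527, [1]), (1596, [0])]) = true := by decide +kernel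

theorem e5 : H13.band (rstOk 12 4060 11 1755 Ot (lv.map Prod.fst) Ps)
    (H13.band (H27.PKx.permOk 11 1755 cF) (H27.MG.all2 (fun a b => Nat.beq (tm 11 1755 cF a) (tm 11 1755 b cF)) (Ps.map Prod.snd) Fs)) = true := by
  decide +kernel

theorem lG : labOk 12 4060 1 MG MG (Ps.map Prod.fst) [341] = true := by decide +kernel

theorem lD : labOk 12 4060 1 MD MD (Ps.map Prod.fst) [2305] = true := by decide +kernel

theorem lC : labOk 12 4060 3 MD LC ks [2305, 3330, 3844, 3331, 2306] = true := by decide +kernel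

theorem lB : labOk 12 4060 3 MG LB kb rB = true := by decide +kernel

theorem lA : labOk 12 4060 4 MA LA ks rA = true := by decide +kernel

theorem l5 : labOk 12 4060 7 MD L5 p5 r5 = true := by decide +kernel

theorem sz : (∀ j < 5, cntL 4060 (get 3 LC) (j + 1) = nd 0 [1, 10, 80, 640, 1024] j) ∧ ∀ j < 6, cntL 4060 (get 3 LB) (j + 1) = nd 0 [1, 78, 300, 300, 650, 975] j := by
  decide +kernel

theorem kb' : H13.band (Nat.beq (apV 12 4060 Ls [0, 1, 0, 0, 0, 0, 1, 0, 0, 1, 0] 0) 341) (Nat.beq (row 4060 (get 1 MG) 1 (apV 12 4060 Ls [0, 1, 0, 0, 0, 0, 1, 0, 0, 1, 0])) Rb) = true := by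
  decide +kernel

theorem kc' : H13.band (Nat.beq (apV 12 4060 Ls [0, 1, 1, 1, 0, 1, 1, 1, 1, 1, 1, 0] 0) 2305) (Nat.beq (row 4060 (get 1 MG) 1 (apV 12 4060 Ls [0, 1, 1, 1, 0, 1, 1, 1, 1, 1, 1, 0])) Rc) = true := by
  decide +kernel

end H14.RuR
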