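import Mathlib
import Cfsg.Agent.H14.RuQ

/-! Kernel checks for the recognition of the Rudvalis group as a rank 3 group: the search for the neighbours. -/

set_option autoImplicit false
set_option maxRecDepth 100000
set_option synthInstance.maxSize 2000

namespace H14.RuR
open H13 H14.PK H14.PK.TS H27.PKx H27.MG H14.R3 H14.XS MulAction Cfsg

theorem e6 : forceL Ts (fun Ts => srchOk 12 4060 10 406 2304 1328 1280 5 Ts (get 3 LC) (get 7 L5) 5 2305 75 I1 u1 sols t1) = true := by
  decide +kernel

theorem e7 : forceL Ts (fun Ts => bigOk 12 4060 MD X 2304 Ts [2792, 3518, 3419, 2572, 3062, 3541, 3275, 3586, 3494, 2439, 3545, 2331, 4020, 3265, 2836, 3433, 2784, 2697, 3773, 3268, 3412, 4018, 3430, 3280, 3118, 3613] ub) = true := by decide +kernel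

theorem e8 : H13.allL (fun x => H13.anyL (fun g => H13.bor (agr 4060 MD (fun i => bt x (get 7 L5 (get 12 g i))) (bt Rb))
    (agr 4060 MD (fun i => bt x (get 7 L5 (get 12 g i))) (bt X))) (idv 12 4060 :: gs)) sols = true := by decide +kernel

end H14.RuR
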