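import Mathlib
import Cfsg.Agent.H14.RuQ

/-! Kernel checks for the recognition of the Rudvalis group as a rank 3 group: the automorphism group. -/

set_option autoImplicit false
set_option maxRecDepth 100000
set_option synthInstance.maxSize 2000

namespace H14.RuR
open H13 H14.PK H14.PK.TS H27.PKx H27.MG H14.R3 H14.XS MulAction Cfsg

theorem e9 : forceL Ls (fun Ls => incK (sgK 12 4060 10 406 Ls (get 1 MG) 1 MG Rc) uA 0) = true := by decide +kernel

theorem e10 : forceL Ts (fun Ts => aut3Ok 12 4060 10 406 Ts (fun i => get 2 5680 (get 4 LA i)) [1, 2, 3] 2305 PA au [(0, MG)] (sb 0 0)) = true := by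
  decide +kernel

theorem e11 : forceL Ls (fun Ls => sepOk 12 4060 Ls (get 1 MG) 1 MD 341 Rb rB uB) = true := by decide +kernel

end H14.RuR
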