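import Cfsg.Agent.H26.JE

/-! The centraliser in `Q` of an element of order 5 is extraspecial. -/

set_option autoImplicit false
set_option linter.unusedSectionVars false
open Cfsg BG Subgroup H01.XS H01.XF Cfsg.Agent.H06.J
open H01.XT hiding Hy QS

namespace H14.S5E
universe u
variable {G : Type u} [Group G] [Finite G] {z : G} {Q : Subgroup G}
  {V : Type u} [AddCommGroup V] [Module (ZMod 2) V] [Finite V] {Γ : Type u} [Group Γ] [Finite Γ]
  {T : Γ → V →+ V} {d : Γ} {M : Subgroup Γ} {β : V →+ V →+ ZMod 2} {q : V → ZMod 2} {ν : G → V}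
  {f : C_[z] →* Γ} {π : G → Γ}

theorem βT (s : Bj z Q f π ν T d M β q) (g : Γ) (u v : V) : β (T g u) (T g v) = β u v := by
  have a := s.gm.pol (T g u) (T g v)
  rw [← map_add, s.gm.qT, s.gm.qT, s.gm.qT, s.gm.pol] at a
  exact (add_left_cancel a).symm

theorem fix (s : Bj z Q f π ν T d M β q) {σ : G} (i : σ ∈ C_[z]) (o : σ ^ 5 = 1) {r : G} (j : r ∈ Q)
    (e : T (π σ) (ν r) = ν r) : r ∈ C_[σ] := by
  have l := s.md.lx
  have k : σ * r * σ⁻¹ ∈ Q := le_norm_iff.1 l.norm σ i r j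
  rw [s.act σ i r j] at e
  have a : ν (σ * r * σ⁻¹ * r⁻¹) = 0 := by rw [s.md.mul _ k _ (inv_mem j), s.md.inv j, e]; exact lc (rfl : (0 : V) = 0)
  rcases (s.md.ker _ (mul_mem k (inv_mem j))).1 a with b | b
  · exact mem_centralizer_singleton_iff.2 (mul_inv_eq_iff_eq_mul.1 (mul_inv_eq_one.1 b)).symm
  · exfalso
    have c : σ * r = z * r * σ := by rw [← b]; group
    have cz : σ * z = z * σ := mem_centralizer_singleton_iff.1 i
    have p : ∀ n : ℕ, σ ^ n * r = z ^ n * r * σ ^ n := fun n => by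
      induction n with
      | zero => simp
      | succ n ih => rw [pow_succ' σ, mul_assoc, ih, ← mul_assoc, ← mul_assoc, (Commute.pow_right cz n).eq, mul_assoc (z ^ n), c,
          pow_succ z]; simp only [mul_assoc]
    have := p 5
    rw [o, one_mul, mul_one, eq_comm, mul_eq_right, ← orderOf_dvd_iff_pow_eq_one, l.aes.ord] at this
    omega

theorem cen (s : Bj z Q f π ν T d M β q) {σ : G} (i : σ ∈ C_[z]) (o : σ ^ 5 = 1) {x : G} (j : x ∈ Q ⊓ C_[σ])
    (k : ∀ r ∈ Q ⊓ C_[σ], Commute x r) : x = 1 ∨ x = z := by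
  have g := s.gm
  have y5 : ∀ v, T (π σ) (T (π σ) (T (π σ) (T (π σ) (T (π σ) v)))) = v := fun v => by
    have := g.one v
    rw [← show π σ ^ 5 = 1 from by
      rw [← s.pf ⟨σ, i⟩, ← map_pow, show (⟨σ, i⟩ : C_[z]) ^ 5 = 1 from Subtype.ext o, map_one]] at this
    simpa only [pow_succ, pow_zero, one_mul, g.mul] using this
  have fx : T (π σ) (ν x) = ν x := by
    rw [s.act σ i x j.1, ← mem_centralizer_singleton_iff.1 j.2, mul_inv_cancel_right]
  have b1 : ∀ v, β (ν x) (T (π σ) v) = β (ν x) v := fun v => by conv_lhs => rw [← fx, βT s]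
  refine (s.md.ker x j.1).1 (g.nd _ fun v => ?_)
  obtain ⟨r, m, e⟩ := s.md.sur (v + T (π σ) v + T (π σ) (T (π σ) v) + T (π σ) (T (π σ) (T (π σ) v)) +
    T (π σ) (T (π σ) (T (π σ) (T (π σ) v))))
  have a := (s.b x j.1 r m).2 (k r ⟨m, fix s i o m (by rw [e]; simp only [map_add, y5]; abel)⟩)
  rw [e] at a
  simp only [map_add, b1] at a
  revert a
  generalize β (ν x) v = t
  revert t
  decide

theorem ex (s : Bj z Q f π ν T d M β q) (σ : G) (i : σ ∈ C_[z]) (o : orderOf σ = 5) (c : Nat.card ↥(Q ⊓ C_[σ]) = 32) :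
    IsExtraspecial 2 ↥(Q ⊓ C_[σ]) := by
  have : Fact (Nat.Prime 2) := ⟨Nat.prime_two⟩
  have l := s.md.lx
  have o5 : σ ^ 5 = 1 := o ▸ pow_orderOf_eq_one σ
  have zc : z ∈ C_[σ] := mem_centralizer_singleton_iff.2 (mem_centralizer_singleton_iff.1 i).symm
  have hc : (Q ⊓ C_[σ]) ⊓ C_(Q ⊓ C_[σ]) ≤ zpowers z := fun x j => by
    rcases cen s i o5 j.1 (fun r k => (mem_centralizer_iff.1 j.2 r k).symm) with rfl | rfl
    exacts [one_mem _, mem_zpowers _]
  refine H04.isExtraspecial_of_aes ⟨l.aes.ord, ⟨l.aes.mem, zc⟩, centralizer_le (fun _ k => k.1) l.aes.cent,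
    fun x j y k => l.aes.comm x j.1 y k.1, fun x j => l.aes.pow x j.1⟩ hc fun k => ?_
  have a := card_le_of_le (le_trans (le_inf le_rfl (le_centralizer_iff_isMulCommutative.2 k)) hc)
  rw [c, Nat.card_zpowers, l.aes.ord] at a
  omega

end H14.S5E
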