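import Mathlib
import Cfsg.Agent.H10.Subf4
import Cfsg.Agent.H10.Ff
import Cfsg.Agent.H10.SfA

/-! Overgroups of `SU_4(q₀)` in `SU_4(q)`, odd index: `H14.su4_6`. -/

namespace H14.Su46

open Module H10 H10.Form

variable {F V : Type*} [Field F] [AddCommGroup V] [Module F V] {φ : Form F V}
  [φ.Nondeg] [FiniteDimensional F V] {K : Subfield F} {L : Submodule K V} {M : Subgroup φ.Isom}
  {p z y f u : V} {c d e s : F} {g k : φ.Isom}

theorem tv (hh : φ.IsHerm) (hz : φ.Q z = 0) (hs : φ.σ s = -s) (x : V) : (φ.siegel z 0 s).1 x = x - (s * φ.B z x) • z := by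
  rw [φ.siegel_apply hz (by simp) (by simp [hh.T_eq, hs]), hh.ε_eq]; simp

theorem sg (hh : φ.IsHerm) (hp : φ.Q p = 0) (hz : φ.Q z = 0) (h : φ.B p z = 0) (a : F) (hs : φ.σ s = -s) (x : V) :
    (φ.siegel p (a • z) s).1 x = x + (φ.σ a * φ.B z x - s * φ.B p x) • p - (φ.B p x * a) • z := by
  rw [φ.siegel_apply hp (by simp [h]) (by simp [hh.T_eq, hs, φ.Q_smul_of_sing hz]), hh.ε_eq, B_smul_left]; module

theorem self (hh : φ.IsHerm) (hp : φ.Q p = 0) (c : F) : InA M p (c • p) :=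
  ⟨by simp [φ.B_self_eq_zero hp], φ.σ c - c, by simp [hh.T_eq, φ.Q_smul_of_sing hp], by
    convert M.one_mem
    exact Isom.ext fun x => by rw [sg hh hp hp (φ.B_self_eq_zero hp) _ (by simp)]; simp; module⟩

theorem add (hh : φ.IsHerm) (hp : φ.Q p = 0) (h : InA M p u) (h' : InA M p z) : InA M p (u + z) := by
  simpa using h.sub hp ((self hh hp 0).sub hp h')

theorem ex1 (hh : φ.IsHerm) (hp : φ.Q p = 0) (hu : InA M p u) (hz : φ.Q z = 0) (h : φ.B z p = 0) (hs : φ.σ s = -s)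
    (m : φ.siegel z 0 s ∈ M) : InA M p ((s * φ.B z u) • z) := by
  have := hu.map hp m
  rw [tv hh hz hs, tv hh hz hs, h, mul_zero, zero_smul, sub_zero] at this
  simpa using hu.sub hp this

theorem tt (hh : φ.IsHerm) (hp : φ.Q p = 0) (hz : φ.Q z = 0) (h : φ.B p z = 0) (hs : φ.σ s = -s) (D : F) :
    φ.siegel (z - D • p) 0 s * φ.siegel z 0 (-s) = φ.siegel p ((-s * φ.σ D) • z) (s * D * φ.σ D) := Isom.ext fun x => by
  have h1 : φ.Q (z - D • p) = 0 := by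
    rw [sub_eq_add_neg, ← neg_smul, φ.Q_add_of_orth (by simp [φ.B_symm_zero h]), hz, φ.Q_smul_of_sing hp, add_zero]
  rw [Isom.mul_apply, tv hh h1 hs, tv hh hz (by simp [hs]), sg hh hp hz h _ (by simp [hs]; ring)]
  simp [h, hs, φ.B_self_eq_zero hz]
  module

variable (φ L) in
/-- a rational frame -/
structure Fr (p z y f : V) : Prop where
  m : p ∈ L ∧ z ∈ L ∧ y ∈ L ∧ f ∈ L
  q : φ.Q p = 0 ∧ φ.Q z = 0 ∧ φ.Q y = 0 ∧ φ.Q f = 0
  b : (φ.B p p = 0 ∧ φ.B p z = 0 ∧ φ.B p y = 0 ∧ φ.B p f = 1) ∧ (φ.B z p = 0 ∧ φ.B z z = 0 ∧ φ.B z y = 1 ∧ φ.B z f = 0) ∧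
    (φ.B y p = 0 ∧ φ.B y z = 1 ∧ φ.B y y = 0 ∧ φ.B y f = 0) ∧ φ.B f p = 1 ∧ φ.B f z = 0 ∧ φ.B f y = 0 ∧ φ.B f f = 0

omit [φ.Nondeg] [FiniteDimensional F V] in
theorem Fr.flip (a : Fr φ L p z y f) : Fr φ L y f p z := ⟨by simp [a.m], by simp [a.q], by simp [a.b]⟩

omit [φ.Nondeg] [FiniteDimensional F V] in
theorem Fr.swap (a : Fr φ L p z y f) : Fr φ L p y z f := ⟨by simp [a.m], by simp [a.q], by simp [a.b]⟩

omit [φ.Nondeg] [FiniteDimensional F V] in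
theorem Fr.rev (a : Fr φ L p z y f) : Fr φ L f z y p := ⟨by simp [a.m], by simp [a.q], by simp [a.b]⟩

omit [φ.Nondeg] [FiniteDimensional F V] in
theorem Fr.ne (a : Fr φ L p z y f) : p ≠ 0 := by rintro rfl; simpa using a.b

omit [φ.Nondeg] [FiniteDimensional F V] in
theorem Fr.nm (a : Fr φ L p z y f) : z ∉ F ∙ p := fun m => by
  obtain ⟨t, m⟩ := Submodule.mem_span_singleton.1 m
  simpa [a.b] using congrArg (φ.B y) m

omit [φ.Nondeg] in
theorem Fr.exp (a : Fr φ L p z y f) (hn : finrank F V = 4) (x : V) :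
    x = φ.B f x • p + φ.B y x • z + φ.B z x • y + φ.B p x • f := by
  let Φ : V →ₗ[F] (Fin 4 → F) := LinearMap.pi ![φ.B f, φ.B y, φ.B z, φ.B p]
  have h1 : Function.Surjective Φ := fun v => ⟨v 0 • p + v 1 • z + v 2 • y + v 3 • f, by
    ext i; fin_cases i <;> simp [Φ, a.b]⟩
  refine (LinearMap.injective_iff_surjective_of_finrank_eq_finrank (by simp [hn])).2 h1 ?_
  ext i; fin_cases i <;> simp [Φ, a.b]

omit [φ.Nondeg] [FiniteDimensional F V] in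
theorem sqK [Finite F] {k : F} (hk : k ∈ K) : ∃ a ∈ K, ∃ b ∈ K, k = a * a - b * b := by
  by_cases h : (2 : F) = 0
  · obtain ⟨a, ha⟩ := Finite.injective_iff_surjective.1 (show Function.Injective fun x : K => x * x from fun x y e =>
      Subtype.ext (sub_eq_zero.1 (mul_self_eq_zero.1 (by
        have : (x : F) * x = y * y := congrArg Subtype.val e
        linear_combination this + ((y : F) * y - x * y) * h)))) ⟨k, hk⟩
    exact ⟨a, a.2, 0, K.zero_mem, by simpa using congrArg Subtype.val ha.symm⟩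
  have h2 : (2 : F) ∈ K := by simp
  exact ⟨(k + 1) / 2, K.div_mem (K.add_mem hk K.one_mem) h2, (k - 1) / 2, K.div_mem (K.sub_mem hk K.one_mem) h2, by
    field_simp; ring⟩

variable (φ K L M) in
/-- the standing hypotheses -/
structure R4 (θ : F) : Prop where
  rat : φ.RatS K L
  herm : φ.IsHerm
  sing : ∀ W : Submodule K L, 2 ≤ finrank K W → ∃ v ∈ W, v ≠ 0 ∧ φ.Q v = 0
  dim : finrank F V = 4
  th : θ ∈ K
  th0 : θ - φ.σ θ ≠ 0
  mem : ∀ p ∈ L, ∀ w ∈ L, ∀ s ∈ K, φ.Q p = 0 → φ.B p w = 0 → φ.T s = φ.Q w → φ.siegel p w s ∈ M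

variable (L M) in
/-- coefficients of short root elements -/
def Cf (c : F) : Prop := ∀ p ∈ L, φ.Q p = 0 → p ≠ 0 → ∀ u ∈ L, φ.B p u = 0 → InA M p (c • u)

namespace R4
variable [Finite F] {θ : F} (h : R4 φ K L M θ)
include h

omit [φ.Nondeg] [FiniteDimensional F V] [Finite F] in
theorem dK : θ - φ.σ θ ∈ K := K.sub_mem h.th (h.rat.σ_mem _ h.th)

omit [φ.Nondeg] [FiniteDimensional F V] [Finite F] in
theorem tm (hz : z ∈ L) (q : φ.Q z = 0) (h1 : s ∈ K) (hs : φ.σ s = -s) : φ.siegel z 0 s ∈ M :=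
  h.mem z hz 0 L.zero_mem s h1 q (by simp) (by simp [h.herm.T_eq, hs])

theorem orth (hp : p ∈ L) (hf : f ∈ L) : ∃ z ∈ L, z ≠ 0 ∧ φ.Q z = 0 ∧ φ.B p z = 0 ∧ φ.B f z = 0 := by
  have := h.rat.nondeg
  have := RatS.finiteDim (L := L)
  obtain ⟨C, -, -, h3, h4⟩ := exists_le_orth (φ := h.rat.form) ⊤ ⊥ [⟨p, hp⟩, ⟨f, hf⟩]
  obtain ⟨e, h6, h7, h8⟩ := h.sing C (by simp [h.rat.rank, h.dim] at h4; omega)
  exact ⟨e, e.2, by simpa using h7, h8, congrArg Subtype.val (h3 e h6 ⟨p, hp⟩ (by simp)),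
    congrArg Subtype.val (h3 e h6 ⟨f, hf⟩ (by simp))⟩

theorem fr (hp : p ∈ L) (q : φ.Q p = 0) (p0 : p ≠ 0) (hz : z ∈ L) (q' : φ.Q z = 0) (h0 : φ.B p z = 0) (h1 : z ∉ F ∙ p) :
    ∃ y f, Fr φ L p z y f := by
  have S : ∀ {a b : V}, φ.B a b = 1 → φ.B b a = 1 := fun e => by rw [φ.symm, e, h.herm.ε_eq]; simp
  obtain ⟨w, a1, a2, a3⟩ := h.rat.exists_sep hz h1
  replace a2 := a2 p hp (Submodule.mem_span_singleton_self p)
  obtain ⟨t, b1, b2⟩ := h.rat.isHyp_of_B hz a1 q' (S a3)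
  have b3 : w + t • z ∈ L := L.add_mem a1 (RatS.smul_mem b1 hz)
  have b4 : φ.B p (w + t • z) = 0 := by simp [h0, φ.B_symm_zero a2]
  generalize w + t • z = y at b2 b3 b4
  obtain ⟨w, c1, c2, c3⟩ := h.rat.exists_sep (W := Submodule.span F {z, y}) hp fun m => by
    obtain ⟨i, j, m⟩ := Submodule.mem_span_pair.1 m
    obtain rfl : j = 0 := by simpa [b2.Bee, b2.Bef, φ.B_symm_zero h0] using congrArg (φ.B z) m
    exact not_mem_span_singleton_symm p0 h1 (Submodule.mem_span_singleton.2 ⟨i, by simpa using m⟩)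
  obtain ⟨t', d1, d2⟩ := h.rat.isHyp_of_B hp c1 q (S c3)
  have d3 : φ.B (w + t' • p) z = 0 := by simp [h0, c2 z hz (Submodule.subset_span (by simp))]
  have d4 : φ.B (w + t' • p) y = 0 := by simp [b4, c2 y b3 (Submodule.subset_span (by simp))]
  exact ⟨y, _, ⟨hp, hz, b3, L.add_mem c1 (RatS.smul_mem d1 hp)⟩, ⟨q, q', b2.Qf, d2.Qf⟩, ⟨d2.Bee, h0, b4, d2.Bef⟩,
    ⟨φ.B_symm_zero h0, b2.Bee, b2.Bef, φ.B_symm_zero d3⟩, ⟨φ.B_symm_zero b4, S b2.Bef, b2.Bff, φ.B_symm_zero d4⟩,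
    S d2.Bef, d3, d4, d2.Bff⟩

theorem fr1 (hp : p ∈ L) (q : φ.Q p = 0) (p0 : p ≠ 0) : ∃ z y f, Fr φ L p z y f := by
  obtain ⟨f, hf, a⟩ := h.rat.exists_partner hp q p0
  obtain ⟨z, h1, h2, h3, h4, h5⟩ := h.orth hp hf
  refine ⟨z, h.fr hp q p0 h1 h3 h4 fun m => ?_⟩
  obtain ⟨t, rfl⟩ := Submodule.mem_span_singleton.1 m
  simp [a.Bfe, φ.ε_ne_zero] at h5
  simp [h5] at h2

theorem fr0 : ∃ p z y f, Fr φ L p z y f :=
  let ⟨p, a, b, c, _⟩ := h.orth L.zero_mem L.zero_mem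
  ⟨p, h.fr1 a c b⟩

omit [Finite F] in
theorem weyl (a : Fr φ L p z y f) (hu : InA M p (c • z)) {t : F} (ht : t ∈ K) (t0 : t ≠ 0) :
    InA M y (-(c * (t⁻¹ * t⁻¹)) • f) := by
  have t1 : φ.σ t ≠ 0 := by simpa using t0
  have m1 := h.mem p a.m.1 _ (RatS.smul_mem ht a.m.2.1) 0 K.zero_mem a.q.1 (by simp [a.b]) (by simp [φ.Q_smul_of_sing a.q.2.1])
  have m2 := h.mem f a.m.2.2.2 _ (RatS.smul_mem (K.inv_mem (h.rat.σ_mem _ ht)) a.m.2.2.1) 0 K.zero_mem a.q.2.2.2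
    (by simp [a.b]) (by simp [φ.Q_smul_of_sing a.q.2.2.1])
  have e1 := sg h.herm a.q.1 a.q.2.1 a.b.1.2.1 t (s := 0) (by simp)
  have e2 := sg h.herm a.q.2.2.2 a.q.2.2.1 a.b.2.2.2.2.2.1 (φ.σ t)⁻¹ (s := 0) (by simp)
  have := hu.map a.q.1 (M.mul_mem m1 (M.mul_mem m2 m1))
  have e3 : (φ.siegel p (t • z) 0 * (φ.siegel f ((φ.σ t)⁻¹ • y) 0 * φ.siegel p (t • z) 0)).1 p = (-(φ.σ t)⁻¹) • y := by
    simp [e1, e2, a.b]
    match_scalars <;> field_simp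
    ring
  have e4 : (φ.siegel p (t • z) 0 * (φ.siegel f ((φ.σ t)⁻¹ • y) 0 * φ.siegel p (t • z) 0)).1 z = t⁻¹ • f := by
    simp [e1, e2, a.b]
    match_scalars <;> field_simp
    ring
  rw [e3, map_smul, e4] at this
  simpa [smul_smul, mul_comm, mul_left_comm] using this.of_smul a.q.2.2.1 (by simpa using t0)

theorem sc (a : Fr φ L p z y f) (hu : InA M p (c • z)) {t : F} (ht : t ∈ K) : InA M p ((c * t) • z) := by
  have H : ∀ t ∈ K, InA M p ((c * (t * t)) • z) := fun t ht => by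
    by_cases t0 : t = 0
    · simpa [t0] using self (M := M) h.herm a.q.1 0
    simpa using h.weyl a.flip (h.weyl a hu (K.inv_mem ht) (inv_ne_zero t0)) K.one_mem one_ne_zero
  obtain ⟨i, hi, j, hj, rfl⟩ := sqK ht
  simpa [mul_sub, sub_smul] using (H i hi).sub a.q.1 (H j hj)

theorem at1 (a : Fr φ L p z y f) (hu : InA M p (c • z)) : ∀ u ∈ L, φ.B p u = 0 → InA M p (c • u) := fun u m e => by
  have h1 := h.sc a hu (h.rat.B_mem _ a.m.2.2.1 _ m)
  have h2 := ex1 h.herm a.q.1 (h.sc a hu (K.div_mem (h.rat.B_mem _ a.m.2.1 _ m) h.dK)) a.q.2.2.1 a.b.2.2.1.1 (by simp)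
    (h.tm a.m.2.2.1 a.q.2.2.1 h.dK (by simp))
  convert add h.herm a.q.1 (add h.herm a.q.1 (self h.herm a.q.1 (c * φ.B f u)) h1) h2 using 1
  have := h.th0
  conv_lhs => rw [a.exp h.dim u]
  simp only [e, map_smul, a.b, smul_eq_mul]
  match_scalars <;> field_simp
  ring

theorem step (hp : p ∈ L) (q : φ.Q p = 0) (p0 : p ≠ 0) (hz : z ∈ L) (q' : φ.Q z = 0) (h0 : φ.B p z = 0) (h1 : z ∉ F ∙ p)
    (H : ∀ u ∈ L, φ.B p u = 0 → InA M p (c • u)) : ∀ u ∈ L, φ.B z u = 0 → InA M z (c • u) := by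
  obtain ⟨y, f, a⟩ := h.fr hp q p0 hz q' h0 h1
  refine h.at1 a.swap.flip ?_
  simpa using h.sc a.swap.flip (h.weyl a.swap (H y a.m.2.2.1 a.b.1.2.2.1) K.one_mem one_ne_zero) (K.neg_mem K.one_mem)

theorem cf_of (a : Fr φ L p z y f) (hu : InA M p (c • z)) : Cf L M c := fun v hv q v0 => by
  have H := h.at1 a hu
  by_cases i : φ.B p v = 0
  · by_cases j : v ∈ F ∙ p
    · obtain ⟨t, rfl⟩ := Submodule.mem_span_singleton.1 j
      refine h.step a.m.2.1 a.q.2.1 a.swap.flip.ne hv q (by simp [a.b]) (fun m => ?_)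
        (h.step a.m.1 a.q.1 a.ne a.m.2.1 a.q.2.1 a.b.1.2.1 a.nm H)
      obtain ⟨r, m⟩ := Submodule.mem_span_singleton.1 m
      exact v0 (by rw [show t = 0 by simpa [a.b, eq_comm] using congrArg (φ.B f) m, zero_smul])
    · exact h.step a.m.1 a.q.1 a.ne hv q i j H
  obtain ⟨w, h1, h2, h3, h4, h5⟩ := h.orth a.m.1 hv
  refine h.step h1 h3 h2 hv q (φ.B_symm_zero h5) (fun m => ?_) (h.step a.m.1 a.q.1 a.ne h1 h3 h4 (fun m => ?_) H) <;>
    obtain ⟨r, rfl⟩ := Submodule.mem_span_singleton.1 m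
  · simp [h4] at i
  · simp [φ.B_eq_zero_comm.not.1 i] at h5
    simp [h5] at h2

omit [φ.Nondeg] [FiniteDimensional F V] [Finite F] in
theorem cf_K (hc : c ∈ K) : Cf L M c := fun p hp q _ u hu e =>
  let ⟨s, h1, h2⟩ := h.rat.half _ (RatS.smul_mem hc hu)
  ⟨by simp [e], s, h2, h.mem p hp _ (RatS.smul_mem hc hu) s h1 q (by simp [e]) h2⟩

omit h [φ.Nondeg] [FiniteDimensional F V] [Finite F] in
theorem cf_mulK (hc : Cf L M c) (hd : d ∈ K) : Cf L M (c * d) := fun p hp q p0 u hu e => by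
  simpa [mul_smul] using hc p hp q p0 _ (RatS.smul_mem hd hu) (by simp [e])

omit h [Finite F] in
theorem cf_sub (hc : Cf L M c) (hd : Cf L M d) : Cf L M (c - d) := fun p hp q p0 u hu e => by
  simpa [sub_smul] using (hc p hp q p0 u hu e).sub q (hd p hp q p0 u hu e)

omit h [Finite F] in
theorem tv_of (a : Fr φ L p z y f) (hc : Cf L M c) (hd : Cf L M d) : φ.siegel p 0 (φ.σ c * d - φ.σ d * c) ∈ M := by
  obtain ⟨h1, s, h2, h3⟩ := hc p a.m.1 a.q.1 a.ne z a.m.2.1 a.b.1.2.1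
  obtain ⟨h4, t, h5, h6⟩ := hd p a.m.1 a.q.1 a.ne y a.m.2.2.1 a.b.1.2.2.1
  have := M.mul_mem (M.mul_mem (M.mul_mem h3 h6) (M.inv_mem h3)) (M.inv_mem h6)
  rw [← commutatorElement_def, siegel_commutator a.q.1 h1 h2 h4 h5] at this
  simpa [a.b, mul_comm] using this

theorem cf_mul (hc : Cf L M c) (hd : Cf L M d) (he : Cf L M e) : Cf L M (φ.σ c * d * e) := by
  obtain ⟨p, z, y, f, a⟩ := h.fr0
  have H : ∀ d, Cf L M d → Cf L M ((φ.σ c * d - φ.σ d * c) * e) := fun d hd => h.cf_of a (by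
    simpa [a.b] using ex1 h.herm a.q.1 (he p a.m.1 a.q.1 a.ne y a.m.2.2.1 a.b.1.2.2.1) a.q.2.1 a.b.2.1.1
      (by simp [mul_comm]) (tv_of a.swap.flip hc hd))
  convert cf_mulK (cf_sub (H _ (cf_mulK hd h.th)) (cf_mulK (H _ hd) (h.rat.σ_mem _ h.th))) (K.inv_mem h.dK) using 1
  have := h.th0
  rw [map_mul]; field_simp; ring

theorem E_le (hc : ∀ c, Cf L M c) : φ.E ≤ M := by
  have key : ∀ {p z y f}, Fr φ L p z y f → φ.Full M p := fun {p z y f} a => by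
    have hX : ∀ t, φ.T t = 0 → φ.siegel p 0 t ∈ M := fun t ht => by
      rw [h.herm.T_eq] at ht
      convert tv_of a (hc (t / (θ - φ.σ θ))) (hc θ) using 2
      have := h.th0
      rw [map_div₀, map_sub, σ_σ, eq_neg_of_add_eq_zero_right ht, ← neg_sub θ, neg_div_neg_eq]; field_simp
    refine full_of_le_sgSub (hp := a.q.1) (hX := hX) fun w hw => ⟨φ.mem_perp_singleton.1 hw, fun c => And.right (a := φ.B p (c • w) = 0) ?_⟩
    convert add h.herm a.q.1 (add h.herm a.q.1 (self (M := M) h.herm a.q.1 (c * φ.B f w))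
      (hc (c * φ.B y w) p a.m.1 a.q.1 a.ne z a.m.2.1 a.b.1.2.1)) (hc (c * φ.B z w) p a.m.1 a.q.1 a.ne y a.m.2.2.1 a.b.1.2.2.1) using 0
    change InA M p _ ↔ _
    refine iff_of_eq (congrArg _ ?_)
    conv_lhs => rw [a.exp h.dim w]
    rw [φ.mem_perp_singleton.1 hw]; module
  obtain ⟨p, z, y, f, a⟩ := h.fr0
  exact E_le_of_full (key a) a.q.1 (key a.rev) a.q.2.2.2 (by simp [a.b])

theorem cases (hK : (finrank K F).Prime) : φ.E ≤ M ∨ ∀ c, Cf L M c → c ∈ K := by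
  have := Subalgebra.isSimpleOrder_of_finrank_prime K F hK
  have h1 := h.cf_K K.one_mem
  let A : Subalgebra K F :=
    { carrier := {c | Cf L M c}
      mul_mem' := fun a b => by simpa using h.cf_mul (h.cf_mul a h1 h1) b h1
      add_mem' := fun a b => by simpa using cf_sub a (cf_sub (h.cf_K K.zero_mem) b)
      algebraMap_mem' := fun c => h.cf_K c.2 }
  rcases eq_bot_or_eq_top A with h0 | h0
  · exact Or.inr fun c hc => by
      obtain ⟨a, rfl⟩ := Algebra.mem_bot.1 (h0.le hc)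
      exact a.2
  · exact Or.inl (h.E_le fun c => (h0.ge Algebra.mem_top : c ∈ A))

/-- isometries which are rational up to a scalar -/
def rt : Subgroup φ.Isom where
  carrier := {g | ∃ c : F, c ≠ 0 ∧ ∀ x ∈ L, c • g.1 x ∈ L}
  one_mem' := ⟨1, one_ne_zero, fun x hx => by simpa using hx⟩
  mul_mem' := fun ⟨c, c0, a⟩ ⟨d, d0, b⟩ => ⟨c * d, mul_ne_zero c0 d0, fun x hx => by
    simpa [mul_smul] using a _ (b x hx)⟩
  inv_mem' := fun {g} ⟨c, c0, a⟩ => ⟨φ.σ c, by simpa using c0, fun x hx => h.rat.mem_of_B fun y hy => by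
    rw [B_smul_left, σ_σ, ← Isom.B_map g, Isom.apply_inv_apply, ← smul_eq_mul, ← map_smul]
    exact h.rat.B_mem _ hx _ (a y hy)⟩

theorem map_of_fix (hg : g ∈ h.rt) (hp : p ∈ L) (p0 : p ≠ 0) (e : g.1 p = p) : ∀ x ∈ L, g.1 x ∈ L := fun x hx => by
  obtain ⟨c, c0, a⟩ := hg
  obtain ⟨w, i, -, b⟩ := h.rat.exists_sep (W := ⊥) hp p0
  have := RatS.smul_mem (K.inv_mem (show c ∈ K by simpa [b, e] using h.rat.B_mem _ i _ (a p hp))) (a x hx)
  rwa [inv_smul_smul₀ c0] at this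

section
variable (hc : ∀ c, Cf L M c → c ∈ K)
include hc

theorem hU (hp : p ∈ L) (q : φ.Q p = 0) (p0 : p ≠ 0) (hu : InA M p u) : ∃ d : F, u + d • p ∈ L := by
  obtain ⟨z, y, f, a⟩ := h.fr1 hp q p0
  have H : ∀ {z y}, Fr φ L p z y f → φ.B z u ∈ K := fun a => mem_of_mul_mem (hc _ (h.cf_of a
    (ex1 h.herm q hu a.q.2.1 a.b.2.1.1 (by simp) (h.tm a.m.2.1 a.q.2.1 h.dK (by simp))))) h.dK h.th0
  refine ⟨-φ.B f u, ?_⟩
  convert L.add_mem (RatS.smul_mem (H a.swap) a.m.2.1) (RatS.smul_mem (H a) a.m.2.2.1) using 1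
  conv_lhs => rw [a.exp h.dim u]
  simp [hu.1, a.b]; abel

theorem pt1 (hk : k ∈ M) (a : Fr φ L p z y f) (c0 : c ≠ 0) (e : c • k.1 p ∈ L) : c • k.1 z ∈ L := by
  have q : φ.Q (c • k.1 p) = 0 := φ.Q_smul_of_sing (by simpa using a.q.1) c
  have p0 : c • k.1 p ≠ 0 := by simpa [c0] using a.ne
  have c1 : φ.σ c ≠ 0 := by simpa using c0
  have H : ∀ u ∈ L, φ.B p u = 0 → ∃ d : F, (φ.σ c)⁻¹ • k.1 u + d • c • k.1 p ∈ L := fun u i j => h.hU hc e q p0 (by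
    simpa using InA.of_smul q (inv_ne_zero c0) (u := k.1 u) (by
      simpa [c0] using (h.cf_K K.one_mem p a.m.1 a.q.1 a.ne u i j).map a.q.1 hk))
  obtain ⟨d, hd⟩ := H z a.m.2.1 a.b.1.2.1
  obtain ⟨d', hd'⟩ := H y a.m.2.2.1 a.b.1.2.2.1
  have c2 : φ.σ c * c ∈ K := by simpa [a.b, mul_comm] using K.inv_mem (h.rat.B_mem _ hd _ hd')
  obtain ⟨D, hD⟩ : ∃ D : F, c • k.1 z + D • c • k.1 p ∈ L := ⟨φ.σ c * c * d, by
    convert RatS.smul_mem c2 hd using 1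
    match_scalars <;> field_simp⟩
  have b1 : φ.B (c • k.1 p) (c • k.1 z + D • c • k.1 p) = 0 := by simp [a.b]
  have q1 : φ.Q (c • k.1 z + D • c • k.1 p) = 0 := by
    rw [φ.Q_add_of_orth (by simp [a.b]), φ.Q_smul_of_sing q, φ.Q_smul_of_sing (by simpa using a.q.2.1), add_zero]
  have s1 : φ.σ ((θ - φ.σ θ) / (φ.σ c * c)) = -((θ - φ.σ θ) / (φ.σ c * c)) := by
    rw [map_div₀, map_sub, map_mul, σ_σ, σ_σ, mul_comm c, ← neg_div, neg_sub]
  have s2 := K.div_mem h.dK c2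
  have s3 := div_ne_zero h.th0 (mul_ne_zero c1 c0)
  have m := siegel_conj_mem hk a.q.2.1 (by simp) (by simp [h.herm.T_eq]) (h.tm a.m.2.1 a.q.2.1 h.dK (by simp))
  have m1 := siegel_smul (p := k.1 z) (w := 0) (by simpa using a.q.2.1) (by simp) (by simp [h.herm.T_eq, s1] :
    φ.T ((θ - φ.σ θ) / (φ.σ c * c)) = _) c
  rw [mul_div_cancel₀ _ (mul_ne_zero c1 c0), smul_zero] at m1
  rw [map_zero, ← m1] at m
  generalize (θ - φ.σ θ) / (φ.σ c * c) = s at s1 s2 s3 m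
  have m2 := tt h.herm q q1 b1 s1 D
  rw [add_sub_cancel_right] at m2
  obtain ⟨y', f', a'⟩ := h.fr e q p0 hD q1 b1 fun i => by
    obtain ⟨t, i⟩ := Submodule.mem_span_singleton.1 i
    simpa [a.b, c0.symm] using congrArg (φ.B (k.1 y)) i
  have m3 := hc _ (h.cf_of a' ⟨by simp [a.b], _, by rw [φ.Q_smul_of_sing q1]; simp [h.herm.T_eq, s1]; ring,
    m2 ▸ M.mul_mem m (h.tm hD q1 (K.neg_mem s2) (by simp [s1]))⟩)
  simpa using L.sub_mem hD (RatS.smul_mem (show D ∈ K by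
    simpa using h.rat.σ_mem _ (mem_of_mul_mem m3 (K.neg_mem s2) (by simpa using s3))) e)

theorem pt (hk : k ∈ M) (hp : p ∈ L) (q : φ.Q p = 0) (p0 : p ≠ 0) (c0 : c ≠ 0) (e : c • k.1 p ∈ L) : k ∈ h.rt := by
  obtain ⟨z, y, f, a⟩ := h.fr1 hp q p0
  have h1 := h.pt1 hc hk a c0 e
  refine ⟨c, c0, fun x hx => ?_⟩
  convert L.add_mem (L.add_mem (L.add_mem (RatS.smul_mem (h.rat.B_mem _ a.m.2.2.2 _ hx) e)
    (RatS.smul_mem (h.rat.B_mem _ a.m.2.2.1 _ hx) h1)) (RatS.smul_mem (h.rat.B_mem _ a.m.2.1 _ hx) (h.pt1 hc hk a.swap c0 e)))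
    (RatS.smul_mem (h.rat.B_mem _ hp _ hx) (h.pt1 hc hk a.swap.flip c0 h1)) using 1
  conv_lhs => rw [a.exp h.dim x]
  simp only [map_add, map_smul]; module

theorem lemT (hg : g ∈ M) (hp : p ∈ L) (q : φ.Q p = 0) (p0 : p ≠ 0) (hz : z ∈ L) (q' : φ.Q z = 0) (z0 : z ≠ 0)
    (e : φ.B (g.1 p) z = 0) : g ∈ h.rt := by
  have a := siegel_conj_mem hg q (by simp) (by simp [h.herm.T_eq]) (h.tm hp q h.dK (by simp))
  rw [map_zero] at a
  have t := tv h.herm (z := g.1 p) (s := θ - φ.σ θ) (by simpa using q) (by simp)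
  have b : (φ.siegel (g.1 p) 0 (θ - φ.σ θ)).1 z = z := by simp [t, e]
  obtain ⟨x, i, j⟩ : ∃ x ∈ L, φ.B (g.1 p) x ≠ 0 := by
    by_contra! H; exact p0 (by simpa using φ.eq_zero_of_B_left (h.rat.B_eq_zero H))
  exact h.pt hc hg hp q p0 (mul_ne_zero h.th0 j) (by
    simpa [t] using sub_mem i (h.map_of_fix (h.pt hc a hz q' z0 one_ne_zero (by rwa [b, one_smul])) hz z0 b x i))

end

omit h in
/-- the data of an elementary abelian group of rational quadratic elements -/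
structure Qd (h : R4 φ K L M θ) (W : Submodule F V) (η : Multiplicative K →* φ.Isom) : Prop where
  mem : ∀ a, η a ∈ M
  rt : ∀ a, η a ∈ h.rt
  sub : ∀ a v, (η a).1 v - v ∈ W
  fix : ∀ a, ∀ v ∈ W, (η a).1 v = v
  se : ∀ a ≠ 1, ∀ g ∈ M, g⁻¹ * η a * g ∈ h.rt → g ∈ h.rt

omit h [φ.Nondeg] [FiniteDimensional F V] [Finite F] in
/-- the two-step filtration -/
def fl2 (W : Submodule F V) : ℕ → AddSubgroup V | 0 => ⊤ | 1 => W.toAddSubgroup | _ => ⊥

omit h in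
theorem Qd.sum {h : R4 φ K L M θ} [Fintype K] {q₀ : ℕ} (hq : Nat.card K = q₀ ^ 2) {W η} (a : h.Qd W η) (Y : V →+ V) (x : V) :
    (∑ t, Ff.cj (DistribMulAction.toAddMonoidEnd M V) (η.codRestrict M a.mem t) Y) x ∈ W := by
  have := Fintype.ofFinite F
  obtain ⟨p, hp⟩ := CharP.exists F
  have p1 := CharP.char_is_prime F p
  have H : Ff.Fl (DistribMulAction.toAddMonoidEnd M V) (η.codRestrict M a.mem).range (fl2 W) :=
    ⟨fun _ => trivial, antitone_nat_of_succ_le fun | 0 => le_top | 1 => bot_le | _ + 2 => le_rfl, by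
      rintro _ ⟨t, rfl⟩ (_ | _ | _) x hx
      exacts [a.sub t x, sub_eq_zero.2 (a.fix t x hx), by rw [show x = 0 from hx, map_zero, sub_zero]; exact zero_mem _]⟩
  refine Ff.hm_top (Φ := fl2 W) (d := 1) (fun _ => trivial) ((H.hom (d := 1) fun _ hx => hx).sum_mem p1
      (fun Y => AddMonoidHom.ext fun x => by simp [← Nat.cast_smul_eq_nsmul F]) (fun x => by
        ext; simp) (fun n hn => ?_) _ (fun t => ⟨t, rfl⟩) Y) x
  have : p ∣ Fintype.card K := (CharP.cast_eq_zero_iff K p _).1 (FiniteField.cast_card_eq_zero K)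
  rw [Nat.card_eq_fintype_card] at hq
  have := (Nat.pow_dvd_pow_iff_le_right p1.one_lt).1 (show p ^ 2 ∣ p ^ n by
    rw [← hn, hq]; exact pow_dvd_pow_of_dvd (p1.dvd_of_dvd_pow (hq ▸ this)) 2)
  exact this.trans (Nat.le_mul_of_pos_right _ (by have := p1.two_le; omega))

theorem exists_proj : ∃ N : V →+ V, (∀ v, N v ∈ L) ∧ (∀ v ∈ L, N v = v) ∧
    ∀ s : φ.Isom, (∀ x ∈ L, s.1 x ∈ L) → (∀ x ∈ L, (s⁻¹).1 x ∈ L) → ∀ v, s.1 (N ((s⁻¹).1 v)) = N v := by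
  have := h.rat.nondeg
  have := RatS.finiteDim (L := L)
  obtain ⟨l, hl⟩ := (Algebra.linearMap K F).exists_leftInverse_of_injective
    (LinearMap.ker_eq_bot.2 (algebraMap K F).injective)
  replace hl : ∀ a ∈ K, (l a : F) = a := fun a ha => congrArg Subtype.val (LinearMap.congr_fun hl ⟨a, ha⟩)
  choose N hN using fun v => h.rat.form.exists_B_eq (l ∘ₗ ((φ.B v).restrictScalars K) ∘ₗ L.subtype)
  replace hN : ∀ v, ∀ x ∈ L, φ.B (N v) x = l (φ.B v x) := fun v x hx => congrArg Subtype.val (LinearMap.congr_fun (hN v) ⟨x, hx⟩)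
  have ext : ∀ a b, (∀ x ∈ L, φ.B a x = φ.B b x) → a = b := fun a b H => sub_eq_zero.1 (φ.eq_zero_of_B_left
    (h.rat.B_eq_zero fun x hx => by simp [H x hx]))
  exact ⟨.mk' (fun v => N v) fun a b => ext _ _ fun x hx => by simp [hN _ x hx], fun v => (N v).2,
    fun v hv => ext _ _ fun x hx => by simp [hN _ x hx, hl _ (h.rat.B_mem _ hv _ hx)], fun s a b v => ext _ _ fun x hx => by
      rw [← Isom.B_map s⁻¹, Isom.inv_apply_apply]
      exact (hN _ _ (b x hx)).trans (by rw [Isom.B_map]; exact (hN _ x hx).symm)⟩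

variable (sq : ∀ g ∈ M, g ∈ h.rt → ∀ x ∈ L, g.1 x ∈ L)
include sq

theorem fin {q₀ : ℕ} (hq : Nat.card K = q₀ ^ 2) {W W' η η'} (a : h.Qd W η) (b : h.Qd W' η') (hd : ∀ x ∈ W, x ∈ W' → x = 0)
    (hg : g ∈ M) : g ∈ h.rt := by
  have := Fintype.ofFinite K
  have := Module.finite_of_finite F (M := V)
  have : Finite M := Finite.of_injective (fun g : M => (g.1.1 : V → V)) fun _ _ e => Subtype.ext (Isom.ext (congrFun e))
  obtain ⟨N, n1, n2, n3⟩ := h.exists_proj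
  let Φ : Submodule F V → AddSubgroup (V →+ V) := fun W =>
    ⟨⟨⟨{Y | ∀ x, Y x ∈ W}, fun a b x => add_mem (a x) (b x)⟩, fun _ => zero_mem _⟩, fun a x => neg_mem (a x)⟩
  have := Ff.fixed (Ff.cj (DistribMulAction.toAddMonoidEnd M V)) (h.rt.subgroupOf M) (η.codRestrict M a.mem)
    (η'.codRestrict M b.mem) a.rt b.rt (fun t i g => a.se t i g g.2) (fun t i g => b.se t i g g.2) (X₁ := Φ W) (X₂ := Φ W')
    (fun Y i j => AddMonoidHom.ext fun x => hd _ (i x) (j x)) (a.sum hq) (b.sum hq) (N := N)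
    (fun s hs => AddMonoidHom.ext (n3 s (sq _ s.2 hs) (sq _ (inv_mem s.2) (inv_mem hs)))) ⟨g, hg⟩
  refine ⟨1, one_ne_zero, fun x hx => ?_⟩
  have e : g.1 (N ((g⁻¹).1 (g.1 x))) = N (g.1 x) := DFunLike.congr_fun this (g.1 x)
  rw [Isom.inv_apply_apply, n2 x hx] at e
  rw [one_smul, e]; exact n1 _

theorem qd (hc : ∀ c, Cf L M c → c ∈ K) (a : Fr φ L p z y f) : ∃ η, h.Qd (Submodule.span F {p, z}) η := by
  have b0 : ∀ t : F, φ.B p (t • z) = 0 := fun t => by simp [a.b]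
  have t0 : ∀ t : F, φ.T 0 = φ.Q (t • z) := fun t => by simp [φ.Q_smul_of_sing a.q.2.1]
  let η : Multiplicative K →* φ.Isom := .mk' (fun t => φ.siegel p ((t.toAdd : F) • z) 0) fun s t => by
    simp [φ.siegel_mul a.q.1 (b0 _) (t0 _) (b0 _) (t0 _), add_smul, a.b]
  have e : ∀ t x, (η t).1 x - x = (φ.σ (t.toAdd : F) * φ.B z x) • p + (-(φ.B p x * t.toAdd)) • z :=
    fun t x => by simp [η, sg h.herm a.q.1 a.q.2.1 a.b.1.2.1 _ (s := 0) (by simp)]; module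
  have m : ∀ t, η t ∈ M := fun t => h.mem p a.m.1 _ (RatS.smul_mem t.toAdd.2 a.m.2.1) _ K.zero_mem a.q.1 (b0 _) (t0 _)
  refine ⟨η, m, fun t => ⟨1, one_ne_zero, fun x hx => ?_⟩,
    fun t v => Submodule.mem_span_pair.2 ⟨_, _, (e t v).symm⟩, fun t v hv => ?_, fun t a1 g hg H => ?_⟩
  · rw [one_smul, eq_add_of_sub_eq (e t x)]
    exact L.add_mem (L.add_mem (RatS.smul_mem (K.mul_mem (h.rat.σ_mem _ t.toAdd.2) (h.rat.B_mem _ a.m.2.1 _ hx)) a.m.1)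
      (RatS.smul_mem (K.neg_mem (K.mul_mem (h.rat.B_mem _ a.m.1 _ hx) t.toAdd.2)) a.m.2.1)) hx
  · obtain ⟨i, j, rfl⟩ := Submodule.mem_span_pair.1 hv
    exact sub_eq_zero.1 (by rw [e]; simp [a.b])
  obtain ⟨x, i, j⟩ : ∃ x ∈ L, (g⁻¹ * η t * g).1 x - x ≠ 0 := by
    by_contra! H
    have := h.rat.mem_of_le (A := LinearMap.ker ((g⁻¹ * η t * g).1.toLinearMap - LinearMap.id))
      (fun x hx => LinearMap.mem_ker.2 (H x hx)) ((g⁻¹).1 f)
    simp only [LinearMap.mem_ker, LinearMap.sub_apply, LinearEquiv.coe_coe, Isom.mul_apply, Isom.apply_inv_apply,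
      LinearMap.id_apply, ← map_sub, map_eq_zero_iff _ (g⁻¹).1.injective, e] at this
    exact a1 (Multiplicative.toAdd.injective (by simpa [a.b] using congrArg (φ.B y) this))
  have o : (g⁻¹ * η t * g).1 x - x = (g⁻¹).1 ((η t).1 (g.1 x) - g.1 x) := by
    rw [map_sub, Isom.mul_apply, Isom.mul_apply, Isom.inv_apply_apply]
  refine (Subgroup.inv_mem_iff _).1 (h.lemT hc (inv_mem hg) a.m.1 a.q.1 a.ne
    (sub_mem (sq _ (mul_mem (mul_mem (inv_mem hg) (m t)) hg) H x i) i) ?_ j ?_) <;> rw [o, e]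
  · rw [Isom.Q_map, φ.Q_add_of_orth (by simp [a.b]), φ.Q_smul_of_sing a.q.1, φ.Q_smul_of_sing a.q.2.1, add_zero]
  · rw [Isom.B_map]; simp [a.b]

theorem main {q₀ : ℕ} (hq : Nat.card K = q₀ ^ 2) (hK : (finrank K F).Prime) : φ.E ≤ M ∨ M ≤ h.rt :=
  (h.cases hK).imp_right fun hc g hg => by
    obtain ⟨p, z, y, f, a⟩ := h.fr0
    obtain ⟨η, a1⟩ := h.qd sq hc a
    obtain ⟨η', a2⟩ := h.qd sq hc a.flip
    refine h.fin sq hq a1 a2 (fun x hx hx' => ?_) hg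
    obtain ⟨s, t, rfl⟩ := Submodule.mem_span_pair.1 hx
    obtain ⟨s', t', e⟩ := Submodule.mem_span_pair.1 hx'
    obtain rfl : 0 = s := by simpa [a.b] using congrArg (φ.B f) e
    obtain rfl : 0 = t := by simpa [a.b] using congrArg (φ.B y) e
    simp

end R4

end H14.Su46

namespace H14

open Module Matrix Cfsg Cfsg.Geo H10 H10.Form Su46

theorem su4_6 {F : Type*} [Field F] [Fintype F] {q : ℕ} (hF : Fintype.card F = q ^ 2) :
    ∀ (F₀ : Subfield F) (r : ℕ) (P : Matrix.GeneralLinearGroup (Fin 4) F), r.Prime → Odd r → Fintype.card F = Nat.card F₀ ^ r → Cfsg.Geo.IsFormRationalStructure (Cfsg.hermForm 4 F q) F₀ 1 P → Cfsg.Geo.IsMaximalIn (Cfsg.GU 4 F q ⊓ Cfsg.Geo.specialLinear (Fin 4) F) (Cfsg.Geo.subfieldSubgroup F₀ P ⊓ (Cfsg.GU 4 F q ⊓ Cfsg.Geo.specialLinear (Fin 4) F)) := by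
  intro F₀ r P hr hro hcard hP
  have hF' : Nat.card F = q ^ 2 := by rw [Nat.card_eq_fintype_card, hF]
  have h0 := H10.stdU_isUnitary hF' 4
  have hK := H10.finrank_eq_of_card hcard
  have h1 : ∀ a ∈ F₀, (H10.stdU hF' 4).σ a ∈ F₀ := fun a ha => h0.σ_eq a ▸ F₀.pow_mem ha q
  let σ₀ : F₀ →+* F₀ := ((H10.stdU hF' 4).σ.comp F₀.subtype).codRestrict F₀ fun a => h1 a a.2
  have h2 : σ₀ ≠ RingHom.id F₀ := fun h => by
    have := Subalgebra.isSimpleOrder_of_finrank_prime F₀ F (hK ▸ hr)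
    let A : Subalgebra F₀ F :=
      { (H10.stdU hF' 4).σ.eqLocus (RingHom.id F) with
        algebraMap_mem' := fun a => congrArg Subtype.val (RingHom.congr_fun h a) }
    rcases eq_bot_or_eq_top A with h3 | h3
    · have h4 : Nat.card F₀ = q := by
        rw [← H10.card_fixed hF']
        refine Nat.card_congr (Equiv.subtypeEquivRight fun x => ⟨fun hx => ?_, fun hx => ?_⟩)
        · exact (h0.σ_eq x).symm.trans (A.algebraMap_mem ⟨x, hx⟩)
        · obtain ⟨a, rfl⟩ := Algebra.mem_bot.1 (h3.le ((h0.σ_eq x).trans hx))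
          exact a.2
      rw [h4, hF] at hcard
      rw [← Nat.pow_right_injective (H10.two_le_q hF') hcard] at hro
      exact absurd hro (by decide)
    · obtain ⟨a, ha⟩ := h0.exists_σ_ne
      exact ha (h3.ge Algebra.mem_top)
  have h3 : ∀ a, σ₀ (σ₀ a) = a := fun a => Subtype.ext ((H10.stdU hF' 4).σ_σ a)
  obtain ⟨θ, hθ⟩ := H10.Form.exists_theta h2 h3
  replace hθ : (θ : F) + (H10.stdU hF' 4).σ θ = 1 := congrArg Subtype.val hθ
  have h4 : (H10.stdU hF' 4).RatS F₀ (H10.ratL F₀ P) :=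
    H10.ratS_of h1 (fun u v hu hv => by simpa [H10.stdU_B] using hP v u hv hu)
      (fun u hu => by simpa [H10.stdU_Q] using hP u u hu hu)
      (fun a ha => h0.herm.T_eq a ▸ F₀.add_mem ha (h1 a ha)) fun x _ hx => ⟨_, F₀.mul_mem θ.2 hx, by
        rw [h0.herm.T_eq, map_mul, h0.herm.σ_Q]; linear_combination (H10.stdU hF' 4).Q x * hθ⟩
  obtain ⟨q₀, h5, h6⟩ := H10.exists_q_of_involutive h2 h3
  have h7 : h4.form.IsUnitary q₀ :=
    ⟨⟨Subtype.ext h0.herm.ε_eq, fun a => Subtype.ext (h0.herm.T_eq a)⟩, h5, h6⟩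
  have hd : ∀ g ∈ (H10.stdU hF' 4).E, ((H10.stdU hF' 4).toGL g).1.det = 1 := fun g hg =>
    congrArg Units.val ((H10.SU_eq_E hF' (by omega)).ge ⟨g, hg, rfl⟩).2
  have sq := (sq_or (hK ▸ hr)).resolve_left fun e => by rw [← hK, e] at hro; exact absurd hro (by decide)
  obtain ⟨t, t1⟩ := h7.exists_σ_ne
  have R : ∀ M, (∀ p ∈ ratL F₀ P, ∀ w ∈ ratL F₀ P, ∀ s ∈ F₀, _ → _ → _ → (H10.stdU hF' 4).siegel p w s ∈ M) →
      R4 (H10.stdU hF' 4) F₀ (ratL F₀ P) M t := fun M hM => ⟨h4, h0.herm, fun W hW => by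
    have := H10.Form.RatS.finiteDim (L := H10.ratL F₀ P)
    obtain ⟨v, h8, h9, h10⟩ := h7.exists_singular (W := W) (by omega)
    exact ⟨v, h8, h9, congrArg Subtype.val h10⟩, by simp, t.2, fun e => t1 (Subtype.ext (sub_eq_zero.1 e).symm), hM⟩
  have T := R ⊤ fun _ _ _ _ _ _ _ _ _ => trivial
  have e : ∀ g, (H10.stdU hF' 4).toGL g ∈ subfieldSubgroup F₀ P ↔ g ∈ T.rt := fun g => by
    simp only [mem_subfieldSubgroup_iff, toGL_mulVec]; rfl
  rw [H10.SU_eq_E hF' (by omega)]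
  refine isMaximalIn_map _ (fun h0 => ?_) fun M hM g hg hE hg' => ?_
  · obtain ⟨c, hc⟩ := exists_not_mem_of_prime (hK ▸ hr)
    obtain ⟨p, z, y, f, a⟩ := T.fr0
    have b := sg T.herm a.q.1 a.q.2.1 a.b.1.2.1 c (s := 0) (by simp)
    exact hc (by simpa [b, a.b] using h4.B_mem _ a.m.2.2.1 _ (T.map_of_fix ((e _).1 (h0 (Form.siegel_mem_E _ a.q.1 (w := c • z)
      (s := 0) (by simp [a.b]) (by simp [Q_smul_of_sing _ a.q.2.1])))) a.m.1 a.ne (by simp [b, a.b]) f a.m.2.2.2))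
  refine ((R (M ⊓ (H10.stdU hF' 4).E) fun p hp w hw s hs a b c => ⟨hM ⟨Form.siegel_mem_E _ a b c, (e _).2 ⟨1, one_ne_zero,
    fun x hx => ?_⟩⟩, Form.siegel_mem_E _ a b c⟩).main (fun k hk ⟨c, c0, H⟩ x hx => ?_) h5 (hK ▸ hr)).elim
    (·.trans inf_le_left) fun H => (hg' ((e g).2 (H ⟨hg, hE⟩))).elim
  · rw [one_smul, Form.siegel_apply _ a b c]
    exact sub_mem (sub_mem (add_mem hx (Form.RatS.smul_mem (h4.B_mem _ hw _ hx) hp))
      (Form.RatS.smul_mem (F₀.mul_mem h4.ε_mem (h4.B_mem _ hp _ hx)) hw))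
      (Form.RatS.smul_mem (F₀.mul_mem (F₀.mul_mem h4.ε_mem hs) (h4.B_mem _ hp _ hx)) hp)
  let A : Matrix (Fin 4) (Fin 4) F₀ := fun i j => ⟨_, mem_ratL.1 (H _ (single_mem_ratL j)) i⟩
  have hA : A.map F₀.subtype = c • (P⁻¹ * (H10.stdU hF' 4).toGL k * P).1 := by
    ext i j
    change ((P⁻¹).1 *ᵥ c • k.1 (P.1 *ᵥ Pi.single j 1)) i = _
    rw [← toGL_mulVec, mulVec_smul, mulVec_mulVec, mulVec_mulVec, mulVec_single_one]
    rfl
  have hA' := congrArg det hA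
  rw [← RingHom.mapMatrix_apply, ← RingHom.map_det, det_smul, Units.val_mul, Units.val_mul, det_units_conj', hd k hk.2,
    Fintype.card_fin, mul_one] at hA'
  have := RatS.smul_mem (F₀.inv_mem (sq c (sq _ (by convert (A.det).2 using 1; rw [show (A.det : F) = _ from hA']; ring)))) (H x hx)
  rwa [inv_smul_smul₀ c0] at this

end H14
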