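import Mathlib
import Cfsg.Agent.H14.SzD
import Cfsg.Agent.S0283

/-!
The elements of order 3 of the sporadic Suzuki group with centraliser `3.U₄(3)` (namespace `H14.SzY`):
`el_gen`, `el_y`, `conj_y` (a subgroup `Y` of order 3 of `C(a)` with `|[Q, Y]| = 8` is conjugate to `⟨y⟩`), `card_cy`, `cent_y`, `exists_equiv`.
-/

set_option autoImplicit false
set_option maxRecDepth 100000

namespace H14.SzY
open H13 H14.PK H14.PK.TS H27.PKx H27.MG H14.R3 Cfsg Subgroup
open H27.Suz (Ls)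
open scoped commutatorElement

theorem el_w (u : List ℕ) {t : ℕ} (e : Nat.beq (tabW 13 1782 H13.Suz.nW u) t = true) : H27.Suz.S.el t = evalW H13.Suz.gen u := by
  rw [← Nat.eq_of_beq_eq_true e, ← el_tb (S := H27.Suz.S) (evalW _ u)]
  exact congrArg _ (tb_sys H13.Suz.sys H13.Suz.faith u).symm

theorem el_a : H27.Suz.S.el (nd 0 Ls 0) = H13.Suz.gen 0 := (el_w [0] (by decide +kernel)).trans (mul_one _)

theorem el_y : H27.Suz.S.el yT = (H13.Suz.gen 1 * H13.Suz.gen 2 * H13.Suz.gen 3 * H13.Suz.gen 2 * H13.Suz.gen 3) ^ 5 :=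
  (el_w (H15.pw [1, 2, 3, 2, 3] 5) (by decide +kernel)).trans (by simp only [H15.evalW_pw, evalW_cons, evalW_nil, mul_one, mul_assoc])

variable {G : Type*} [Group G] {T : TS G 13 1782} {bs : List ℕ} (M : Mdl T Ls bs 448345497600)
include M

theorem in_L (i : ℕ) (h : i < 7) : T.In ⊤ (nd 0 Ls i) := M.mem _ ((by decide +kernel : ∀ i < 7, nd 0 Ls i ∈ Ls) i h)

theorem in_y : T.In ⊤ yT := In.slp e0 M.mem _ (by simp)

theorem ord_y : orderOf (T.el yT) = 3 := order_tb Nat.prime_three (by rw [(in_y M).tb_el]; decide +kernel)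

theorem in_As : ∀ t ∈ yT :: As, T.In (centralizer {T.el (nd 0 Ls 0)}) t := fun t ht =>
  (In.slp e0 M.mem t (by simp at ht ⊢; tauto)).comm (in_L M 0 (by norm_num)) (allL_iff.1 (by decide +kernel : allL (fun t =>
    Nat.beq (tm 13 1782 t (nd 0 Ls 0)) (tm 13 1782 (nd 0 Ls 0) t)) (yT :: As) = true) t ht)

theorem conj_y {C : Subgroup G} (hz : C = centralizer {T.el (nd 0 Ls 0)}) (hC : Nat.card C = 3317760) {Q : Subgroup C} [Q.Normal]
    (hF : generalizedFittingSubgroup C = Q) {Y : Subgroup C} (hY : Nat.card Y = 3)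
    (hQY : Nat.card ↥⁅Q, Y⁆ = 8) : ∃ g ∈ C, Y.map C.subtype = zpowers (g⁻¹ * T.el yT * g) := by
  have := T.finite
  have a1 := hz ▸ in_As M
  have N := mdl_of_low (S := T.sub C) e1 (fun t ht => (a1 t (List.mem_cons_of_mem _ ht)).sub) hC
  have a2 := In.slp e2 N.mem
  have a3 := cl_normal N a2 e3
  obtain ⟨E, -, -, a4, a5⟩ := grpK_spec a2 e4
  have : Fact (Nat.Prime 2) := ⟨Nat.prime_two⟩
  have a6 : (T.sub C).cl qs ≤ Q := hF ▸ (le_sSup (s := {N : Subgroup C | N.Normal ∧ Group.IsNilpotent N})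
    ⟨a3, (IsPGroup.of_card (p := 2) (n := 7) (a4.trans (Nat.eq_of_beq_eq_true a5))).isNilpotent⟩).trans le_sup_right
  have : Fact (Nat.Prime 3) := ⟨Nat.prime_three⟩
  obtain ⟨x, rfl⟩ := (Subgroup.isCyclic_iff_exists_zpowers_eq_top Y).1 (isCyclic_of_prime_card hY)
  rw [Nat.card_zpowers] at hY
  obtain ⟨Cs, E, b1, b2, b3⟩ := syl_spec N Nat.prime_three (m := 40960) (by norm_num) (by norm_num) e5
  obtain ⟨g, b4⟩ := b3 x 1 (by rw [pow_one, ← hY, pow_orderOf_eq_one])
  obtain ⟨t, ht, f⟩ := (all2_spec b2).1 _ b4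
  rw [bor_eq_true, bn_iff, Nat.beq_eq, ← tb_pow, conj_pow, ← hY, pow_orderOf_eq_one, mul_one, mul_inv_cancel, tb_one, force_eq,
    ← (b1 t ht).tb_el, ← tb_inv, ← tb_mul, ← tb_mul, memL_iff] at f
  replace f := f.resolve_left fun c => c rfl
  rw [show (T.sub C).el t * (g * x * g⁻¹) * ((T.sub C).el t)⁻¹ = ((T.sub C).el t * g) * x * ((T.sub C).el t * g)⁻¹ by group] at f
  generalize (T.sub C).el t * g = k at f
  rcases List.mem_cons.1 f with c | c
  · rw [← (T.sub C).tb_one, tb_eq_iff, conj_eq_one_iff] at c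
    rw [c, orderOf_one] at hY
    cases hY
  rcases List.mem_cons.1 c with c | c
  · refine ⟨k, k.2, ?_⟩
    rw [MonoidHom.map_zpowers, ← (a1 yT (by simp)).coe_el, ← c, el_tb]
    simp [mul_assoc]
  obtain ⟨m, hm, d⟩ := anyL_iff.1 (allL_iff.1 e6 _ c)
  have := le_of_ok (S := T.sub C) (K := (⁅Q, zpowers x⁆).map (MulAut.conj k).toMonoidHom) d (List.forall_mem_map.2 fun q hq =>
    ⟨⁅(T.sub C).el q, k * x * k⁻¹⁆, ⟨⁅k⁻¹ * (T.sub C).el q * k⁻¹⁻¹, x⁆, commutator_mem_commutator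
      (Normal.conj_mem inferInstance _ (a6 ((a2 q hq).cl hq).el_mem) _) (mem_zpowers x), by simp [commutatorElement_def, mul_assoc]⟩, by
      rw [commutatorElement_def, tb_mul, tb_mul, tb_mul, tb_inv, tb_inv, (a2 q hq).tb_el]; rfl⟩)
  rw [card_map_of_injective (MulAut.conj k).injective, hQY] at this
  simp at hm
  omega

theorem in_Cg : ∀ t ∈ yT :: Cg, T.In (centralizer {T.el yT}) t := fun t ht => by
  refine In.comm (K := ⊤) ?_ (in_y M) (allL_iff.1 (by decide +kernel : allL (fun t =>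
      Nat.beq (tm 13 1782 t yT) (tm 13 1782 yT t)) (yT :: Cg) = true) t ht)
  simp only [Cg, List.mem_cons, List.not_mem_nil, or_false] at ht
  rcases ht with rfl | rfl | rfl | rfl | rfl | rfl | rfl
  exacts [in_y M, in_L M _ (by norm_num), in_L M _ (by norm_num), in_L M _ (by norm_num), in_L M _ (by norm_num), in_L M _ (by norm_num),
    In.slp e0 M.mem _ (by simp)]

theorem in_c : ∀ t ∈ [c1, c2], (T.sub (centralizer {T.el yT})).In (_root_.commutator _) t :=
  in_comm (fun t ht => (in_Cg M t (List.mem_cons_of_mem _ ht)).sub) e9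

theorem card_cy : Nat.card (centralizer {T.el yT}) = 9797760 :=
  le_antisymm (cen_le M (in_y M) e7) ((le_of_ok e8 fun t ht => (in_c M t ht).top).trans card_top.le)

theorem cent_y {Y : Subgroup G} (hY : Y = zpowers (T.el yT)) [(Y.subgroupOf (centralizer (Y : Set G))).Normal]
    (K : Type) [Field K] [Fintype K] (hK : Fintype.card K = 9) : IsQuasisimple (centralizer (Y : Set G)) ∧
    Nonempty (centralizer (Y : Set G) ⧸ Y.subgroupOf (centralizer (Y : Set G)) ≃* PSU 4 K 3) ∧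
    (centralizer (Y : Set G)).relIndex (normalizer (Y : Set G)) = 2 := by
  have := T.finite
  have e : centralizer (Y : Set G) = centralizer {T.el yT} := by rw [hY, zpowers_eq_closure, centralizer_closure]
  refine and_assoc.1 ⟨?_, hY ▸ relIndex_two (d := T.el (nd 0 Ls 3)) (ord_y M) ?_⟩
  swap
  · have d := in_L M 3 (by norm_num)
    rw [← d.el_ti, ← (in_y M).el_ti, ← d.el_tm (in_y M), ← (d.mul (in_y M)).el_tm d.inv]
    exact congrArg _ (Nat.eq_of_beq_eq_true (by decide +kernel))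
  revert ‹(Y.subgroupOf _).Normal›
  rw [e]
  intro
  obtain ⟨U, V⟩ := H27.U43.model K hK
  have V := V.regen e10
  have N := mdl_of_low e8 (fun t ht => (in_c M t ht).top) (card_cy M)
  have y := in_Cg M yT (by simp)
  have a : ∀ t ∈ Ps.map (·.2.1), (T.sub (centralizer {T.el yT})).In ⊤ t :=
    List.forall_mem_cons.2 ⟨N.mem _ (by simp), List.forall_mem_cons.2 ⟨N.mem _ (by simp), List.forall_mem_singleton.2 y.sub⟩⟩
  obtain ⟨φ, b, c⟩ := hom_br V.base V.mem a e11 V.cl (top_le_iff.1 (N.cl ▸ cl_le fun t ht =>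
    (N.mem t ht).cl (List.mem_append_left [yT] ht)))
  have d : Y.subgroupOf (centralizer {T.el yT}) ≤ φ.ker := by
    rintro ⟨x, hx⟩ h
    obtain ⟨k, rfl⟩ := hY ▸ mem_subgroupOf.1 h
    rw [show (⟨_, hx⟩ : centralizer {T.el yT}) = (T.sub _).el yT ^ k from Subtype.ext (by simp [y.coe_el]), MonoidHom.mem_ker, map_zpow,
      (c _ (List.mem_cons_of_mem _ (List.mem_cons_of_mem _ (List.mem_singleton_self _)))).trans el_idv, one_zpow]
  have f : Y ≤ centralizer {T.el yT} := hY ▸ zpowers_le.2 y.el_mem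
  replace d := eq_of_le_of_card_ge d (by
    rw [(ext_of_hom φ (MonoidHom.range_eq_top.2 b) (k := 3) (by rw [N.card, V.card])).1, Nat.card_congr (subgroupOfEquivOfLe f).toEquiv, hY,
      Nat.card_zpowers, ord_y M])
  have := Agent.S0283.result (q := 3) hK 4 (by norm_num) (by norm_num)
  refine ⟨qs_of_hom φ b (d ▸ fun x hx => mem_center_iff.2 fun g => Subtype.ext ?_) (top_le_iff.1 (N.cl ▸ cl_le (in_c M))),
    ⟨(QuotientGroup.quotientMulEquivOfEq d).trans (QuotientGroup.quotientKerEquivOfSurjective φ b)⟩⟩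
  exact (mem_centralizer_iff.1 (e.ge g.2) x hx).symm

omit M in
theorem exists_equiv (φ : G ≃* Spor.Suz) {z : G} (hz : IsConj (φ z) (H13.Suz.gen 0)) (hC : Nat.card (centralizer {z}) = 3317760)
    {Q : Subgroup (centralizer {z})} [Q.Normal] (hF : generalizedFittingSubgroup (centralizer {z}) = Q) {Y : Subgroup (centralizer {z})}
    (hY : Nat.card Y = 3) (hQY : Nat.card ↥⁅Q, Y⁆ = 8) : ∃ ψ : G ≃* Spor.Suz, ψ z = H13.Suz.gen 0 ∧
      Y.map (centralizer {z}).subtype = zpowers (ψ.symm (H27.Suz.S.el yT)) := by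
  obtain ⟨c, hc⟩ := isConj_iff.1 hz
  obtain ⟨T, M, h⟩ := mdl_comap H27.Suz.model (φ.trans (MulAut.conj c))
  have a : z = T.el (nd 0 Ls 0) := (φ.trans (MulAut.conj c)).injective (by rw [h _ (in_L H27.Suz.model 0 (by norm_num)), el_a]; exact hc)
  obtain ⟨g, b, e⟩ := conj_y M (by rw [a]) hC hF hY hQY
  refine ⟨(MulAut.conj g).trans (φ.trans (MulAut.conj c)), ?_, e.trans (congrArg _ ?_)⟩
  · rw [MulEquiv.trans_apply, MulAut.conj_apply, mem_centralizer_singleton_iff.1 b, mul_inv_cancel_right]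
    exact hc
  · rw [MulEquiv.eq_symm_apply, ← h _ (in_y H27.Suz.model), MulEquiv.trans_apply, MulAut.conj_apply]
    congr 1
    group

end H14.SzY
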