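import Cfsg.Agent.L.Jt0
import Cfsg.Agent.H20.One22

/-! The normalizer of a Sylow 3-subgroup of `M₂₂` has order 72 (namespace `H14.TM3`). -/

set_option autoImplicit false
open Cfsg H13 H14 H14.PK H14.PK.TS H20.M22d Subgroup

namespace H14.TM3

def A : ℕ := nat_lit 0xbc4ea7c9d01da8c5b4c22153598500
def B : ℕ := nat_lit 0xb92917b2b019ecb938a8524cd98820
def Ls : List ℕ := [nat_lit 0xbdab49ca307b9ac5a928398a418820, nat_lit 0xb92917b2b019ecb938a8524cd98820, nat_lit 0xbb6351ae909a89261cc87153678820, nat_lit 0xbc4ea7c9d01da8c5b4c22153598500, nat_lit 0xbd54e1b0f09922b95922698b478500, nat_lit 0xbd1c79ad507b6b2610a2b24d118500, nat_lit 0xbb88d1cad09c54c5d0a1aa4c77a040, nat_lit 0xb9db69b0907d5cb944c1a152a1a040, nat_lit 0xbaac47adb01d0f265521898ae9a040]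

theorem cL : Ls = (List.range 9).map fun k => tm 5 24 (tp 5 24 A (k / 3)) (tp 5 24 B (k % 3)) := by decide +kernel

theorem cN : Nat.beq (esum 5 24 (fun F v b q => allL (fun c => prC 5 A (ti 5 24 A) c F v b q) Ls)
    (fun f => Bool.rec (nat_lit 0) (nat_lit 1) (H13.band (anyL (fun c => trF 5 [0, 1, 2, 3, 4, 7, 5] A c f) Ls)
      (anyL (fun c => trF 5 [0, 1, 2, 3, 4, 7, 5] B c f) Ls))) tG 0 (idv 5 24) (idv 5 24)) 72 = true := by decide +kernel

theorem m3 : L.Jt.M3Stmt := by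
  have : Fact (Nat.Prime 3) := ⟨by norm_num⟩
  have iA : S22.In ⊤ A := in22 (by decide +kernel)
  have iB : S22.In ⊤ B := in22 (by decide +kernel)
  have oa : orderOf (S22.el A) = 3 := iA.order (by norm_num) (by decide +kernel)
  have ob : orderOf (S22.el B) = 3 := iB.order (by norm_num) (by decide +kernel)
  have cm : Commute (S22.el A) (S22.el B) := mem_centralizer_singleton_iff.1 (iA.comm iB (by decide +kernel)).el_mem
  have nb : ∀ k < 3, S22.el A ^ k ≠ S22.el B := fun k hk e => by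
    rw [← iA.el_tp, (iA.pow k).eq_iff iB] at e
    revert k; decide +kernel
  have cn := cN
  rw [← iA.tb_el, ← iB.tb_el] at cn
  have mL : ∀ c, c ∈ Ls ↔ ∃ k < 9, c = S22.tb (S22.el A ^ (k / 3) * S22.el B ^ (k % 3)) := fun c => by
    rw [cL]; simp only [List.mem_map, List.mem_range, S22.tb_mul, S22.tb_pow, iA.tb_el, iB.tb_el, eq_comm]
  generalize S22.el A = a at *
  generalize S22.el B = b at *
  have a3 : a ^ 3 = 1 := oa ▸ pow_orderOf_eq_one a
  have b3 : b ^ 3 = 1 := ob ▸ pow_orderOf_eq_one b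
  have c3 : ∀ i j : ℕ, (a ^ i * b ^ j) ^ 3 = 1 := fun i j => by
    rw [(cm.pow_pow i j).mul_pow, ← pow_mul, ← pow_mul, mul_comm i, mul_comm j, pow_mul, pow_mul, a3, b3]; simp
  have ml : ∀ i j k l : ℕ, a ^ i * b ^ j * (a ^ k * b ^ l) = a ^ (i + k) * b ^ (j + l) := fun i j k l => by
    rw [pow_add, pow_add, mul_assoc, ← mul_assoc (b ^ j), ← (cm.pow_pow k j).eq]; simp only [mul_assoc]
  let P : Subgroup Spor.M22 :=
    { carrier := {x | ∃ i j : ℕ, x = a ^ i * b ^ j}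
      one_mem' := ⟨0, 0, by simp⟩
      mul_mem' := by
        rintro _ _ ⟨i, j, rfl⟩ ⟨k, l, rfl⟩
        exact ⟨_, _, ml i j k l⟩
      inv_mem' := by
        rintro _ ⟨i, j, rfl⟩
        exact ⟨_, _, (inv_eq_of_mul_eq_one_right ((pow_three _).symm.trans (c3 i j))).trans (ml i j i j)⟩ }
  have mP : ∀ x y, x * y * x⁻¹ ∈ P ↔ ∃ c ∈ Ls, ∃ e, c = S22.tb e ∧ x * y = e * x := fun x y => by
    refine ⟨fun ⟨i, j, e⟩ => ⟨_, (mL _).2 ⟨3 * (i % 3) + j % 3, by omega, rfl⟩, _, rfl, ?_⟩, fun ⟨c, m, e, h, k⟩ => ?_⟩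
    · rw [show (3 * (i % 3) + j % 3) / 3 = i % 3 by omega, show (3 * (i % 3) + j % 3) % 3 = j % 3 by omega]
      conv_rhs => rw [← oa, pow_mod_orderOf, oa, ← ob, pow_mod_orderOf, ← e]
      simp
    · obtain ⟨k', -, r⟩ := (mL c).1 m
      rw [k, mul_inv_cancel_right, S22.tb_inj (h.symm.trans r)]
      exact ⟨_, _, rfl⟩
  have tr : ∀ (x y : Spor.M22) (f : ℕ → ℕ), (∀ i < 24, f i = S22.ap x i) →
      (anyL (fun c => trF 5 [0, 1, 2, 3, 4, 7, 5] (S22.tb y) c f) Ls = true ↔ x * y * x⁻¹ ∈ P) := fun x y f hf => by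
    rw [anyL_iff, mP]
    refine exists_congr fun c => and_congr_right fun m => ?_
    obtain ⟨k, -, rfl⟩ := (mL c).1 m
    rw [trF_iff base22 hf]
    exact ⟨fun e => ⟨_, rfl, e⟩, fun ⟨e, h, k⟩ => S22.tb_inj h ▸ k⟩
  have cnt := (full22_of (ch := tG) (by decide +kernel)).count (P := fun x => x * a * x⁻¹ ∈ P ∧ x * b * x⁻¹ ∈ P)
    (fun x F v c q h e k => by
      obtain ⟨c, m, e', rfl, k⟩ := (mP x a).1 k.1
      exact prC_spec h (allL_iff.1 e _ m) k)
    (fun x f hf => by rw [band_eq_true, tr x a f hf, tr x b f hf]) cn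
  have aP : a ∈ P := ⟨1, 0, by simp⟩
  have bP : b ∈ P := ⟨0, 1, by simp⟩
  have nP : Nat.card (normalizer (P : Set Spor.M22)) = 72 := by
    rw [← cnt, ← Nat.card_coe_set_eq]
    refine Nat.card_congr (Equiv.subtypeEquivRight fun x => ⟨fun h => ⟨trivial, (mem_normalizer_iff.1 h a).1 aP,
      (mem_normalizer_iff.1 h b).1 bP⟩, fun h => mem_normalizer_fintype ?_⟩)
    rintro _ ⟨i, j, rfl⟩
    rw [← conj_mul, ← conj_pow, ← conj_pow]
    exact mul_mem (pow_mem h.2.1 i) (pow_mem h.2.2 j)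
  have pP : IsPGroup 3 P := fun ⟨_, i, j, e⟩ => ⟨1, Subtype.ext (by simpa [e] using c3 i j)⟩
  have iP : ¬ 3 ∣ P.index := fun d => by
    obtain ⟨n, hn⟩ := pP.exists_card_eq
    have c1 := P.card_mul_index
    have c2 : Nat.card (zpowers a) < Nat.card P := by
      refine lt_of_le_of_ne (card_le_of_le (zpowers_le.2 aP)) fun e => ?_
      have := (eq_of_le_of_card_ge (zpowers_le.2 aP) e.ge).ge bP
      rw [mem_zpowers_iff_mem_range_orderOf, oa] at this
      obtain ⟨k, hk, e⟩ := Finset.mem_image.1 this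
      exact nb k (Finset.mem_range.1 hk) e
    rw [Nat.card_zpowers, oa, hn] at c2
    rw [card_M22, hn] at c1
    obtain ⟨m, hm⟩ := d
    obtain _ | _ | n := n
    · omega
    · omega
    · rw [hm, pow_add, pow_add, show 3 ^ n * 3 ^ 1 * 3 ^ 1 * (3 * m) = 27 * (3 ^ n * m) by ring] at c1
      omega
  intro S
  have e1 := S.card_eq_index_normalizer
  have e2 := (pP.toSylow iP).card_eq_index_normalizer
  have e3 := (normalizer ((S : Subgroup Spor.M22) : Set Spor.M22)).card_mul_index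
  have e4 := (normalizer (P : Set Spor.M22)).card_mul_index
  rw [nP, show (normalizer (P : Set Spor.M22)).index = _ from e2.symm.trans e1, ← e3] at e4
  exact (Nat.eq_of_mul_eq_mul_right (Nat.pos_of_ne_zero index_ne_zero_of_finite) e4).symm

end H14.TM3
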