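import Mathlib
import Cfsg.Agent.H14.Mono
import Cfsg.Agent.H14.Witt
import Cfsg.Agent.H14.PK

/-! The ternary code of length twelve: parametrisation `H14.Tern.w`, the hexads `H14.Tern.hex`. -/

namespace H14.Tern

open Cfsg Finset
open scoped Pointwise

/-- parameters -/
abbrev T6 := ZMod 3 × ZMod 3 × ZMod 3 × ZMod 3 × ZMod 3 × ZMod 3

/-- the word with given information symbols -/
def w (a : T6) (p : ArrayPt) : ZMod 3 :=
  [a.1, a.2.1, a.2.2.1, a.2.2.2.1, a.2.2.2.2.1, a.1 + a.2.1 + a.2.2.1 - a.2.2.2.1 - a.2.2.2.2.1, a.2.2.2.2.2,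
    -a.2.1 + a.2.2.1 - a.2.2.2.1 + a.2.2.2.2.1 + a.2.2.2.2.2, a.1 - a.2.1 + a.2.2.2.1 - a.2.2.2.2.1 + a.2.2.2.2.2,
    a.1 - a.2.1 - a.2.2.1 - a.2.2.2.1 - a.2.2.2.2.2, a.1 + a.2.2.1 + a.2.2.2.1 + a.2.2.2.2.1 - a.2.2.2.2.2,
    -a.1 - a.2.1 + a.2.2.1 - a.2.2.2.2.1 - a.2.2.2.2.2].getD (3 * p.1.val + p.2.val) 0

/-- the information symbols -/
def inf (x : ArrayPt → ZMod 3) : T6 := (x (0, 0), x (0, 1), x (0, 2), x (1, 0), x (1, 1), x (2, 0))

/-- the parity checks -/
def Q (x : ArrayPt → ZMod 3) : Prop := ∃ s, (∀ i : Fin 4, x (i, 0) + x (i, 1) + x (i, 2) = -s) ∧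
  ∀ a b : ZMod 3, x (0, b) + x (1, a) + x (2, a + b) + x (3, a + 2 * b) = s

instance (x : ArrayPt → ZMod 3) : Decidable (Q x) := by unfold Q; infer_instance

theorem mem_iff {x : ArrayPt → ZMod 3} : x ∈ ternaryGolayCode ↔ Q x := by
  refine exists_congr fun s => and_congr (forall_congr' fun i => ?_) ?_
  · rw [show ∑ r, x (i, r) = _ from Fin.sum_univ_three fun r => x (i, r)]; rfl
  · simp only [tetracode, Submodule.mem_span_pair, Fin.sum_univ_four]
    constructor
    · intro h a b; simpa [mul_comm] using h _ ⟨a, b, rfl⟩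
    · rintro h _ ⟨a, b, rfl⟩; simpa [mul_comm] using h a b

theorem w_mem (a : T6) : w a ∈ ternaryGolayCode := mem_iff.2 ((by decide +kernel : ∀ a, Q (w a)) a)

theorem inf_w (a : T6) : inf (w a) = a := rfl

theorem w_inj : Function.Injective w := Function.LeftInverse.injective inf_w

theorem eq_zero {x : ArrayPt → ZMod 3} (h : x ∈ ternaryGolayCode) (e : inf x = 0) : x = 0 := by
  obtain ⟨s, h1, h2⟩ := mem_iff.1 h
  simp only [inf, Prod.mk_eq_zero] at e
  obtain ⟨e1, e2, e3, e4, e5, e6⟩ := e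
  have a0 := h1 0; have a1 := h1 1; have a2 := h1 2; have a3 := h1 3
  have b0 := h2 0 0; have b1 := h2 0 1; have b2 := h2 0 2; have b3 := h2 1 0; have b4 := h2 1 2; have b5 := h2 1 1
  rw [show (0 : ZMod 3) + 0 = 0 from rfl, show (0 : ZMod 3) + 2 * 0 = 0 from rfl] at b0
  rw [show (0 : ZMod 3) + 1 = 1 from rfl, show (0 : ZMod 3) + 2 * 1 = 2 from rfl] at b1
  rw [show (0 : ZMod 3) + 2 = 2 from rfl, show (0 : ZMod 3) + 2 * 2 = 1 from rfl] at b2
  rw [show (1 : ZMod 3) + 0 = 1 from rfl, show (1 : ZMod 3) + 2 * 0 = 1 from rfl] at b3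
  rw [show (1 : ZMod 3) + 2 = 0 from rfl, show (1 : ZMod 3) + 2 * 2 = 2 from rfl] at b4
  rw [show (1 : ZMod 3) + 1 = 2 from rfl, show (1 : ZMod 3) + 2 * 1 = 0 from rfl] at b5
  simp only [e1, e2, e3, e4, e5, e6, zero_add, add_zero] at a0 a1 a2 a3 b0 b1 b2 b3 b4 b5
  have hs : s = 0 := neg_eq_zero.1 a0.symm
  subst hs
  rw [neg_zero] at a1 a2 a3
  have k := (by decide : ∀ a b c d e : ZMod 3, a + b = 0 → c + d + e = 0 → c = 0 → a + e = 0 → b + d = 0 → a + d = 0 → e = 0 →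
    b + c = 0 → a = 0 ∧ b = 0 ∧ d = 0) _ _ _ _ _ a2 a3 b0 b1 b2 b3 b4 b5
  funext ⟨i, r⟩
  fin_cases i <;> fin_cases r
  exacts [e1, e2, e3, e4, e5, a1, e6, k.1, k.2.1, b0, k.2.2, b4]

theorem w_inf {x : ArrayPt → ZMod 3} (h : x ∈ ternaryGolayCode) : w (inf x) = x :=
  sub_eq_zero.1 (eq_zero (sub_mem (w_mem _) h) (sub_eq_zero.2 (inf_w _) : inf (w (inf x)) - inf x = 0))

theorem set_eq (P : (ArrayPt → ZMod 3) → Prop) : {x | x ∈ ternaryGolayCode ∧ P x} = w '' {a | P (w a)} :=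
  Set.ext fun x => ⟨fun h => ⟨inf x, by simpa [w_inf h.1] using h.2, w_inf h.1⟩, by rintro ⟨a, h, rfl⟩; exact ⟨w_mem a, h⟩⟩

theorem ncard_eq (P : (ArrayPt → ZMod 3) → Prop) [DecidablePred P] :
    {x | x ∈ ternaryGolayCode ∧ P x}.ncard = #{a | P (w a)} := by
  rw [set_eq, Set.ncard_image_of_injective _ w_inj, ← Set.ncard_coe_finset]; simp

theorem forall_mem {P : (ArrayPt → ZMod 3) → Prop} (h : ∀ a, P (w a)) : ∀ x ∈ ternaryGolayCode, P x :=
  fun _ hx => w_inf hx ▸ h _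

theorem wts : ∀ x ∈ ternaryGolayCode, x ≠ 0 →
    #(ternarySupport x) = 6 ∨ #(ternarySupport x) = 9 ∨ #(ternarySupport x) = 12 :=
  forall_mem fun a h => (by decide +kernel : ∀ a, a = 0 ∨ #(ternarySupport (w a)) = 6 ∨ #(ternarySupport (w a)) = 9 ∨
    #(ternarySupport (w a)) = 12) a |>.resolve_left fun c => h (c ▸ by decide)

theorem cnt : #{a | #(ternarySupport (w a)) = 6} = 264 ∧ #{a | #(ternarySupport (w a)) = 9} = 440 ∧
    #{a | #(ternarySupport (w a)) = 12} = 24 := by decide +kernel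

theorem pm {x y : ArrayPt → ZMod 3} (hx : x ∈ ternaryGolayCode) (hy : y ∈ ternaryGolayCode) (h1 : #(ternarySupport x) = 6)
    (h2 : #(ternarySupport y) = 6) (h : 5 ≤ #(ternarySupport x ∩ ternarySupport y)) : y = x ∨ y = -x := by
  by_contra c
  push Not at c
  have a := wts _ (sub_mem hy hx) (sub_ne_zero.2 c.1)
  have b := wts _ (add_mem hy hx) fun e => c.2 (eq_neg_of_add_eq_zero_left e)
  have : #(ternarySupport (y - x)) + #(ternarySupport (y + x)) + 3 * #(ternarySupport x ∩ ternarySupport y) =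
      2 * #(ternarySupport x) + 2 * #(ternarySupport y) := by
    simp only [ternarySupport, ← filter_and, card_filter, mul_sum, ← sum_add_distrib]
    exact sum_congr rfl fun p _ => (by decide : ∀ u v : ZMod 3, ((if v - u ≠ 0 then 1 else 0) + if v + u ≠ 0 then 1 else 0) +
      (3 * if u ≠ 0 ∧ v ≠ 0 then 1 else 0) = (2 * if u ≠ 0 then 1 else 0) + 2 * if v ≠ 0 then 1 else 0) _ _
  omega

theorem supp_neg (x : ArrayPt → ZMod 3) : ternarySupport (-x) = ternarySupport x := by simp [ternarySupport]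

/-- the hexads -/
def hex : Set (Finset ArrayPt) := {h | ∃ x ∈ ternaryGolayCode, ternarySupport x = h ∧ h.card = 6}

theorem card_hex : hex.ncard = 132 := by
  have := card_eq_sum_card_fiberwise (f := fun a => ternarySupport (w a)) (s := {a | #(ternarySupport (w a)) = 6})
    (t := (Set.toFinite hex).toFinset) fun a ha => by
      simpa using ⟨w a, w_mem a, rfl, by simpa using ha⟩
  rw [cnt.1, sum_const_nat (m := 2), ← Set.ncard_eq_toFinset_card] at this
  · omega
  · intro h hh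
    obtain ⟨x, hx, rfl, e⟩ := (Set.Finite.mem_toFinset _).1 hh
    refine card_eq_two.2 ⟨inf x, inf (-x), fun c => ?_, ext fun a => ?_⟩
    · have : x = -x := by rw [← w_inf (neg_mem hx), ← c, w_inf hx]
      rw [show x = 0 from funext fun p => (by decide : ∀ u : ZMod 3, u = -u → u = 0) _ (congrFun this p)] at e
      exact absurd e (by decide)
    · simp only [mem_filter, mem_univ, true_and, mem_insert, mem_singleton]
      constructor
      · rintro ⟨k1, k2⟩
        exact (pm hx (w_mem a) e k1 (by rw [k2, inter_self, e]; norm_num)).imp (congrArg inf) (congrArg inf)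
      · rintro (rfl | rfl)
        · rw [w_inf hx]; exact ⟨e, rfl⟩
        · rw [w_inf (neg_mem hx), supp_neg]; exact ⟨e, rfl⟩

theorem steiner : IsSteinerSystem 5 6 hex := by
  refine steiner_of_count (fun _ ⟨_, _, _, h⟩ => h) ?_ (by rw [card_hex]; decide +kernel)
  rintro _ ⟨x, hx, rfl, a⟩ _ ⟨y, hy, rfl, b⟩ h
  rcases pm hx hy a b h with rfl | rfl
  exacts [rfl, (supp_neg x).symm]

theorem supp_mm (σ : Equiv.Perm ArrayPt) (c : ArrayPt → (ZMod 3)ˣ) (x : ArrayPt → ZMod 3) :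
    ternarySupport (monomialMap σ c x) = σ • ternarySupport x := by
  ext p
  rw [← inv_smul_mem_iff]
  simp [ternarySupport, monomialMap, Equiv.Perm.inv_def]

theorem diag (c : ArrayPt → (ZMod 3)ˣ) (h : MV ternaryGolayCode 1 c) (p q : ArrayPt) : c p = c q := by
  have k : ∀ q, c q = c (0, 0) := fun q => by
    obtain ⟨a, h1, h2, h3⟩ := (by decide +kernel : ∀ q, ∃ a, #(ternarySupport (w a)) = 6 ∧ w a (0, 0) ≠ 0 ∧ w a q ≠ 0) q
    have e : ternarySupport (monomialMap 1 c (w a)) = ternarySupport (w a) := (supp_mm ..).trans (one_smul _ _)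
    refine Units.ext ?_
    rcases pm (w_mem a) (h _ (w_mem a)) h1 (e ▸ h1) (by rw [e, inter_self, h1]; norm_num) with d | d
    · rw [(mul_eq_right₀ h2).1 (congrFun d (0, 0)), (mul_eq_right₀ h3).1 (congrFun d q)]
    · rw [mul_right_cancel₀ h2 ((congrFun d (0, 0)).trans (neg_one_mul _).symm),
        mul_right_cancel₀ h3 ((congrFun d q).trans (neg_one_mul _).symm)]
  rw [k p, k q]

/-- numbering of the positions -/
def pt (i : ℕ) : ArrayPt := (Fin.ofNat 4 (i / 3), (i : ZMod 3))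

/-- a map on positions from a list -/
def lf (L : List ℕ) (p : ArrayPt) : ArrayPt := pt (L.getD (3 * p.1.val + p.2.val) 0)

/-- signs from a list -/
def sg (L : List Bool) (p : ArrayPt) : (ZMod 3)ˣ := bif L.getD (3 * p.1.val + p.2.val) false then -1 else 1

/-- first generator -/
def g1 : Equiv.Perm ArrayPt :=
  ⟨lf [1, 7, 0, 6, 8, 2, 9, 3, 4, 11, 5, 10], lf [2, 0, 5, 7, 8, 10, 3, 1, 4, 6, 11, 9], by decide +kernel, by decide +kernel⟩

/-- second generator -/
def g2 : Equiv.Perm ArrayPt :=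
  ⟨lf [9, 0, 7, 4, 3, 1, 5, 10, 6, 8, 2, 11], lf [1, 5, 10, 4, 3, 6, 8, 2, 9, 0, 7, 11], by decide +kernel, by decide +kernel⟩

theorem g1_mem : g1 ∈ MP ternaryGolayCode := ⟨_, forall_mem fun a => mem_iff.2 ((by decide +kernel : ∀ a, Q (monomialMap g1
  (sg [false, false, true, true, true, false, false, true, false, false, true, true]) (w a))) a)⟩

theorem g2_mem : g2 ∈ MP ternaryGolayCode := ⟨_, forall_mem fun a => mem_iff.2 ((by decide +kernel : ∀ a, Q (monomialMap g2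
  (sg [false, true, false, true, true, true, false, true, true, true, false, true]) (w a))) a)⟩

theorem gen12 : PK.genOk 4 12 [nat_lit 0xa5b439286071, nat_lit 0xb286a5134709]
  [[], [2, 1], [2, 3, 3, 2, 2], [1, 1], [2, 1, 1], [0, 0, 0, 1, 1], [2, 1, 2, 2, 1, 2], [0, 1], [2, 1, 1], [1, 1], [1, 2], [3, 2], [4, 2], [4, 3], [8, 8], [9, 8], [9, 9], [10, 2], [12, 2], [13, 0], [16, 16], [16, 17], [17, 17], [19, 1], [20, 1], [20, 2], [22, 2], [24, 25], [26, 25], [27, 1], [27, 2], [29, 2], [29, 3], [30, 1], [31, 1], [35, 35], [36, 37], [38, 38], [38, 2], [40, 3], [40, 2], [42, 3], [42, 2], [44, 3]]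
  [(0, [nat_lit 0xba9876543210, nat_lit 0xa5b439286071, nat_lit 0xb286a5134709, nat_lit 0x52a86b049137, nat_lit 0xa0495276831b, nat_lit 0xb76521043a98, nat_lit 0x20549a18b763, nat_lit 0x17265b93804a, nat_lit 0xa392071865b4, nat_lit 0xba5170934286, nat_lit 0x73092ab64185, nat_lit 0xa751b846932]),
  (1, [nat_lit 0xba9876543210, nat_lit 0x21b3487659a0, nat_lit 0x15327a489b60, nat_lit 0xb619827a4350, nat_lit 0xa7594163b280, nat_lit 0x28ab39416570, nat_lit 0x1a632b758940, nat_lit 0x147b6a852930, nat_lit 0x574386a91b20, nat_lit 0x6871a524b390, nat_lit 0x47892a5361b0]),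
  (2, [nat_lit 0xba9876543210, nat_lit 0x9a2563487b10, nat_lit 0x86b247395a10, nat_lit 0x2ab437856910, nat_lit 0xb6a375924810, nat_lit 0x278a945b3610, nat_lit 0x93a7642b8510, nat_lit 0xb65a28497310, nat_lit 0xa426b9385710, nat_lit 0x27a638b95410]),
  (3, [nat_lit 0xba9876543210, nat_lit 0x74a85b639210, nat_lit 0xa8364b597210, nat_lit 0x534867b9a210, nat_lit 0x489b376a5210, nat_lit 0x867b9a534210, nat_lit 0x5796b4a38210, nat_lit 0x38a795b46210, nat_lit 0x9845a673b210]),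
  (4, [nat_lit 0xba9876543210, nat_lit 0x49865ab73210, nat_lit 0x8b57a4693210, nat_lit 0x786ab9453210, nat_lit 0x95746b8a3210, nat_lit 0x64b597a83210, nat_lit 0x56a9487b3210, nat_lit 0xa74b85963210])] 95040 = true := by decide +kernel

theorem card_aut : Nat.card (setSystemAut hex) = 95040 :=
  ((Sr.sharp12 rfl steiner).card (by decide)).trans (by decide +kernel)

theorem MP_eq : MP ternaryGolayCode = setSystemAut hex := by
  have inj : ∀ i < 12, ∀ j < 12, pt i = pt j → i = j := by decide +kernel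
  have sur : ∀ p, ∃ j < 12, p = pt j := by decide +kernel
  obtain ⟨S, hS⟩ := PK.TS.exists_act (G := Equiv.Perm ArrayPt) (w := 4) (n := 12) pt (by norm_num) (by norm_num) inj
    (fun g i _ => sur _) fun g h => Equiv.ext fun p => by obtain ⟨j, a, rfl⟩ := sur p; exact h j a
  refine Subgroup.eq_of_le_of_card_ge ?_ (card_aut ▸ PK.TS.le_card_cl (S := S) gen12 ?_)
  · rintro σ ⟨c, h⟩
    refine (MulAction.mem_stabilizer_set_iff_smul_set_subset (Set.toFinite _)).2 ?_
    rintro _ ⟨_, ⟨x, hx, rfl, e⟩, rfl⟩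
    exact ⟨_, h x hx, supp_mm .., (card_smul_finset ..).trans e⟩
  · simp only [List.forall_mem_cons]
    exact ⟨⟨g1, g1_mem, PK.TS.tb_eq_of_act inj hS (by decide +kernel) (by decide +kernel)⟩,
      ⟨g2, g2_mem, PK.TS.tb_eq_of_act inj hS (by decide +kernel) (by decide +kernel)⟩, by simp⟩

end H14.Tern
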