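import Mathlib
import Cfsg.Agent.H01.XH0

/-!
# Groups of large Fischer type: assembly of `J(T) ≅ 2¹¹` from the module statement and the centralizer statement
-/

set_option autoImplicit false
set_option linter.unusedSectionVars false
open Cfsg BG Subgroup H01.XS H01.XF
open H01.XT hiding Hy QS

namespace H14.XhZ
universe u

/-- the centralizer statement -/
def EaS : Prop := ∀ {G : Type u} [Group G] [Finite G] {a z : G} {Q Q' : Subgroup G}
  {V : Type u} [AddCommGroup V] [Module (ZMod 2) V] [Finite V] {Γ : Type u} [Group Γ] [Finite Γ]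
  {T : Γ → V →+ V} {d : Γ} {M : Subgroup Γ} {β : V →+ V →+ ZMod 2} {q : V → ZMod 2} {ν : G → V} {f : C_[z] →* Γ}
  {π : G → Γ} {S : Subgroup Γ} {L B : AddSubgroup V} {Y : Subgroup Γ}
  (s : Br z Q f π ν T d M β q) (_ : H03.PP Q z Q' a) (_ : Nat.card Q' = 8192)
  (_ : Pk T d M β q (ν a) (s.md.push Q') S L B Y),
  (∀ x ∈ C_(s.md.pull B), x * x = 1) ∧ Nat.card C_(s.md.pull B) = 2048 ∧ C_(s.md.pull B) ⊓ Q = s.md.pull B ∧
    (C_(s.md.pull B).subgroupOf C_[z]).map f = Y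

variable {G : Type u} [Group G] [Finite G] {z : G} {Q : Subgroup G}
  {V : Type u} [AddCommGroup V] [Module (ZMod 2) V] [Finite V] {Γ : Type u} [Group Γ] [Finite Γ]
  {T : Γ → V →+ V} {d : Γ} {M : Subgroup Γ} {β : V →+ V →+ ZMod 2} {q : V → ZMod 2} {ν : G → V} {f : C_[z] →* Γ} {π : G → Γ}

theorem cm2 {H : Type*} [Group H] {A : Subgroup H} (k : ∀ x ∈ A, x * x = 1) {x y : H} (i : x ∈ A) (j : y ∈ A) :
    x * y = y * x := by
  refine (mul_eq_one_iff_eq_inv.1 (k _ (mul_mem i j))).trans ?_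
  rw [mul_inv_rev, ← mul_eq_one_iff_eq_inv.1 (k _ i), ← mul_eq_one_iff_eq_inv.1 (k _ j)]

theorem core (pk : PkS.{u}) (ea : EaS.{u}) (s : Br z Q f π ν T d M β q) (g : G) (i : g * z * g⁻¹ ∈ Q)
    (n : g * z * g⁻¹ ≠ z) (P : Sylow 2 C_[z]) :
    ∃ A : Subgroup G, A ≤ (P : Subgroup C_[z]).map C_[z].subtype ∧ (∀ x ∈ A, x * x = 1) ∧ Nat.card A = 2048 ∧
      Nat.card ↥(A ⊓ Q) = 128 ∧ Nat.card ((A.subgroupOf C_[z]).map f) = 16 ∧
      ∀ A' : Subgroup G, A' ≤ (P : Subgroup C_[z]).map C_[z].subtype → (∀ x ∈ A', x * x = 1) → 2048 ≤ Nat.card A' →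
        A' = A := by
  have m := s.md
  have l := m.lx
  have fs : Function.Surjective f := fun k => by
    obtain ⟨x, j, e⟩ := s.sur k
    exact ⟨⟨x, j⟩, (s.pf _).trans e⟩
  have kf : f.ker = Q.subgroupOf C_[z] := Subgroup.ext fun x => by
    rw [MonoidHom.mem_ker, s.pf, s.ker _ x.2, mem_subgroupOf]
  have kP : f.ker ≤ P := by
    have : IsPGroup 2 f.ker := IsPGroup.of_card (n := 13) (by
      rw [kf, Nat.card_congr (subgroupOfEquivOfLe l.le).toEquiv, s.card]; norm_num)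
    exact le_sup_right.trans (P.is_maximal' (P.isPGroup'.to_sup_of_normal_right this) le_sup_left).le
  have cS : Nat.card ((P : Subgroup C_[z]).map f) = 256 := by
    have := (P.mapSurjective fs).card_eq_multiplicity
    rw [s.gm.cΓ, show 19595520 = 2 ^ 8 * 76545 by norm_num, Nat.factorization_mul (by norm_num) (by norm_num),
      Nat.Prime.factorization_pow Nat.prime_two] at this
    simpa [Nat.factorization_eq_zero_of_not_dvd (by norm_num : ¬ 2 ∣ 76545)] using this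
  have h := s.pt g i n
  obtain ⟨w, ⟨γ, hγ⟩, hw⟩ : ∃ w, w ∈ {w | ∃ γ, T γ (ν (g * z * g⁻¹)) = w} ∧ ∀ k ∈ (P : Subgroup C_[z]).map f, T k w = w := by
    have a1 := s.gm.fixc (P.isPGroup'.map f) {w | ∃ γ, T γ (ν (g * z * g⁻¹)) = w} (by
      rintro k - _ ⟨γ, rfl⟩
      exact ⟨k * γ, s.gm.mul _ _ _⟩)
    rw [Nat.card_coe_set_eq, ← s.gm.idx, show (s.gm.S _).index = 1701 from h.orb.1] at a1
    by_contra c
    have := a1.trans (congrArg (· % 2) (Nat.card_eq_zero.2 (.inl ⟨fun v => c ⟨v.1, v.2⟩⟩)))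
    exact absurd this (by decide)
  obtain ⟨x, j, rfl⟩ := s.sur γ
  have e : x * g * z * (x * g)⁻¹ = x * (g * z * g⁻¹) * x⁻¹ := by group
  have i' : x * g * z * (x * g)⁻¹ ∈ Q := e ▸ l.cE j i
  have n' : x * g * z * (x * g)⁻¹ ≠ z := fun c => n (by
    rw [e, mul_inv_eq_iff_eq_mul, ← mem_cent1.1 j] at c; exact mul_left_cancel c)
  have h' := s.pt _ i' n'
  have p := H03.ES.pp ⟨l.aes, l.cent, l.norm⟩ i' n' (by rw [s.card]; omega)
  rw [s.act x j _ i, ← e] at hγ
  obtain ⟨L, B, Y, k⟩ := pk h' ((P : Subgroup C_[z]).map f) (fun y o => show T y _ = _ from hγ ▸ hw y o) cS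
  obtain ⟨e1, e2, e3, e4⟩ := ea s p ((card_cj _ _).trans s.card) k
  have zB : z ∈ m.pull B := ⟨l.aes.mem, m.zz.symm ▸ zero_mem _⟩
  have Az : C_(m.pull B) ≤ C_[z] := cent_le_cent1 zB
  refine ⟨C_(m.pull B), fun y o => ?_, e1, e2, by rw [e3, m.card_pull, k.cB], by rw [e4, k.cY], fun A' lA sq c => ?_⟩
  · obtain ⟨t, a, b⟩ := k.YS (e4.le ⟨⟨y, Az o⟩, o, rfl⟩)
    have : t⁻¹ * ⟨y, Az o⟩ ∈ f.ker := by rw [MonoidHom.mem_ker, map_mul, map_inv, b, inv_mul_cancel]
    exact ⟨_, mul_mem a (kP this), by simp⟩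
  · have lz : A' ≤ C_[z] := lA.trans (map_subtype_le _)
    have a1 := card_inf_mul_relIndex f.ker (A'.subgroupOf C_[z])
    rw [relIndex_ker, kf, show Q.subgroupOf C_[z] ⊓ A'.subgroupOf C_[z] = (Q ⊓ A').subgroupOf C_[z] from rfl,
      Nat.card_congr (subgroupOfEquivOfLe (inf_le_left.trans l.le)).toEquiv,
      Nat.card_congr (subgroupOfEquivOfLe lz).toEquiv] at a1
    have a2 : Nat.card ↥(Q ⊓ A') ≤ 2 * Nat.card (m.push A') := by
      rw [← m.card_pull]
      exact card_le_of_le fun y o => ⟨o.1, y, o.1, o.2, rfl⟩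
    have a3 : m.push A' = B := k.un ((A'.subgroupOf C_[z]).map f) (by
        rintro _ ⟨y, o, rfl⟩
        obtain ⟨t, a, b⟩ := lA o
        exact ⟨t, a, congrArg f (Subtype.ext b)⟩) (by
        rintro _ ⟨y, o, rfl⟩
        rw [← map_mul, show y * y = 1 from Subtype.ext (sq _ o), map_one]) _ (by
        rintro _ ⟨y, o, o', rfl⟩ _ ⟨t, a, a', rfl⟩
        exact (s.b y o t a).2 (cm2 sq o' a')) (by
        rintro _ ⟨y, o, rfl⟩ _ ⟨t, a, a', rfl⟩
        rw [s.pf, s.act _ y.2 t a, show y.1 * t = t * y.1 from cm2 sq o a', mul_inv_cancel_right]) (by nlinarith)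
    refine Subgroup.eq_of_le_of_card_ge (fun y o t a => ?_) (e2.trans_le c)
    obtain ⟨r, b, b', e⟩ := a3.ge a.2
    rcases m.eq a.1 b e.symm with rfl | rfl
    · exact cm2 sq b' o
    · rw [mul_assoc, cm2 sq b' o, ← mul_assoc, ← mem_cent1.1 (lz o), mul_assoc]

theorem fin (pk : PkS.{u}) (ea : EaS.{u}) {G : Type u} [Group G] [Finite G] (z : G) (Q : Subgroup (Subgroup.centralizer ({z} : Set G))) [Q.Normal] (hF : Cfsg.IsOfLargeFischerTypeAt z Q) (T : Sylow 2 ↥(Subgroup.centralizer ({z} : Set G))) : ∃ A : Subgroup ↥(T : Subgroup (Subgroup.centralizer ({z} : Set G))), Cfsg.maxElementaryAbelianSubgroups 2 ↥(T : Subgroup (Subgroup.centralizer ({z} : Set G))) = {A} ∧ Nat.card A = 2 ^ 11 ∧ Nat.card ↥(A.map (T : Subgroup (Subgroup.centralizer ({z} : Set G))).subtype ⊓ Q) = 2 ^ 7 ∧ Nat.card ↥((A.map (T : Subgroup (Subgroup.centralizer ({z} : Set G))).subtype).map (QuotientGroup.mk' Q)) = 16 := by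
  obtain ⟨V, _, _, _, π, ν, T', d, M, β, q, b⟩ := br hF
  obtain ⟨g, ⟨_, i⟩, n⟩ := hF.1.2.2.2.2
  obtain ⟨A, a1, a2, a3, a4, a5, a6⟩ := core pk ea b g ⟨_, i, rfl⟩ n T
  have lz : A ≤ C_[z] := a1.trans (map_subtype_le _)
  have lT : A.subgroupOf C_[z] ≤ T := fun x o => by
    obtain ⟨t, a, e⟩ := a1 o
    exact (Subtype.ext e : t = x) ▸ a
  have c0 : Nat.card ((A.subgroupOf C_[z]).subgroupOf T) = 2048 := by
    rw [Nat.card_congr (subgroupOfEquivOfLe lT).toEquiv, Nat.card_congr (subgroupOfEquivOfLe lz).toEquiv, a3]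
  have sq : ∀ x ∈ (A.subgroupOf C_[z]).subgroupOf T, x * x = 1 := fun x o => Subtype.ext (Subtype.ext (a2 _ o))
  have un : ∀ B : Subgroup T, IsElementaryAbelian 2 B → 2048 ≤ Nat.card B → B = (A.subgroupOf C_[z]).subgroupOf T :=
    fun B e c => by
      have := a6 ((B.map (T : Subgroup C_[z]).subtype).map C_[z].subtype) (map_mono (map_subtype_le _)) (by
        rintro _ ⟨_, ⟨x, o, rfl⟩, rfl⟩
        exact congrArg (fun x : T => (x.1.1 : G)) ((pow_two x).symm.trans (e.2 x o))) (by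
        rwa [card_map_of_injective (subtype_injective _), card_map_of_injective (subtype_injective _)])
      rw [← this, subgroupOf, subgroupOf, comap_map_eq_self_of_injective (subtype_injective _),
        comap_map_eq_self_of_injective (subtype_injective _)]
  have e0 : IsElementaryAbelian 2 ((A.subgroupOf C_[z]).subgroupOf T) :=
    ⟨⟨⟨fun x y => Subtype.ext (cm2 sq x.2 y.2)⟩⟩, fun x o => (pow_two x).trans (sq x o)⟩
  refine ⟨(A.subgroupOf C_[z]).subgroupOf T, Set.ext fun B => ⟨fun o => un B o.1 (c0 ▸ o.2 _ e0), ?_⟩, c0, ?_, ?_⟩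
  · rintro rfl
    refine ⟨e0, fun B e => ?_⟩
    by_contra c
    rw [un B e (by omega)] at c
    exact c le_rfl
  · rw [subgroupOf_map_subtype, inf_eq_left.2 lT, ← card_map_of_injective (subtype_injective C_[z]),
      map_inf _ _ _ (subtype_injective _), subgroupOf_map_subtype, inf_eq_left.2 lz, a4]; norm_num
  · rw [subgroupOf_map_subtype, inf_eq_left.2 lT, a5]

end H14.XhZ
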