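import Cfsg.Agent.H23.Y0
import Cfsg.Agent.S5599
import Cfsg.Agent.H14.OutM
import Cfsg.Agent.H14.MSimple

/-! The stabiliser of a pair in `M₂₄` is `Aut(M₂₂)` (namespace `H14.YAu`). -/

set_option autoImplicit false
open Cfsg Subgroup
open scoped Pointwise

namespace H14.YAu

theorem au : Cfsg.Agent.H23.Y.AuStmt := by
  obtain ⟨i2, -, -⟩ := Cfsg.Agent.S5599.result projInv H14.gamma_mem (by decide) (by decide)
  have eq : MulAction.stabilizer (Equiv.Perm GolayPt) ({none, some 0} : Finset GolayPt) =
      MulAction.stabilizer (Equiv.Perm GolayPt) ({none, some 0} : Set GolayPt) := by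
    rw [← MulAction.stabilizer_coe_finset]; simp
  rw [eq] at i2
  unfold Cfsg.Agent.H23.Y.AuStmt
  generalize hD : M24 ⊓ MulAction.stabilizer (Equiv.Perm GolayPt) ({none, some 0} : Set GolayPt) = D at i2 ⊢
  have mD : ∀ g ∈ D, g ∈ M24 ∧ (g none = none ∧ g (some 0) = some 0 ∨ g none = some 0 ∧ g (some 0) = none) := fun g i => by
    rw [← hD] at i
    have e : g • ({none, some 0} : Set GolayPt) = {none, some 0} := i.2
    have a : g none ∈ ({none, some 0} : Set GolayPt) := e ▸ Set.smul_mem_smul_set (by simp)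
    have b : g (some 0) ∈ ({none, some 0} : Set GolayPt) := e ▸ Set.smul_mem_smul_set (by simp)
    refine ⟨i.1, ?_⟩
    rcases a with a | a <;> rcases b with b | b
    · exact absurd (g.injective (a.trans b.symm)) (by simp)
    · exact .inl ⟨a, b⟩
    · exact .inr ⟨a, b⟩
    · exact absurd (g.injective (a.trans b.symm)) (by simp)
  have l : Spor.M22 ≤ D := fun g i => hD ▸ ⟨i.1.1, by
    show g • ({none, some 0} : Set GolayPt) = _
    rw [Set.smul_set_insert, Set.smul_set_singleton, show g • (none : GolayPt) = none from i.1.2,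
      show g • (some 0 : GolayPt) = some 0 from i.2]⟩
  have nD : D ≤ normalizer (Spor.M22 : Set (Equiv.Perm GolayPt)) := fun g i => by
    rcases mD g i with ⟨m, ⟨a, b⟩ | ⟨a, b⟩⟩
    · exact le_normalizer (show g ∈ Spor.M22 from ⟨⟨m, a⟩, b⟩)
    · exact mem_normalizer_fintype (Cfsg.Agent.S5599.result g m a b).2.1
  have := H14.simple_M22
  have : Fact (Nat.Prime 3) := ⟨by norm_num⟩
  have ci : Function.Injective (MulAut.conj : Spor.M22 →* MulAut Spor.M22) := by
    refine (MonoidHom.ker_eq_bot_iff _).1 ((MonoidHom.normal_ker _).eq_bot_or_eq_top.resolve_right fun t => ?_)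
    obtain ⟨x, ox⟩ := exists_prime_orderOf_dvd_card' (G := Spor.M22) 3 (by rw [H14.card_M22]; norm_num)
    have nx : (zpowers x).Normal := ⟨fun a i g => by
      rw [show g * a * g⁻¹ = a from DFunLike.congr_fun (show MulAut.conj g = 1 from t.ge (mem_top g)) a]; exact i⟩
    have cx := (Nat.card_zpowers x).trans ox
    rcases nx.eq_bot_or_eq_top with r | r <;> rw [r] at cx
    · simp at cx
    · rw [card_top, H14.card_M22] at cx; omega
  have cI : Nat.card (Inn Spor.M22) = 443520 := (Nat.card_congr (MonoidHom.ofInjective ci).toEquiv).symm.trans H14.card_M22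
  have cA : Nat.card (MulAut Spor.M22) = 887040 := by
    rw [← (Inn _).card_mul_index, cI, show (Inn Spor.M22).index = 2 from H14.out_o22]
  have cD : Nat.card D = 887040 := by
    have := (Spor.M22.subgroupOf D).card_mul_index
    rw [Nat.card_congr (subgroupOfEquivOfLe l).toEquiv, H14.card_M22, show (Spor.M22.subgroupOf D).index = 2 from i2] at this
    omega
  let φ : D →* MulAut Spor.M22 := Spor.M22.normalizerMonoidHom.comp (inclusion nD)
  have inj : Function.Injective φ := (injective_iff_map_eq_one φ).2 fun g e => by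
    have c : ∀ x ∈ Spor.M22, g.1 * x * g.1⁻¹ = x := fun x i => by
      exact congrArg Subtype.val (DFunLike.congr_fun e (⟨x, i⟩ : Spor.M22))
    rcases mD g g.2 with ⟨m, ⟨a, b⟩ | ⟨a, b⟩⟩
    · have := ci (a₁ := ⟨g, ⟨m, a⟩, b⟩) (a₂ := 1) (by rw [map_one]; exact MulEquiv.ext fun x => Subtype.ext (c x x.2))
      have e1 : g.1 = 1 := congrArg (fun x : Spor.M22 => x.1) this
      exact Subtype.ext e1
    · exact absurd ⟨1, one_mem _, fun x i => by rw [c x i]; simp⟩ (Cfsg.Agent.S5599.result g m a b).2.2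
  exact ⟨MulEquiv.ofBijective φ ((Nat.bijective_iff_injective_and_card φ).2 ⟨inj, cD.trans cA.symm⟩)⟩

end H14.YAu
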