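import Cfsg.Agent.H23.Y0
import Cfsg.Agent.H26.KX
import Cfsg.Agent.H18.YH

/-! Part Pa of S5569 (namespace `H14.YPa`). -/

set_option autoImplicit false
open Cfsg BG Subgroup H01.XS Cfsg.Agent.H06.J Cfsg.Agent.H23.K H26.JE
open H01.XT hiding Hy QS

namespace H14.YPa
universe u

def Hx' : Prop := All.{u} fun {_ _ _ _ _ _ _ _ _ _ _ _ _ _ _ T d _ β _} _ _ Y B _ _ =>
  (∀ y ∈ Y, y ≠ 1 → {v | T y v = v}.ncard = 256) → ∀ y ∈ Y, y ≠ 1 → ∀ v, T y v = v → v ∉ B →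
    ∃ y2 ∈ Y, β (v + T y2 v) (T d v) ≠ 0

theorem pa (hx : Hx'.{u}) : Cfsg.Agent.H23.Y.PaStmt.{u} := by
  intro G _ _ z Q V _ _ _ Γ _ _ f π ν T d M β q s K Y B A δ cx c2 c256 t tz t2 tY tQ tA
  have m := s.md
  have lx := m.lx
  have g := s.gm
  have ea : H20.FtW.EA A := cx.A2
  have BA : s.md.pull B ≤ A := c2.e3.ge.trans inf_le_left
  have zB : z ∈ s.md.pull B := ⟨lx.aes.mem, s.md.zz ▸ B.zero_mem⟩
  have iso := H26.KX.iso g cx.pj
  have y1 : π t ≠ 1 := fun e => tQ ((s.ker t tz).1 e)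
  have y2 := cx.hk.hx.Y2 _ tY
  have ti : t⁻¹ = t := inv_eq_of_mul_eq_one_right t2
  obtain ⟨c, cA, cδ, ec⟩ := c2.YA _ tY
  have cz := cx.Az cA
  obtain ⟨p, hp⟩ : ∃ p, p = t * c := ⟨_, rfl⟩
  have tp : t = p * c := by rw [hp, mul_assoc, ea c cA, mul_one]
  have pQ : p ∈ Q := hp ▸ (s.ker _ (mul_mem tz cz)).1 (by rw [mul s t tz c cz, ec, y2])
  have hv : T (π t) (ν p) = ν p := by
    rw [s.act t tz p pQ, ← m.inv pQ, hp, mul_inv_rev, ← mul_assoc t, t2, one_mul, inv_eq_of_mul_eq_one_right (ea c cA)]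
  have cp : c * p = p * c := mul_inv_eq_iff_eq_mul.1 (c2.cz c cz cδ p pQ (ec ▸ hv))
  have p2 : p * p = 1 := by
    calc _ = p * (c * c) * p := by rw [ea c cA, mul_one]
      _ = p * c * (c * p) := by group
      _ = p * c * (p * c) := by rw [cp]
      _ = 1 := by rw [← tp, t2]
  have vB : ν p ∉ B := fun o => tA (tp ▸ mul_mem (BA ⟨pQ, o⟩) cA)
  have at' : ∀ a ∈ A, a ∈ C_[t] ↔ a * p = p * a := fun a i => by
    rw [mem_cent1, tp, ← mul_assoc, mul_assoc p, ← ea.comm i cA, ← mul_assoc, mul_left_inj]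
  have bt : ∀ b ∈ s.md.pull B, b ∈ C_[t] ↔ β (ν b) (ν p) = 0 := fun b i => by rw [at' b (BA i), s.b b i.1 p pQ]; rfl
  obtain ⟨e, eB, ne⟩ : ∃ e ∈ s.md.pull B, β (ν e) (ν p) ≠ 0 := by
    by_contra! o
    refine vB (g.toQF.perp iso (by rw [cx.pj.cB]; norm_num) fun u i => ?_)
    obtain ⟨r, rQ, rfl⟩ := m.sur u
    rw [g.toQF.sym]; exact o r ⟨rQ, i⟩
  have c64 : Nat.card ↥(s.md.pull B ⊓ C_[t]) = 64 := by
    have := card_inf_mul_relIndex C_[t] (s.md.pull B)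
    rw [relIndex_eq_two_iff.2 ⟨e, eB, fun b i => by
      rw [bt _ (mul_mem i eB), bt b i, m.mul b i.1 e eB.1, map_add, AddMonoidHom.add_apply, z2' _ ne]
      generalize β (ν b) (ν p) = x
      revert x; decide⟩, m.card_pull, cx.pj.cB, inf_comm] at this
    omega
  have two : ∀ a ∈ A ⊓ C_[t], a ∉ s.md.pull B → π a = π t := fun a i n => by
    by_contra k
    refine vB (cx.pi.two _ (cx.AY a i.1) _ tY (fun e => n (c2.e3.le ⟨i.1, (s.ker a (cx.Az i.1)).1 e⟩)) y1 k _ ?_ hv)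
    rw [s.act a (cx.Az i.1) p pQ, (at' a i.1).1 i.2, mul_inv_cancel_right]
  have cB : c ∉ s.md.pull B := fun o => y1 (ec ▸ (s.ker c cz).2 o.1)
  have ct : c ∈ C_[t] := (at' c cA).2 cp
  let σ : V →+ V := AddMonoidHom.id V + T (π t)
  have cW : Nat.card σ.range = 16 := by
    have a1 := σ.ker.card_mul_index
    have a2 : Nat.card σ.ker = 256 := by
      rw [← c256 _ tY y1, ← Nat.card_coe_set_eq]
      exact Nat.card_congr (Equiv.subtypeEquivRight fun u => ⟨fun (e : u + T (π t) u = 0) => lc e,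
        fun (e : T (π t) u = u) => show u + T (π t) u = 0 by rw [e, m.two]⟩)
    rw [AddSubgroup.index_ker, a2, g.card] at a1
    omega
  have pp : ∀ u w, T (π t) w = w → β (u + T (π t) u) w = 0 := fun u w e => by
    have := g.toQF.inv (g.qT (π t)) u w
    rw [e] at this
    rw [map_add, AddMonoidHom.add_apply, this]; exact CharTwo.add_self_eq_zero _
  have qc : ∀ x ∈ C_[z], x * x = 1 → π x = π t → ∀ r ∈ Q, x * (r * x * r⁻¹) ∈ s.md.pull B ∧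
      ν (x * (r * x * r⁻¹)) = ν r + T (π t) (ν r) := fun x xz x2 ex r rQ => by
    have e1 : x * (r * x * r⁻¹) = x * r * x⁻¹ * r⁻¹ := by rw [inv_eq_of_mul_eq_one_right x2]; group
    have e2 : ν (x * r * x⁻¹ * r⁻¹) = ν r + T (π t) (ν r) := by
      rw [m.mul _ (lx.cE xz rQ) _ (inv_mem rQ), m.inv rQ, ← s.act x xz r rQ, ex, add_comm]
    rw [e1]
    exact ⟨⟨mul_mem (lx.cE xz rQ) (inv_mem rQ), e2 ▸ cx.pj.cm _ tY _⟩, e2⟩
  have QN : ∀ r ∈ Q, r ∈ N_(A) := fun r i => (c2.mN r (lx.le i)).2 fun v j => by rwa [(s.ker r (lx.le i)).2 i, g.one]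
  refine ⟨?_, c64, fun w ⟨wB, wt⟩ => ?_, fun a i n => ?_, c, cA, cδ, cB, fun c' h => ?_⟩
  · have := card_inf_mul_relIndex (s.md.pull B) (A ⊓ C_[t])
    rw [(relIndex_eq_two_iff (K := A ⊓ C_[t])).2 ⟨c, ⟨cA, ct⟩, fun a i => by
      by_cases k : a ∈ s.md.pull B
      · exact .inr ⟨k, fun o => cB ((mul_mem_cancel_left k).1 o)⟩
      · exact .inl ⟨c2.e3.le ⟨mul_mem i.1 cA, (s.ker _ (cx.Az (mul_mem i.1 cA))).1
          (by rw [mul s a (cx.Az i.1) c cz, two a i k, ec, y2])⟩, k⟩⟩, ← inf_assoc, inf_eq_left.2 BA, c64] at this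
    omega
  · obtain ⟨y', y'Y, n⟩ := hx s K Y B A δ cx c256 _ tY y1 _ hv vB
    obtain ⟨a, aA, -, rfl⟩ := c2.YA y' y'Y
    have az := cx.Az aA
    have n' : ν p + T (π a) (ν p) ∉ σ.range := by
      rintro ⟨u, o⟩
      refine n (o ▸ pp u _ ?_)
      rw [← g.mul, g.Md _ (cx.hk.KM (cx.hk.hx.YK tY)), g.mul, hv]
    have uB := cx.pj.cm _ y'Y (ν p)
    let H : AddSubgroup V := B ⊓ (β.flip (ν p)).ker
    have l : ex σ.range (ν p + T (π a) (ν p)) ≤ H := ex_le (by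
      rintro _ ⟨u, rfl⟩
      exact ⟨cx.pj.cm _ tY u, pp u _ hv⟩) ⟨uB, by
        have := g.pol (ν p) (T (π a) (ν p))
        rw [cx.pj.qB _ uB, g.qT, CharTwo.add_self_eq_zero, zero_add] at this
        show β (ν p + T (π a) (ν p)) (ν p) = 0
        rw [map_add, AddMonoidHom.add_apply, g.toQF.alt, g.toQF.sym, ← this, zero_add]⟩
    have a1 := card_ex n'
    have a2 : 2 * Nat.card H ≤ Nat.card B := grow inf_le_left eB.2 fun k => ne k.2
    rw [cx.pj.cB] at a2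
    have eH := AddSubgroup.eq_of_le_of_card_ge l (by omega)
    have et : e * t * e⁻¹ = t * z := by
      have := (lx.cm eB.1 pQ).resolve_left fun o => ne ((s.b e eB.1 p pQ).2 o)
      calc _ = e * p * (c * e⁻¹) := by rw [tp]; group
        _ = z * (p * c) := by rw [this, ea.comm cA (inv_mem (BA eB))]; group
        _ = _ := by rw [← tp, mem_cent1.1 tz]
    suffices k : ∃ r ∈ N_(A), ∃ w' ∈ s.md.pull B, ν w' = ν w ∧ r * t * r⁻¹ = t * w' by
      obtain ⟨r, rN, w', w'B, e1, e2⟩ := k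
      rcases m.eq wB.1 w'B.1 e1.symm with rfl | rfl
      · exact ⟨r, rN, e2⟩
      · refine ⟨e * r, mul_mem (QN e eB.1) rN, ?_⟩
        calc _ = e * (r * t * r⁻¹) * e⁻¹ := by group
          _ = e * t * (w' * e⁻¹) := by rw [e2]; group
          _ = e * t * e⁻¹ * w' := by rw [ea.comm (BA w'B) (inv_mem (BA eB))]; group
          _ = _ := by rw [et, mul_assoc]
    rcases mem_ex.1 (eH.ge ⟨wB.2, (bt w wB).1 wt⟩) with ⟨u, o⟩ | ⟨u, o⟩ <;> obtain ⟨r, rQ, rfl⟩ := m.sur u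
    · exact ⟨r, QN r rQ, _, (qc t tz t2 rfl r rQ).1, (qc t tz t2 rfl r rQ).2.trans o, by rw [← mul_assoc, t2, one_mul]⟩
    · have w1Q : p * (a * p * a⁻¹) ∈ Q := mul_mem pQ (lx.cE az pQ)
      have v1 : ν (p * (a * p * a⁻¹)) = ν p + T (π a) (ν p) := by rw [m.mul _ pQ _ (lx.cE az pQ), s.act a az p pQ]
      have w1B : p * (a * p * a⁻¹) ∈ s.md.pull B := ⟨w1Q, v1 ▸ uB⟩
      have e1 : a * t * a⁻¹ = t * (p * (a * p * a⁻¹)) := by
        calc _ = a * p * (c * a⁻¹) := by rw [tp]; group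
          _ = p * (p * (a * p * a⁻¹) * c) := by rw [ea.comm cA (inv_mem aA), ← mul_assoc p, ← mul_assoc p, p2]; group
          _ = _ := by rw [ea.comm (BA w1B) cA, tp]; group
      generalize p * (a * p * a⁻¹) = w1 at *
      have v2 := m.cq rQ w1Q
      refine ⟨r * a, mul_mem (QN r rQ) (le_normalizer aA), t * (r * t * r⁻¹) * (r * w1 * r⁻¹),
        mul_mem (qc t tz t2 rfl r rQ).1 ⟨lx.cE (lx.le rQ) w1Q, v2 ▸ w1B.2⟩, ?_, ?_⟩
      · rw [m.mul _ (qc t tz t2 rfl r rQ).1.1 _ (lx.cE (lx.le rQ) w1Q), (qc t tz t2 rfl r rQ).2, v2, v1,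
          show ν r + T (π t) (ν r) = _ from o, add_assoc, m.two, add_zero]
      · rw [← mul_assoc t, ← mul_assoc t, t2, one_mul, conj_mul, ← e1]; group
  · exact (s.ker _ (mul_mem tz (cx.Az i.1))).1 (by rw [mul s t tz a (cx.Az i.1), two a i n, y2])
  · have k : c' ∈ A ⊓ C_[t] ∧ π c' = π t := by
      rcases h with rfl | rfl
      · exact ⟨⟨cA, ct⟩, ec⟩
      · exact ⟨⟨mul_mem cA (BA zB), mul_mem ct (mem_cent1.2 (mem_cent1.1 tz).symm)⟩, by
          rw [mul s c cz z (mem_cent1_self z), (s.ker z (mem_cent1_self z)).2 zB.1, mul_one, ec]⟩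
    rw [← cW, ← SetLike.coe_sort_coe, Nat.card_coe_set_eq]
    refine le_trans (Set.ncard_le_ncard ?_) (Set.ncard_image_le (f := fun x => ν (c' * x)))
    rintro _ ⟨u, rfl⟩
    obtain ⟨r, rQ, rfl⟩ := m.sur u
    obtain ⟨b1, b2⟩ := qc c' (cx.Az k.1.1) (ea c' k.1.1) k.2 r rQ
    refine ⟨r * c' * r⁻¹, ⟨(mem_cent1.1 ?_).symm, r, rQ, rfl⟩, b2⟩
    exact (mul_mem_cancel_left (mem_inf.1 k.1).2).1 ((bt _ b1).2 (b2 ▸ pp _ _ hv))

theorem pa' : Cfsg.Agent.H23.Y.PaStmt.{u} := pa (by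
  intro G _ _ z Q V _ _ _ Γ _ _ f π ν T d M β q s K Y B A δ cx c y i n v e b
  exact H18.YH.hx s.gm cx.hk.hx cx.hk.KM cx.pj cx.pi c i n e b)

end H14.YPa
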